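import Mathlib
import Cfsg.Agent.Lib.Helper45.TU.Geo

set_option autoImplicit false
set_option linter.unusedVariables false
set_option linter.unusedSectionVars false

namespace Cfsg.Agent.Lib.Helper45.TU

open Matrix hiding col row
open scoped Kronecker
open Cfsg.Agent.Lib.Helper99.Tens
open Cfsg.Agent.Lib.Helper99.TSp (Ind)

variable {A B : Type} [Fintype A] [DecidableEq A] [Fintype B] [DecidableEq B] {F : Type*} [Field F] [Finite F]
variable {φ : F →+* F} {J₁ : Matrix A A F} {J₂ : Matrix B B F} {G : Subgroup (GL (A × B) F)}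

/-- a non-scalar matrix moves some isotropic line. -/
theorem exists_non_eigen (h₁ : Hrm φ J₁) (h2 : 2 ≤ Fintype.card A) {κ : Matrix A A F}
    (hns : ∀ c : F, κ ≠ c • (1 : Matrix A A F)) :
    ∃ z : A → F, pr φ J₁ z z = 0 ∧ Ind z (κ *ᵥ z) := by
  by_contra hcon
  push Not at hcon
  have heig : ∀ z : A → F, z ≠ 0 → pr φ J₁ z z = 0 → ∃ c : F, κ *ᵥ z = c • z := fun z hz0 hz =>
    Cfsg.Agent.Lib.Helper99.TSp.exists_smul_of_not_ind hz0 (hcon z hz)
  obtain ⟨z₀, hz₀0, hz₀⟩ := exists_iso h₁ h2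
  obtain ⟨l, hl⟩ := heig z₀ hz₀0 hz₀
  obtain ⟨θ, hθ0, hθ⟩ := exists_skew h₁
  have hall : ∀ z : A → F, pr φ J₁ z z = 0 → κ *ᵥ z = l • z := by
    intro z hz
    by_cases hI : Ind z₀ z
    · have hz0 : z ≠ 0 := hI.right_ne
      obtain ⟨c, hc⟩ := heig z hz0 hz
      -- a third isotropic vector
      obtain ⟨μ, hμ0, hμ⟩ : ∃ μ : F, μ ≠ 0 ∧ pr φ J₁ (z₀ + μ • z) (z₀ + μ • z) = 0 := by
        by_cases hγ : pr φ J₁ z₀ z = 0
        · refine ⟨1, one_ne_zero, ?_⟩
          simp only [one_smul, pr_add_left, pr_add_right, hz₀, hz, hγ, pr_swap0 h₁ hγ, add_zero]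
        · refine ⟨θ * pr φ J₁ z₀ z, mul_ne_zero hθ0 hγ, ?_⟩
          simp only [pr_add_left, pr_add_right, pr_smul_left, pr_smul_right, hz₀, hz, map_mul]
          rw [h₁.herm z₀ z]
          linear_combination (pr φ J₁ z₀ z * pr φ J₁ z z₀) * hθ
      have hne : z₀ + μ • z ≠ 0 := by
        intro h0
        have := hI 1 μ (by rw [one_smul]; exact h0)
        exact one_ne_zero this.1
      obtain ⟨ν, hν⟩ := heig _ hne hμ
      rw [Matrix.mulVec_add, Matrix.mulVec_smul, hl, hc] at hν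
      have h3 := hI (l - ν) (μ * c - ν * μ) (by
        have : (l - ν) • z₀ + (μ * c - ν * μ) • z = l • z₀ + μ • c • z - ν • (z₀ + μ • z) := by
          module
        rw [this, hν, sub_self])
      have h4 : l = ν := sub_eq_zero.1 h3.1
      have h5 : μ * c = ν * μ := sub_eq_zero.1 h3.2
      have h6 : c = l := by
        rw [h4]
        apply mul_left_cancel₀ hμ0
        rw [h5, mul_comm]
      rw [hc, h6]
    · obtain ⟨c, hc⟩ := Cfsg.Agent.Lib.Helper99.TSp.exists_smul_of_not_ind hz₀0 hI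
      rw [hc, Matrix.mulVec_smul, hl, smul_comm]
  have hall' : ∀ w : A → F, κ *ᵥ w = l • w := by
    apply span_iso h₁ h2 (fun w => κ *ᵥ w = l • w)
    · intro w w' hw hw'
      rw [Matrix.mulVec_add, hw, hw', smul_add]
    · exact hall
  apply hns l
  rw [Matrix.ext_iff_mulVec]
  intro w
  rw [hall', Matrix.smul_mulVec, Matrix.one_mulVec]

end Cfsg.Agent.Lib.Helper45.TU
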