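import Mathlib
import Cfsg.Agent.Lib.Helper45.TU.Geo

set_option autoImplicit false
set_option linter.unusedVariables false
set_option linter.unusedSectionVars false

namespace Cfsg.Agent.Lib.Helper45.TU

open Matrix hiding col row
open scoped Kronecker
open Cfsg.Agent.Lib.Helper99.Tens
open Cfsg.Agent.Lib.Helper99.TSp (Ind)

variable {A B : Type} [Fintype A] [DecidableEq A] [Fintype B] [DecidableEq B] {F : Type*} [Field F] [Finite F]
variable {φ : F →+* F} {J₁ : Matrix A A F} {J₂ : Matrix B B F} {G : Subgroup (GL (A × B) F)}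

lemma short_aux_mul {n : Type} [Fintype n] [DecidableEq n] {J : Matrix n n F} (x w x' w' : n → F) :
    vecMulVec x (fl φ J w) * vecMulVec x' (fl φ J w') = pr φ J x' w • vecMulVec x (fl φ J w') := by
  rw [vmv_mul_vmv]
  rfl

lemma short_aux_mulVec {n : Type} [Fintype n] [DecidableEq n] {J : Matrix n n F} (x w v : n → F) :
    vecMulVec x (fl φ J w) *ᵥ v = pr φ J v w • x := by
  rw [Matrix.vecMulVec_mulVec, op_smul_eq_smul]
  rfl

/-- short root elements of `SU`. -/
lemma short_su {n : Type} [Fintype n] [DecidableEq n] {J : Matrix n n F} (hJ : Hrm φ J) {y w : n → F}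
    (hy : pr φ J y y = 0) (hw : pr φ J w w = 0) (hyw : pr φ J y w = 0) (c : F) :
    (1 + (c • vecMulVec y (fl φ J w) - φ c • vecMulVec w (fl φ J y))) *
        (1 - (c • vecMulVec y (fl φ J w) - φ c • vecMulVec w (fl φ J y))) = 1 ∧
      IsoM φ J (1 + (c • vecMulVec y (fl φ J w) - φ c • vecMulVec w (fl φ J y))) ∧
      (1 + (c • vecMulVec y (fl φ J w) - φ c • vecMulVec w (fl φ J y))).det = 1 := by
  have hwy : pr φ J w y = 0 := pr_swap0 hJ hyw
  have e1 : vecMulVec y (fl φ J w) * vecMulVec y (fl φ J w) = 0 := by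
    rw [short_aux_mul, hyw, zero_smul]
  have e2 : vecMulVec y (fl φ J w) * vecMulVec w (fl φ J y) = 0 := by
    rw [short_aux_mul, hw, zero_smul]
  have e3 : vecMulVec w (fl φ J y) * vecMulVec y (fl φ J w) = 0 := by
    rw [short_aux_mul, hy, zero_smul]
  have e4 : vecMulVec w (fl φ J y) * vecMulVec w (fl φ J y) = 0 := by
    rw [short_aux_mul, hwy, zero_smul]
  refine ⟨?_, ?_, ?_⟩
  · apply unip_mul
    simp only [Matrix.sub_mul, Matrix.mul_sub, Matrix.smul_mul, Matrix.mul_smul, e1, e2, e3, e4]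
    simp
  · intro x x'
    simp only [Matrix.add_mulVec, Matrix.one_mulVec, Matrix.sub_mulVec, Matrix.smul_mulVec,
      short_aux_mulVec]
    simp only [pr_add_left, pr_add_right, pr_sub_left, pr_sub_right, pr_smul_left, pr_smul_right,
      hy, hw, hyw, hwy, map_mul, hJ.invol]
    rw [hJ.herm x' w, hJ.herm x' y]
    ring
  · have e : (1 + (c • vecMulVec y (fl φ J w) - φ c • vecMulVec w (fl φ J y)))
        = (1 + vecMulVec (c • y) (fl φ J w)) * (1 + vecMulVec (-φ c • w) (fl φ J y)) := by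
      rw [Matrix.smul_vecMulVec, Matrix.smul_vecMulVec]
      simp only [Matrix.add_mul, Matrix.mul_add, Matrix.smul_mul, Matrix.mul_smul, e2, Matrix.one_mul,
        Matrix.mul_one]
      simp only [neg_smul, smul_zero, neg_zero, add_zero]
      abel
    rw [e, Matrix.det_mul, det_one_add_vmv, det_one_add_vmv, dotProduct_smul, dotProduct_smul]
    change (1 + c • pr φ J y w) * (1 + -φ c • pr φ J w y) = 1
    rw [hyw, hwy]
    simp

/-- short root elements of `1 ⊗ SU(B)`. -/
lemma short_mem (hS : HasU φ J₁ J₂ G) {y w : B → F} (hy : pr φ J₂ y y = 0) (hw : pr φ J₂ w w = 0)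
    (hyw : pr φ J₂ y w = 0) (c : F) :
    1 + (N φ J₂ y w (c • (1 : Matrix A A F)) - N φ J₂ w y (φ c • (1 : Matrix A A F))) ∈ MS G := by
  obtain ⟨h1, h2, h3⟩ := short_su hS.h2 hy hw hyw c
  have := hS.hB _ _ h1 h2 h3
  have e : (1 : Matrix A A F) ⊗ₖ (1 + (c • vecMulVec y (fl φ J₂ w) - φ c • vecMulVec w (fl φ J₂ y)))
      = 1 + (N φ J₂ y w (c • (1 : Matrix A A F)) - N φ J₂ w y (φ c • (1 : Matrix A A F))) := by
    rw [N_eq_kron, N_eq_kron, Matrix.kronecker_add, Matrix.one_kronecker_one, sub_eq_add_neg,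
      ← neg_smul, Matrix.kronecker_add,
      Matrix.smul_kronecker, Matrix.smul_kronecker, Matrix.kronecker_smul, Matrix.kronecker_smul,
      neg_smul, ← sub_eq_add_neg]
  rwa [e] at this

end Cfsg.Agent.Lib.Helper45.TU
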