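import Mathlib
import Cfsg.Agent.Lib.Helper45.TU.Short

set_option autoImplicit false
set_option linter.unusedVariables false
set_option linter.unusedSectionVars false

namespace Cfsg.Agent.Lib.Helper45.TU

open Matrix hiding col row
open scoped Kronecker
open Cfsg.Agent.Lib.Helper99.Tens
open Cfsg.Agent.Lib.Helper99.TSp (Ind)

variable {A B : Type} [Fintype A] [DecidableEq A] [Fintype B] [DecidableEq B] {F : Type*} [Field F] [Finite F]
variable {φ : F →+* F} {J₁ : Matrix A A F} {J₂ : Matrix B B F} {G : Subgroup (GL (A × B) F)}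

/-- `t κ t⁻¹ - κ` for the transvection `t = tv z e`. -/
lemma dz_mem (h₁ : Hrm φ J₁) {S : Set (Matrix A A F)} (hS : SAlg φ J₁ S) {κ : Matrix A A F} (hκ : κ ∈ S)
    {z : A → F} (hz : pr φ J₁ z z = 0) {e : F} (he : e + φ e = 0) :
    -(e • (vecMulVec z (fl φ J₁ (κ *ᵥ z)) + vecMulVec (κ *ᵥ z) (fl φ J₁ z)))
      - (e * e * pr φ J₁ (κ *ᵥ z) z) • vecMulVec z (fl φ J₁ z) ∈ S := by
  have h1 := hS.conj _ _ (tv_mul hz e) (tv_iso h₁ hz he) (tv_det hz e) κ hκ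
  have h2 := hS.add _ h1 _ (hS.neg _ hκ)
  have e1 : vecMulVec z (fl φ J₁ z) * κ = - vecMulVec z (fl φ J₁ (κ *ᵥ z)) := by
    rw [vmv_mul_mat h₁, hS.skew κ hκ, Matrix.neg_mulVec, fl_neg, Matrix.vecMulVec_neg]
  have e2 : κ * vecMulVec z (fl φ J₁ z) = vecMulVec (κ *ᵥ z) (fl φ J₁ z) := mul_vmv κ z z
  have e3 : vecMulVec z (fl φ J₁ (κ *ᵥ z)) * vecMulVec z (fl φ J₁ z)
      = - (pr φ J₁ (κ *ᵥ z) z • vecMulVec z (fl φ J₁ z)) := by
    rw [← neg_eq_iff_eq_neg, ← Matrix.neg_mul, ← e1, Matrix.mul_assoc, e2, vmv_mul]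
  have e : tv φ J₁ z e * κ * tv φ J₁ z (-e) + -κ
      = -(e • (vecMulVec z (fl φ J₁ (κ *ᵥ z)) + vecMulVec (κ *ᵥ z) (fl φ J₁ z)))
      - (e * e * pr φ J₁ (κ *ᵥ z) z) • vecMulVec z (fl φ J₁ z) := by
    unfold tv
    simp only [Matrix.add_mul, Matrix.mul_add, Matrix.one_mul, Matrix.mul_one, Matrix.smul_mul,
      Matrix.mul_smul, e1, e2, Matrix.neg_mul, e3]
    module
  rw [e] at h2
  exact h2

lemma case_tip (h₁ : Hrm φ J₁) {S : Set (Matrix A A F)} (hS : SAlg φ J₁ S) {z u : A → F} (h : TIP φ J₁ z u)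
    {e : F} (he0 : e ≠ 0) (he : e + φ e = 0)
    (hm : e • (vecMulVec z (fl φ J₁ u) + vecMulVec u (fl φ J₁ z)) ∈ S) :
    ∃ c : F, c ≠ 0 ∧ c + φ c = 0 ∧ c • vecMulVec z (fl φ J₁ z) ∈ S := by
  obtain ⟨z', hz'z', hz'u, hz'z⟩ := exists_partner_perp h₁ h
  have hφe : φ e = -e := by linear_combination he
  have huz' : pr φ J₁ u z' = 1 := pr_swap1 h₁ hz'u
  have hzz' : pr φ J₁ z z' = 0 := pr_swap0 h₁ hz'z
  have huz : pr φ J₁ u z = 0 := h.wy h₁
  have hk1 : (e • (vecMulVec z (fl φ J₁ u) + vecMulVec u (fl φ J₁ z))) *ᵥ z' = e • z := by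
    rw [Matrix.smul_mulVec, Matrix.add_mulVec, vmv_mulVec, vmv_mulVec, hz'u, hz'z, one_smul,
      zero_smul, add_zero]
  have h2 := dz_mem h₁ hS hm hz'z' he
  rw [hk1, pr_smul_left, hzz', mul_zero, mul_zero, zero_smul, sub_zero, fl_smul, hφe,
    Matrix.vecMulVec_smul, Matrix.smul_vecMulVec] at h2
  obtain ⟨ν, hν⟩ := exists_trace h₁ 1 (map_one φ)
  have h3 := hS.lam _ h2 _ hm ν
  have eq1 : ∀ μ : F, ν + μ = 1 →
      ν • (-(e • (-e • vecMulVec z' (fl φ J₁ z) + e • vecMulVec z (fl φ J₁ z'))) *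
        e • (vecMulVec z (fl φ J₁ u) + vecMulVec u (fl φ J₁ z))) -
      μ • (e • (vecMulVec z (fl φ J₁ u) + vecMulVec u (fl φ J₁ z)) *
        -(e • (-e • vecMulVec z' (fl φ J₁ z) + e • vecMulVec z (fl φ J₁ z'))))
      = (-(e * e * e)) • vecMulVec z (fl φ J₁ z) := by
    intro μ hμ
    simp only [Matrix.add_mul, Matrix.mul_add, Matrix.smul_mul, Matrix.mul_smul, Matrix.neg_mul,
      Matrix.mul_neg, vmv_mul, h.yy, h.yw, huz, huz', hzz', hz'u, hz'z, zero_smul, one_smul,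
      smul_zero, add_zero, zero_add, neg_zero]
    have : ν = 1 - μ := by linear_combination hμ
    rw [this]
    module
  rw [eq1 _ hν] at h3
  refine ⟨-(e * e * e), neg_ne_zero.2 (mul_ne_zero (mul_ne_zero he0 he0) he0), ?_, h3⟩
  rw [map_neg, map_mul, map_mul, hφe]
  ring

end Cfsg.Agent.Lib.Helper45.TU
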