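import Mathlib
import Cfsg.Agent.Lib.Helper45.TU.A1b

set_option autoImplicit false
set_option linter.unusedVariables false
set_option linter.unusedSectionVars false

namespace Cfsg.Agent.Lib.Helper45.TU

open Matrix hiding col row
open scoped Kronecker
open Cfsg.Agent.Lib.Helper99.Tens
open Cfsg.Agent.Lib.Helper99.TSp (Ind)

variable {A B : Type} [Fintype A] [DecidableEq A] [Fintype B] [DecidableEq B] {F : Type*} [Field F] [Finite F]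
variable {φ : F →+* F} {J₁ : Matrix A A F} {J₂ : Matrix B B F} {G : Subgroup (GL (A × B) F)}

/-- `s = ⟨κz,z⟩ ≠ 0`, odd characteristic. -/
lemma case_odd (h₁ : Hrm φ J₁) {S : Set (Matrix A A F)} (hS : SAlg φ J₁ S) {κ : Matrix A A F} (hκ : κ ∈ S)
    {z : A → F} (hz : pr φ J₁ z z = 0) (hs : pr φ J₁ (κ *ᵥ z) z ≠ 0) (h2 : (2 : F) ≠ 0) :
    ∃ c : F, c ≠ 0 ∧ c + φ c = 0 ∧ c • vecMulVec z (fl φ J₁ z) ∈ S := by
  obtain ⟨e, he0, he⟩ := exists_skew h₁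
  have hφe : φ e = -e := by linear_combination he
  obtain ⟨u, hu⟩ : ∃ u : A → F, u = κ *ᵥ z := ⟨_, rfl⟩
  obtain ⟨s, hsdef⟩ : ∃ s : F, s = pr φ J₁ u z := ⟨_, rfl⟩
  have hzu : pr φ J₁ z u = -s := by
    rw [hsdef, hu, pr_adj h₁, hS.skew κ hκ, Matrix.neg_mulVec, pr_neg_right, neg_neg]
  have hφs : φ s = -s := by
    rw [hsdef, h₁.herm, hzu, hsdef]
  have h1 := dz_mem h₁ hS hκ hz he
  rw [← hu, ← hsdef] at h1 hs
  have hk1 : (-(e • (vecMulVec z (fl φ J₁ u) + vecMulVec u (fl φ J₁ z))) -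
      (e * e * s) • vecMulVec z (fl φ J₁ z)) *ᵥ z = (e * s) • z := by
    rw [Matrix.sub_mulVec, Matrix.neg_mulVec, Matrix.smul_mulVec, Matrix.smul_mulVec,
      Matrix.add_mulVec, vmv_mulVec, vmv_mulVec, vmv_mulVec, hz, hzu]
    module
  have h3 := dz_mem h₁ hS h1 hz he
  rw [hk1, pr_smul_left, hz, mul_zero, mul_zero, zero_smul, sub_zero, fl_smul, map_mul, hφe, hφs,
    Matrix.vecMulVec_smul, Matrix.smul_vecMulVec] at h3
  have e1 : -(e • ((-e * -s) • vecMulVec z (fl φ J₁ z) + (e * s) • vecMulVec z (fl φ J₁ z)))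
      = (-(2 * (e * e * s))) • vecMulVec z (fl φ J₁ z) := by module
  rw [e1] at h3
  refine ⟨-(2 * (e * e * s)), neg_ne_zero.2 (mul_ne_zero h2 (mul_ne_zero (mul_ne_zero he0 he0) hs)),
    ?_, h3⟩
  rw [map_neg, map_mul, map_mul, map_mul, hφe, hφs, map_ofNat]
  ring

/-- `s = ⟨κz,z⟩ = 0`, `⟨κz,κz⟩ ≠ 0`. -/
lemma case_n (h₁ : Hrm φ J₁) {S : Set (Matrix A A F)} (hS : SAlg φ J₁ S) {κ : Matrix A A F} (hκ : κ ∈ S)
    {z : A → F} (hz : pr φ J₁ z z = 0) (hs : pr φ J₁ (κ *ᵥ z) z = 0)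
    (hn : pr φ J₁ (κ *ᵥ z) (κ *ᵥ z) ≠ 0) :
    ∃ c : F, c ≠ 0 ∧ c + φ c = 0 ∧ c • vecMulVec z (fl φ J₁ z) ∈ S := by
  obtain ⟨e, he0, he⟩ := exists_skew h₁
  have hφe : φ e = -e := by linear_combination he
  obtain ⟨u, hu⟩ : ∃ u : A → F, u = κ *ᵥ z := ⟨_, rfl⟩
  have h1 := dz_mem h₁ hS hκ hz he
  rw [← hu] at h1 hs hn
  rw [hs, mul_zero, zero_smul, sub_zero] at h1
  have hzu : pr φ J₁ z u = 0 := pr_swap0 h₁ hs
  obtain ⟨ν, hν⟩ := exists_not_fixed h₁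
  have h3 := hS.lam _ h1 _ h1 ν
  have e1 : ν • (-(e • (vecMulVec z (fl φ J₁ u) + vecMulVec u (fl φ J₁ z))) *
        -(e • (vecMulVec z (fl φ J₁ u) + vecMulVec u (fl φ J₁ z)))) -
      φ ν • (-(e • (vecMulVec z (fl φ J₁ u) + vecMulVec u (fl φ J₁ z))) *
        -(e • (vecMulVec z (fl φ J₁ u) + vecMulVec u (fl φ J₁ z))))
      = ((ν - φ ν) * (e * e * pr φ J₁ u u)) • vecMulVec z (fl φ J₁ z) := by
    simp only [Matrix.add_mul, Matrix.mul_add, Matrix.smul_mul, Matrix.mul_smul, Matrix.neg_mul,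
      Matrix.mul_neg, vmv_mul, hz, hs, hzu, zero_smul, smul_zero, add_zero]
    module
  rw [e1] at h3
  refine ⟨(ν - φ ν) * (e * e * pr φ J₁ u u), mul_ne_zero (sub_ne_zero.2 (Ne.symm hν))
    (mul_ne_zero (mul_ne_zero he0 he0) hn), ?_, h3⟩
  rw [map_mul, map_mul, map_mul, map_sub, h₁.invol, hφe, h₁.herm]
  ring

end Cfsg.Agent.Lib.Helper45.TU
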