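import Mathlib
import Cfsg.Agent.Lib.Helper45.TU.A1b

set_option autoImplicit false
set_option linter.unusedVariables false
set_option linter.unusedSectionVars false

namespace Cfsg.Agent.Lib.Helper45.TU

open Matrix hiding col row
open scoped Kronecker
open Cfsg.Agent.Lib.Helper99.Tens
open Cfsg.Agent.Lib.Helper99.TSp (Ind)

variable {A B : Type} [Fintype A] [DecidableEq A] [Fintype B] [DecidableEq B] {F : Type*} [Field F] [Finite F]
variable {φ : F →+* F} {J₁ : Matrix A A F} {J₂ : Matrix B B F} {G : Subgroup (GL (A × B) F)}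

/-- if the fixed field of `φ` is `{0, 1}` then `|F| = 4`. -/
lemma card_four_of_fixed (h₁ : Hrm φ J₁) (h2 : (2 : F) = 0) (hfix : ∀ e : F, φ e = e → e = 0 ∨ e = 1) :
    Nat.card F = 4 := by
  classical
  have hdbl : ∀ a : F, a + a = 0 := fun a => by rw [← two_mul, h2, zero_mul]
  have hneg : ∀ a : F, -a = a := fun a => neg_eq_of_add_eq_zero_left (hdbl a)
  obtain ⟨ω, hω⟩ := exists_not_fixed h₁
  have hφω : φ ω = ω + 1 := by
    rcases hfix (ω + φ ω) (by rw [map_add, h₁.invol, add_comm]) with h | h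
    · exfalso
      apply hω
      linear_combination h - hdbl ω
    · linear_combination h - hdbl ω
  have hall : ∀ x : F, x = 0 ∨ x = 1 ∨ x = ω ∨ x = ω + 1 := by
    intro x
    rcases hfix (x + φ x) (by rw [map_add, h₁.invol, add_comm]) with h | h
    · have hx : φ x = x := by
        linear_combination h - hdbl x
      rcases hfix x hx with h' | h'
      · exact Or.inl h'
      · exact Or.inr (Or.inl h')
    · have hx : φ (x + ω) = x + ω := by
        rw [map_add, hφω]
        linear_combination h - hdbl x + hdbl 1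
      rcases hfix _ hx with h' | h'
      · right; right; left
        linear_combination h' - hdbl ω
      · right; right; right
        linear_combination h' - hdbl ω
  have hω0 : ω ≠ 0 := by
    rintro rfl
    exact hω (map_zero φ)
  have hω1 : ω ≠ 1 := by
    rintro rfl
    exact hω (map_one φ)
  have hω10 : ω + 1 ≠ 0 := by
    intro h
    apply hω1
    linear_combination h - hdbl 1
  have : Fintype F := Fintype.ofFinite F
  have huniv : (Finset.univ : Finset F) = {0, 1, ω, ω + 1} := by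
    ext x
    simp only [Finset.mem_univ, Finset.mem_insert, Finset.mem_singleton, true_iff]
    exact hall x
  rw [Nat.card_eq_fintype_card, ← Finset.card_univ, huniv]
  rw [Finset.card_insert_of_notMem, Finset.card_insert_of_notMem, Finset.card_insert_of_notMem,
    Finset.card_singleton]
  · simp
  · simp only [Finset.mem_insert, Finset.mem_singleton, not_or]
    exact ⟨hω1.symm, fun h => hω0 (by linear_combination -h)⟩
  · simp only [Finset.mem_insert, Finset.mem_singleton, not_or]
    exact ⟨zero_ne_one, hω0.symm, hω10.symm⟩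

/-- characteristic 2, `s = ⟨κz,z⟩ ≠ 0`: either a rank one element, or (only if `|F| = 4`) the projection onto
a non-degenerate plane `⟨z,u⟩`. -/
lemma case_even (h₁ : Hrm φ J₁) {S : Set (Matrix A A F)} (hS : SAlg φ J₁ S) {κ : Matrix A A F} (hκ : κ ∈ S)
    {z : A → F} (hz : pr φ J₁ z z = 0) (hs : pr φ J₁ (κ *ᵥ z) z ≠ 0) (h2 : (2 : F) = 0) :
    (∃ c : F, c ≠ 0 ∧ c + φ c = 0 ∧ c • vecMulVec z (fl φ J₁ z) ∈ S) ∨
    (Nat.card F = 4 ∧ ∃ u : A → F, pr φ J₁ u z = 1 ∧ pr φ J₁ u u = 1 ∧
      vecMulVec z (fl φ J₁ u) + vecMulVec u (fl φ J₁ z) + vecMulVec z (fl φ J₁ z) ∈ S) := by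
  have hdbl : ∀ a : F, a + a = 0 := fun a => by rw [← two_mul, h2, zero_mul]
  have hnegF : ∀ a : F, -a = a := fun a => neg_eq_of_add_eq_zero_left (hdbl a)
  have hneg : ∀ M : Matrix A A F, -M = M := by
    intro M
    rw [neg_eq_iff_add_eq_zero, ← two_smul F M, h2, zero_smul]
  obtain ⟨u, hu⟩ : ∃ u : A → F, u = κ *ᵥ z := ⟨_, rfl⟩
  obtain ⟨s, hsdef⟩ : ∃ s : F, s = pr φ J₁ u z := ⟨_, rfl⟩
  obtain ⟨n, hndef⟩ : ∃ n : F, n = pr φ J₁ u u := ⟨_, rfl⟩
  have hzu : pr φ J₁ z u = s := by
    rw [← hnegF s, hsdef, hu, pr_adj h₁, hS.skew κ hκ, Matrix.neg_mulVec, pr_neg_right, neg_neg]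
  have hφs : φ s = s := by
    rw [hsdef, h₁.herm, hzu, hsdef]
  have hφn : φ n = n := by rw [hndef, h₁.herm]
  rw [← hu, ← hsdef] at hs
  obtain ⟨X, hX⟩ : ∃ X : Matrix A A F, X = vecMulVec z (fl φ J₁ u) := ⟨_, rfl⟩
  obtain ⟨Y, hY⟩ : ∃ Y : Matrix A A F, Y = vecMulVec u (fl φ J₁ z) := ⟨_, rfl⟩
  obtain ⟨Z, hZ⟩ : ∃ Z : Matrix A A F, Z = vecMulVec z (fl φ J₁ z) := ⟨_, rfl⟩
  have hXX : X * X = s • X := by rw [hX, vmv_mul, hzu]
  have hXY : X * Y = n • Z := by rw [hX, hY, vmv_mul, ← hndef, hZ]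
  have hXZ : X * Z = s • Z := by rw [hX, hZ, vmv_mul, hzu]
  have hYX : Y * X = 0 := by rw [hX, hY, vmv_mul, hz, zero_smul]
  have hYY : Y * Y = s • Y := by rw [hY, vmv_mul, ← hsdef]
  have hYZ : Y * Z = 0 := by rw [hY, hZ, vmv_mul, hz, zero_smul]
  have hZX : Z * X = 0 := by rw [hX, hZ, vmv_mul, hz, zero_smul]
  have hZY : Z * Y = s • Z := by rw [hY, hZ, vmv_mul, ← hsdef]
  have hZZ : Z * Z = 0 := by rw [hZ, vmv_mul, hz, zero_smul]
  have hk1 : ∀ e : F, φ e = e → e • (X + Y) + (e * e * s) • Z ∈ S := by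
    intro e he
    have h1 := dz_mem h₁ hS hκ hz (e := e) (by rw [he]; exact hdbl e)
    rw [← hu, ← hsdef, ← hX, ← hY, ← hZ, sub_eq_add_neg, hneg, hneg] at h1
    exact h1
  obtain ⟨ν, hν⟩ := exists_trace h₁ 1 (map_one φ)
  have key : ∀ e : F, φ e = e → (e * e * (n + e * s * s)) • Z ∈ S := by
    intro e he
    have h1 := hk1 e he
    have hsq : (e • (X + Y) + (e * e * s) • Z) * (e • (X + Y) + (e * e * s) • Z)
        = (e * e * s) • (X + Y) + (e * e * n) • Z := by
      simp only [Matrix.add_mul, Matrix.mul_add, Matrix.smul_mul, Matrix.mul_smul, hXX, hXY, hXZ,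
        hYX, hYY, hYZ, hZX, hZY, hZZ, smul_zero, add_zero, smul_add, smul_smul]
      match_scalars
      · ring
      · linear_combination (e * e * e * s * s) * h2
      · ring
    have h3 := hS.lam _ h1 _ h1 ν
    rw [sub_eq_add_neg, hneg, ← add_smul, hν, one_smul, hsq] at h3
    have h4 := hS.fix (e * s) (by rw [map_mul, he, hφs]) _ h1
    have h5 := hS.add _ h3 _ h4
    have e5 : (e * e * s) • (X + Y) + (e * e * n) • Z + (e * s) • (e • (X + Y) + (e * e * s) • Z)
        = (e * e * (n + e * s * s)) • Z := by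
      simp only [smul_add, smul_smul]
      match_scalars
      · linear_combination (e * e * s) * h2
      · linear_combination (e * e * s) * h2
      · ring
    rw [e5] at h5
    exact h5
  by_cases hex : ∃ e : F, φ e = e ∧ e ≠ 0 ∧ n + e * s * s ≠ 0
  · obtain ⟨e, he, he0, hne⟩ := hex
    left
    refine ⟨e * e * (n + e * s * s), mul_ne_zero (mul_ne_zero he0 he0) hne, ?_, ?_⟩
    · rw [map_mul, map_mul, map_add, map_mul, map_mul, he, hφs, hφn]
      exact hdbl _
    · rw [← hZ]; exact key e he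
  · push Not at hex
    right
    have e1 := hex 1 (map_one φ) one_ne_zero
    have hss : s * s ≠ 0 := mul_ne_zero hs hs
    have hfix : ∀ e : F, φ e = e → e = 0 ∨ e = 1 := by
      intro e he
      by_cases he0 : e = 0
      · exact Or.inl he0
      · right
        have e2 := hex e he he0
        have e3 : (e - 1) * (s * s) = 0 := by linear_combination e2 - e1
        rcases mul_eq_zero.1 e3 with h | h
        · exact sub_eq_zero.1 h
        · exact absurd h hss
    have hs1 : s = 1 := (hfix s hφs).resolve_left hs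
    have hn1 : n = 1 := by
      rw [hs1] at e1
      rw [← hnegF 1]
      linear_combination e1
    refine ⟨card_four_of_fixed h₁ h2 hfix, u, ?_, ?_, ?_⟩
    · rw [← hsdef, hs1]
    · rw [← hndef, hn1]
    · have h1 := hk1 1 (map_one φ)
      rw [one_smul, hs1, mul_one, mul_one, one_smul, hX, hY, hZ] at h1
      exact h1

end Cfsg.Agent.Lib.Helper45.TU
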