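import Mathlib
import Cfsg.Agent.Lib.Helper45.TU.A1b

set_option autoImplicit false
set_option linter.unusedVariables false
set_option linter.unusedSectionVars false

namespace Cfsg.Agent.Lib.Helper45.TU

open Matrix hiding col row
open scoped Kronecker
open Cfsg.Agent.Lib.Helper99.Tens
open Cfsg.Agent.Lib.Helper99.TSp (Ind)

variable {A B : Type} [Fintype A] [DecidableEq A] [Fintype B] [DecidableEq B] {F : Type*} [Field F] [Finite F]
variable {φ : F →+* F} {J₁ : Matrix A A F} {J₂ : Matrix B B F} {G : Subgroup (GL (A × B) F)}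

/-- characteristic 2: from the projection onto a non-degenerate plane to a rank one element. -/
lemma case_proj (h₁ : Hrm φ J₁) {S : Set (Matrix A A F)} (hS : SAlg φ J₁ S) (h3 : 3 ≤ Fintype.card A)
    (h2 : (2 : F) = 0) {z u : A → F} (hz : pr φ J₁ z z = 0) (hs : pr φ J₁ u z = 1) (hn : pr φ J₁ u u = 1)
    (hm : vecMulVec z (fl φ J₁ u) + vecMulVec u (fl φ J₁ z) + vecMulVec z (fl φ J₁ z) ∈ S) :
    ∃ (x : A → F) (c : F), x ≠ 0 ∧ c ≠ 0 ∧ c + φ c = 0 ∧ c • vecMulVec x (fl φ J₁ x) ∈ S := by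
  have hdbl : ∀ a : F, a + a = 0 := fun a => by rw [← two_mul, h2, zero_mul]
  have hzu : pr φ J₁ z u = 1 := pr_swap1 h₁ hs
  have hz0 : z ≠ 0 := by
    rintro rfl
    rw [pr_zero_right] at hs
    exact zero_ne_one hs
  have h11 : (1 : F) + φ 1 = 0 := by rw [map_one]; exact hdbl 1
  -- the isotropic case
  have iso_case : ∀ x : A → F, x ≠ 0 → pr φ J₁ x x = 0 → pr φ J₁ x z = 0 → pr φ J₁ x u = 0 →
      ∃ (x : A → F) (c : F), x ≠ 0 ∧ c ≠ 0 ∧ c + φ c = 0 ∧ c • vecMulVec x (fl φ J₁ x) ∈ S := by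
    intro x hx0 hxx hxz hxu
    have hzx : pr φ J₁ z x = 0 := pr_swap0 h₁ hxz
    have hux : pr φ J₁ u x = 0 := pr_swap0 h₁ hxu
    obtain ⟨hr, hi, hd⟩ := short_su h₁ hxx hz hxz 1
    have hrz : (1 + ((1 : F) • vecMulVec x (fl φ J₁ z) - φ 1 • vecMulVec z (fl φ J₁ x))) *ᵥ z = z := by
      rw [Matrix.add_mulVec, Matrix.one_mulVec, Matrix.sub_mulVec, Matrix.smul_mulVec,
        Matrix.smul_mulVec, vmv_mulVec, vmv_mulVec, hz, hzx]
      simp
    have hru : (1 + ((1 : F) • vecMulVec x (fl φ J₁ z) - φ 1 • vecMulVec z (fl φ J₁ x))) *ᵥ u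
        = u + x := by
      rw [Matrix.add_mulVec, Matrix.one_mulVec, Matrix.sub_mulVec, Matrix.smul_mulVec,
        Matrix.smul_mulVec, vmv_mulVec, vmv_mulVec, hs, hux]
      simp
    have h4 := hS.conj _ _ hr hi hd _ hm
    rw [Matrix.mul_add, Matrix.mul_add, Matrix.add_mul, Matrix.add_mul, vmv_conj h₁ hr hi,
      vmv_conj h₁ hr hi, vmv_conj h₁ hr hi, hrz, hru, fl_add, Matrix.vecMulVec_add,
      Matrix.add_vecMulVec] at h4
    have h5 := hS.add _ h4 _ hm
    have e5 : vecMulVec z (fl φ J₁ u) + vecMulVec z (fl φ J₁ x) +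
        (vecMulVec u (fl φ J₁ z) + vecMulVec x (fl φ J₁ z)) + vecMulVec z (fl φ J₁ z) +
        (vecMulVec z (fl φ J₁ u) + vecMulVec u (fl φ J₁ z) + vecMulVec z (fl φ J₁ z))
        = (1 : F) • (vecMulVec z (fl φ J₁ x) + vecMulVec x (fl φ J₁ z)) +
          (2 : F) • (vecMulVec z (fl φ J₁ u) + vecMulVec u (fl φ J₁ z) + vecMulVec z (fl φ J₁ z)) := by
      module
    rw [e5, h2, zero_smul, add_zero] at h5
    have htip : TIP φ J₁ z x := by
      refine ⟨?_, hz, hxx, hzx⟩
      intro a b hab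
      have h6 : pr φ J₁ (a • z + b • x) u = 0 := by rw [hab, pr_zero_left]
      rw [pr_add_left, pr_smul_left, pr_smul_left, hzu, hxu, mul_one, mul_zero, add_zero] at h6
      subst h6
      rw [zero_smul, zero_add] at hab
      exact ⟨rfl, (smul_eq_zero.1 hab).resolve_right hx0⟩
    obtain ⟨c, hc0, hc, hcS⟩ := case_tip h₁ hS htip one_ne_zero h11 h5
    exact ⟨z, c, hz0, hc0, hc, hcS⟩
  obtain ⟨x, hx0, hxz, hxu⟩ := exists_perp2 h₁ h3 z u
  by_cases hxx : pr φ J₁ x x = 0
  · exact iso_case x hx0 hxx hxz hxu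
  by_cases h4 : 4 ≤ Fintype.card A
  · obtain ⟨x', hx'0, hx'x', hx'z, hx'u⟩ := exists_iso_perp2 h₁ h4 z u
    exact iso_case x' hx'0 hx'x' hx'z hx'u
  have hcard : Fintype.card A = 3 := by omega
  have hzx : pr φ J₁ z x = 0 := pr_swap0 h₁ hxz
  have hux : pr φ J₁ u x = 0 := pr_swap0 h₁ hxu
  -- `z, u, x` is a basis
  have hli : LinearIndependent F ![z, u, x] := by
    rw [Fintype.linearIndependent_iff]
    intro g hg
    rw [Fin.sum_univ_three] at hg
    simp only [Matrix.cons_val_zero, Matrix.cons_val_one, Matrix.cons_val_two, Matrix.head_cons,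
      Matrix.tail_cons] at hg
    have k1 : pr φ J₁ (g 0 • z + g 1 • u + g 2 • x) z = 0 := by rw [hg, pr_zero_left]
    have k2 : pr φ J₁ (g 0 • z + g 1 • u + g 2 • x) u = 0 := by rw [hg, pr_zero_left]
    have k3 : pr φ J₁ (g 0 • z + g 1 • u + g 2 • x) x = 0 := by rw [hg, pr_zero_left]
    simp only [pr_add_left, pr_smul_left, hz, hs, hxz, hzu, hn, hxu, hzx, hux, mul_zero, mul_one,
      zero_add, add_zero] at k1 k2 k3
    have g2 : g 2 = 0 := (mul_eq_zero.1 k3).resolve_right hxx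
    have g0 : g 0 = 0 := by rw [k1, add_zero] at k2; exact k2
    intro i
    fin_cases i
    · exact g0
    · exact k1
    · exact g2
  have hspan := hli.span_eq_top_of_card_eq_finrank' (by
    rw [Fintype.card_fin, Module.finrank_fintype_fun_eq_card, hcard])
  have hmat : 1 + (vecMulVec z (fl φ J₁ u) + vecMulVec u (fl φ J₁ z) + vecMulVec z (fl φ J₁ z))
      = (pr φ J₁ x x)⁻¹ • vecMulVec x (fl φ J₁ x) := by
    rw [Matrix.ext_iff_mulVec]
    intro v
    have hv : v ∈ Submodule.span F (Set.range ![z, u, x]) := by rw [hspan]; trivial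
    induction hv using Submodule.span_induction with
    | mem w hw =>
      obtain ⟨i, rfl⟩ := hw
      simp only [Matrix.add_mulVec, Matrix.one_mulVec, Matrix.smul_mulVec, vmv_mulVec]
      fin_cases i
      · simp only [Fin.zero_eta, Matrix.cons_val_zero, hz, hzu, hzx, zero_smul, one_smul, add_zero,
          smul_zero]
        rw [← two_smul F z, h2, zero_smul]
      · simp only [Fin.mk_one, Matrix.cons_val_one, Matrix.head_cons, Matrix.cons_val_zero, hs, hn,
          hux, zero_smul, one_smul, smul_zero]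
        have : u + (z + u + z) = (2 : F) • (u + z) := by module
        rw [this, h2, zero_smul]
      · simp only [Fin.reduceFinMk, Matrix.cons_val_two, Matrix.tail_cons, Matrix.head_cons,
          Matrix.cons_val, hxz, hxu, zero_smul, add_zero]
        rw [smul_smul, inv_mul_cancel₀ hxx, one_smul]
    | zero => simp
    | add a b _ _ ha hb => rw [Matrix.mulVec_add, Matrix.mulVec_add, ha, hb]
    | smul c a _ ha => rw [Matrix.mulVec_smul, Matrix.mulVec_smul, ha]
  have h1S : (1 : Matrix A A F) ∈ S := by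
    have := hS.scalar 1 h11
    rwa [one_smul] at this
  have h6 := hS.add _ h1S _ hm
  rw [hmat] at h6
  refine ⟨x, (pr φ J₁ x x)⁻¹, hx0, inv_ne_zero hxx, ?_, h6⟩
  rw [map_inv₀, h₁.herm]
  exact hdbl _

end Cfsg.Agent.Lib.Helper45.TU
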