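import Mathlib
import Cfsg.Agent.Lib.Helper45.TU.Geo

set_option autoImplicit false
set_option linter.unusedVariables false
set_option linter.unusedSectionVars false

namespace Cfsg.Agent.Lib.Helper45.TU

open Matrix hiding col row
open scoped Kronecker
open Cfsg.Agent.Lib.Helper99.Tens
open Cfsg.Agent.Lib.Helper99.TSp (Ind)

variable {A B : Type} [Fintype A] [DecidableEq A] [Fintype B] [DecidableEq B] {F : Type*} [Field F] [Finite F]
variable {φ : F →+* F} {J₁ : Matrix A A F} {J₂ : Matrix B B F} {G : Subgroup (GL (A × B) F)}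

lemma xx_of_one (h₁ : Hrm φ J₁) {S : Set (Matrix A A F)} (hS : SAlg φ J₁ S) {x : A → F} {c₀ : F} (hc₀ : c₀ ≠ 0)
    (hc : c₀ + φ c₀ = 0) (h : c₀ • vecMulVec x (fl φ J₁ x) ∈ S) : x ∈ XX φ J₁ S := by
  intro c hcs
  have h1 : φ c₀ = -c₀ := by rw [eq_neg_iff_add_eq_zero, add_comm]; exact hc
  have h2 : φ c = -c := by rw [eq_neg_iff_add_eq_zero, add_comm]; exact hcs
  have hfix : φ (c / c₀) = c / c₀ := by
    rw [map_div₀, h1, h2, neg_div_neg_eq]
  have := hS.fix (c / c₀) hfix _ h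
  rwa [smul_smul, div_mul_cancel₀ _ hc₀] at this

lemma a2a_vmv_smul (l : F) (x : A → F) :
    vecMulVec (l • x) (fl φ J₁ (l • x)) = (l * φ l) • vecMulVec x (fl φ J₁ x) := by
  rw [fl_smul, Matrix.smul_vecMulVec, Matrix.vecMulVec_smul, smul_smul]

lemma xx_smul (h₁ : Hrm φ J₁) {S : Set (Matrix A A F)} (hS : SAlg φ J₁ S) {x : A → F} (hx : x ∈ XX φ J₁ S)
    (l : F) : l • x ∈ XX φ J₁ S := by
  intro c hcs
  have hfix : φ (l * φ l) = l * φ l := by
    rw [map_mul, h₁.invol, mul_comm]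
  have := hS.fix (l * φ l) hfix _ (hx c hcs)
  rwa [smul_comm, ← a2a_vmv_smul] at this

lemma xx_conj (h₁ : Hrm φ J₁) {S : Set (Matrix A A F)} (hS : SAlg φ J₁ S) {x : A → F} (hx : x ∈ XX φ J₁ S)
    {r r' : Matrix A A F} (hr : r * r' = 1) (hi : IsoM φ J₁ r) (hd : r.det = 1) : r *ᵥ x ∈ XX φ J₁ S := by
  intro c hcs
  have := hS.conj r r' hr hi hd _ (hx c hcs)
  rwa [Matrix.mul_smul, Matrix.smul_mul, vmv_conj h₁ hr hi] at this

lemma xx_add (h₁ : Hrm φ J₁) {S : Set (Matrix A A F)} (hS : SAlg φ J₁ S) {x x' : A → F} (hx : x ∈ XX φ J₁ S)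
    (hx' : x' ∈ XX φ J₁ S) (hne : pr φ J₁ x x' ≠ 0) : x + x' ∈ XX φ J₁ S := by
  intro c hcs
  obtain ⟨θ, hθ0, hθ⟩ := exists_skew h₁
  have h1 : φ θ = -θ := by rw [eq_neg_iff_add_eq_zero, add_comm]; exact hθ
  have h2 : φ c = -c := by rw [eq_neg_iff_add_eq_zero, add_comm]; exact hcs
  set γ := pr φ J₁ x x' with hγ
  have hγ' : pr φ J₁ x' x = φ γ := (h₁.herm x x').symm
  have hφγ : φ γ ≠ 0 := by
    intro h0
    apply hne
    rw [← h₁.invol γ, h0, map_zero]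
  have hlam := hS.lam _ (hx θ hθ) _ (hx' θ hθ) (c / (θ ^ 2 * φ γ))
  have e1 : (θ • vecMulVec x (fl φ J₁ x)) * (θ • vecMulVec x' (fl φ J₁ x'))
      = (θ ^ 2 * φ γ) • vecMulVec x (fl φ J₁ x') := by
    rw [Matrix.smul_mul, Matrix.mul_smul, vmv_mul, hγ', smul_smul, smul_smul]
    congr 1
    ring
  have e2 : (θ • vecMulVec x' (fl φ J₁ x')) * (θ • vecMulVec x (fl φ J₁ x))
      = (θ ^ 2 * γ) • vecMulVec x' (fl φ J₁ x) := by
    rw [Matrix.smul_mul, Matrix.mul_smul, vmv_mul, smul_smul, smul_smul]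
    congr 1
    ring
  have e3 : φ (c / (θ ^ 2 * φ γ)) = - (c / (θ ^ 2 * γ)) := by
    rw [map_div₀, map_mul, map_pow, h₁.invol, h1, h2, neg_sq, neg_div]
  have hθ2 : θ ^ 2 ≠ 0 := pow_ne_zero 2 hθ0
  rw [e1, e2, e3, smul_smul, smul_smul, div_mul_cancel₀ _ (mul_ne_zero hθ2 hφγ), neg_mul,
    div_mul_cancel₀ _ (mul_ne_zero hθ2 hne), neg_smul, sub_neg_eq_add] at hlam
  have hsum := hS.add _ (hS.add _ (hx c hcs) _ (hx' c hcs)) _ hlam
  have e4 : c • vecMulVec (x + x') (fl φ J₁ (x + x'))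
      = c • vecMulVec x (fl φ J₁ x) + c • vecMulVec x' (fl φ J₁ x')
        + (c • vecMulVec x (fl φ J₁ x') + c • vecMulVec x' (fl φ J₁ x)) := by
    rw [fl_add, Matrix.add_vecMulVec, Matrix.vecMulVec_add, Matrix.vecMulVec_add]
    simp only [smul_add]
    abel
  rw [e4]
  exact hsum

end Cfsg.Agent.Lib.Helper45.TU
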