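import Mathlib
import Cfsg.Agent.Lib.Helper45.TU.A2a

set_option autoImplicit false
set_option linter.unusedVariables false
set_option linter.unusedSectionVars false

namespace Cfsg.Agent.Lib.Helper45.TU

open Matrix hiding col row
open scoped Kronecker
open Cfsg.Agent.Lib.Helper99.Tens
open Cfsg.Agent.Lib.Helper99.TSp (Ind)

variable {A B : Type} [Fintype A] [DecidableEq A] [Fintype B] [DecidableEq B] {F : Type*} [Field F] [Finite F]
variable {φ : F →+* F} {J₁ : Matrix A A F} {J₂ : Matrix B B F} {G : Subgroup (GL (A × B) F)}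

/-- the fixed field has at least three elements unless `|F| = 4` -/
lemma a2b_exists_fixed (h₁ : Hrm φ J₁) (hcard : Nat.card F ≠ 4) (a b : F) :
    ∃ t : F, φ t = t ∧ t ≠ a ∧ t ≠ b := by
  classical
  by_contra hcon
  push Not at hcon
  apply hcard
  have hK : ∀ t, φ t = t → t = 0 ∨ t = 1 := by
    intro t ht
    by_contra hne
    push Not at hne
    obtain ⟨ht0, ht1⟩ := hne
    have c0 : (0 : F) = a ∨ (0 : F) = b := by
      by_cases h : (0 : F) = a
      · exact Or.inl h
      · exact Or.inr (hcon 0 (map_zero φ) h)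
    have c1 : (1 : F) = a ∨ (1 : F) = b := by
      by_cases h : (1 : F) = a
      · exact Or.inl h
      · exact Or.inr (hcon 1 (map_one φ) h)
    have ct : t = a ∨ t = b := by
      by_cases h : t = a
      · exact Or.inl h
      · exact Or.inr (hcon t ht h)
    have h01 : (0 : F) ≠ 1 := zero_ne_one
    rcases c0 with c0 | c0 <;> rcases c1 with c1 | c1 <;> rcases ct with ct | ct
    · exact h01 (c0.trans c1.symm)
    · exact h01 (c0.trans c1.symm)
    · exact ht0 (ct.trans c0.symm)
    · exact ht1 (ct.trans c1.symm)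
    · exact ht1 (ct.trans c1.symm)
    · exact ht0 (ct.trans c0.symm)
    · exact h01 (c0.trans c1.symm)
    · exact h01 (c0.trans c1.symm)
  have h2 : (1 : F) + 1 = 0 := by
    rcases hK (1 + 1) (by rw [map_add, map_one]) with h | h
    · exact h
    · exfalso
      have : (1 : F) = 0 := by
        have h3 : (1 : F) + 1 = 1 + 0 := by rw [h, add_zero]
        exact add_left_cancel h3
      exact one_ne_zero this
  have hdbl : ∀ x : F, x + x = 0 := by
    intro x
    have : x + x = x * (1 + 1) := by ring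
    rw [this, h2, mul_zero]
  have hneg : ∀ x : F, -x = x := fun x => neg_eq_of_add_eq_zero_left (hdbl x)
  obtain ⟨ω, hω⟩ := exists_not_fixed h₁
  have htr : ∀ x, x + φ x = 0 ∨ x + φ x = 1 := by
    intro x
    apply hK
    rw [map_add, h₁.invol, add_comm]
  have hfix0 : ∀ x, x + φ x = 0 → x = 0 ∨ x = 1 := by
    intro x hx
    apply hK
    have : φ x = -x := by rw [eq_neg_iff_add_eq_zero, add_comm]; exact hx
    rw [this, hneg]
  have hω1 : ω + φ ω = 1 := by
    rcases htr ω with h | h
    · exfalso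
      apply hω
      have : φ ω = -ω := by rw [eq_neg_iff_add_eq_zero, add_comm]; exact h
      rw [this, hneg]
    · exact h
  have hall : ∀ x : F, x = 0 ∨ x = 1 ∨ x = ω ∨ x = ω + 1 := by
    intro x
    rcases htr x with h | h
    · rcases hfix0 x h with h | h
      · exact Or.inl h
      · exact Or.inr (Or.inl h)
    · have h3 : (x + ω) + φ (x + ω) = 0 := by
        rw [map_add]
        have : x + ω + (φ x + φ ω) = (x + φ x) + (ω + φ ω) := by ring
        rw [this, h, hω1, h2]
      rcases hfix0 _ h3 with h4 | h4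
      · right; right; left
        have : x = -ω := eq_neg_of_add_eq_zero_left h4
        rw [this, hneg]
      · right; right; right
        have : x = 1 - ω := eq_sub_of_add_eq h4
        rw [this, sub_eq_add_neg, hneg, add_comm]
  have hω0 : ω ≠ 0 := by
    rintro rfl
    exact hω (map_zero φ)
  have hω1' : ω ≠ 1 := by
    rintro rfl
    exact hω (map_one φ)
  have hω2 : ω + 1 ≠ 0 := by
    intro h
    apply hω1'
    have : ω = -1 := eq_neg_of_add_eq_zero_left h
    rw [this, hneg]
  have := Fintype.ofFinite F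
  rw [Nat.card_eq_fintype_card, ← Finset.card_univ]
  have huniv : (Finset.univ : Finset F) = {0, 1, ω, ω + 1} := by
    ext x
    simp only [Finset.mem_univ, Finset.mem_insert, Finset.mem_singleton, true_iff]
    exact hall x
  rw [huniv]
  rw [Finset.card_insert_of_notMem, Finset.card_insert_of_notMem, Finset.card_insert_of_notMem,
    Finset.card_singleton]
  · simp
  · simp only [Finset.mem_insert, Finset.mem_singleton, not_or]
    refine ⟨fun h => hω1' h.symm, fun h => hω0 ?_⟩
    have h3 : (0 : F) + 1 = ω + 1 := by rw [zero_add]; exact h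
    exact (add_right_cancel h3).symm
  · simp only [Finset.mem_insert, Finset.mem_singleton, not_or]
    exact ⟨zero_ne_one, fun h => hω0 h.symm, fun h => hω2 h.symm⟩

lemma xx_exists_iso (h₁ : Hrm φ J₁) {S : Set (Matrix A A F)} (hS : SAlg φ J₁ S) (h2 : 2 ≤ Fintype.card A)
    (hex : ¬ (Fintype.card A = 2 ∧ Nat.card F = 4)) {x : A → F} (hx : x ∈ XX φ J₁ S) (hne : pr φ J₁ x x ≠ 0) :
    ∃ z : A → F, z ≠ 0 ∧ pr φ J₁ z z = 0 ∧ z ∈ XX φ J₁ S := by
  have hx0 : x ≠ 0 := by
    rintro rfl
    exact hne (pr_zero_left _)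
  have hnegx : -x ∈ XX φ J₁ S := by
    have := xx_smul h₁ hS hx (-1)
    rwa [neg_smul, one_smul] at this
  by_cases h3 : 3 ≤ Fintype.card A
  · obtain ⟨z, hz0, hzz, hzx⟩ := exists_iso_perp1 h₁ h3 x
    have hxz : pr φ J₁ x z = 0 := pr_swap0 h₁ hzx
    have hn : pr φ J₁ x x = pr φ J₁ (x + z) (x + z) := by
      simp only [pr_add_left, pr_add_right, hzz, hzx, hxz]
      ring
    have hxz0 : x + z ≠ 0 := by
      intro h
      rw [h, pr_zero_left] at hn
      exact hne hn
    obtain ⟨s, s', hs, hi, hd, hsx⟩ := witt_one h₁ h3 hx0 hxz0 hn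
    have h4 : x + z ∈ XX φ J₁ S := by
      rw [← hsx]
      exact xx_conj h₁ hS hx hs hi hd
    have h5 := xx_add h₁ hS h4 hnegx (by
      rw [pr_neg_right, pr_add_left, hzx, add_zero]
      exact neg_ne_zero.2 hne)
    refine ⟨z, hz0, hzz, ?_⟩
    have e : x + z + -x = z := by abel
    rwa [e] at h5
  · have hF : Nat.card F ≠ 4 := fun h => hex ⟨by omega, h⟩
    obtain ⟨z, z', hzz, hz'z', hzz', hxe⟩ := exists_hyp_decomp h₁ h2 hne
    have hz0 : z ≠ 0 := by
      rintro rfl
      exact hzz' (pr_zero_left _)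
    set γ := pr φ J₁ x z with hγ
    have hγ0 : γ ≠ 0 := by
      rw [hγ, hxe, pr_add_left, hzz, zero_add]
      intro h
      exact hzz' (pr_swap0 h₁ h)
    have hγ' : pr φ J₁ z x = φ γ := (h₁.herm x z).symm
    have hφγ : φ γ ≠ 0 := by
      intro h0
      apply hγ0
      rw [← h₁.invol γ, h0, map_zero]
    obtain ⟨θ, hθ0, hθ⟩ := exists_skew h₁
    have h1 : φ θ = -θ := by rw [eq_neg_iff_add_eq_zero, add_comm]; exact hθ
    obtain ⟨t, ht, ht0, ht1⟩ := a2b_exists_fixed h₁ hF 0 (-(pr φ J₁ x x) / (θ * (γ * φ γ)))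
    have he : θ * t + φ (θ * t) = 0 := by
      rw [map_mul, h1, ht]; ring
    have he0 : θ * t ≠ 0 := mul_ne_zero hθ0 ht0
    have hmem := xx_conj h₁ hS hx (tv_mul hzz (θ * t)) (tv_iso h₁ hzz he) (tv_det hzz _)
    rw [tv_mulVec, ← hγ] at hmem
    have h5 := xx_add h₁ hS hmem hnegx (by
      rw [pr_neg_right, pr_add_left, pr_smul_left, hγ']
      apply neg_ne_zero.2
      intro h
      apply ht1
      have hd0 : θ * (γ * φ γ) ≠ 0 := mul_ne_zero hθ0 (mul_ne_zero hγ0 hφγ)
      rw [eq_div_iff hd0]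
      linear_combination h)
    refine ⟨(θ * t * γ) • z, smul_ne_zero (mul_ne_zero he0 hγ0) hz0, ?_, ?_⟩
    · rw [pr_smul_left, pr_smul_right, hzz, mul_zero, mul_zero]
    · have e : x + (θ * t * γ) • z + -x = (θ * t * γ) • z := by abel
      rwa [e] at h5

end Cfsg.Agent.Lib.Helper45.TU
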