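import Mathlib
import Cfsg.Agent.Lib.Helper45.TU.A2a

set_option autoImplicit false
set_option linter.unusedVariables false
set_option linter.unusedSectionVars false

namespace Cfsg.Agent.Lib.Helper45.TU

open Matrix hiding col row
open scoped Kronecker
open Cfsg.Agent.Lib.Helper99.Tens
open Cfsg.Agent.Lib.Helper99.TSp (Ind)

variable {A B : Type} [Fintype A] [DecidableEq A] [Fintype B] [DecidableEq B] {F : Type*} [Field F] [Finite F]
variable {φ : F →+* F} {J₁ : Matrix A A F} {J₂ : Matrix B B F} {G : Subgroup (GL (A × B) F)}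

/-- one step: from an isotropic vector of `XX` to a non-orthogonal isotropic vector -/
lemma a2c_step (h₁ : Hrm φ J₁) {S : Set (Matrix A A F)} (hS : SAlg φ J₁ S)
    {z₀ z : A → F} (h0 : pr φ J₁ z₀ z₀ = 0) (hx : z₀ ∈ XX φ J₁ S) (hz : pr φ J₁ z z = 0)
    (hne : pr φ J₁ z₀ z ≠ 0) : z ∈ XX φ J₁ S := by
  obtain ⟨θ, hθ0, hθ⟩ := exists_skew h₁
  have h1 : φ θ = -θ := by rw [eq_neg_iff_add_eq_zero, add_comm]; exact hθ
  set γ := pr φ J₁ z₀ z with hγ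
  have hγ' : pr φ J₁ z z₀ = φ γ := (h₁.herm z₀ z).symm
  have hφγ : φ γ ≠ 0 := by
    intro h0
    apply hne
    rw [← h₁.invol γ, h0, map_zero]
  -- `z₂ = z₀ + μ z`, `μ = θ γ`
  have hz2 : pr φ J₁ (z₀ + (θ * γ) • z) (z₀ + (θ * γ) • z) = 0 := by
    simp only [pr_add_left, pr_add_right, pr_smul_left, pr_smul_right, h0, hz, hγ', ← hγ, map_mul, h1]
    ring
  have hp : pr φ J₁ z₀ (z₀ + (θ * γ) • z) = -(θ * (γ * φ γ)) := by
    simp only [pr_add_right, pr_smul_right, h0, ← hγ, map_mul, h1]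
    ring
  have hd0 : θ * (γ * φ γ) ≠ 0 := mul_ne_zero hθ0 (mul_ne_zero hne hφγ)
  have he : (θ * (γ * φ γ))⁻¹ + φ ((θ * (γ * φ γ))⁻¹) = 0 := by
    rw [map_inv₀, map_mul, map_mul, h₁.invol, h1, mul_comm (φ γ) γ, neg_mul, inv_neg, add_neg_cancel]
  have hmem := xx_conj h₁ hS hx (tv_mul hz2 ((θ * (γ * φ γ))⁻¹)) (tv_iso h₁ hz2 he) (tv_det hz2 _)
  rw [tv_mulVec, hp, mul_neg, inv_mul_cancel₀ hd0, neg_smul, one_smul] at hmem
  have e : z₀ + -(z₀ + (θ * γ) • z) = (-(θ * γ)) • z := by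
    rw [neg_smul]; abel
  rw [e] at hmem
  have h3 := xx_smul h₁ hS hmem (-(θ * γ))⁻¹
  rwa [smul_smul, inv_mul_cancel₀ (neg_ne_zero.2 (mul_ne_zero hθ0 hne)), one_smul] at h3

lemma xx_all_iso (h₁ : Hrm φ J₁) {S : Set (Matrix A A F)} (hS : SAlg φ J₁ S) (h2 : 2 ≤ Fintype.card A)
    {z₀ : A → F} (hz₀ : z₀ ≠ 0) (h0 : pr φ J₁ z₀ z₀ = 0) (hx : z₀ ∈ XX φ J₁ S) :
    ∀ z : A → F, pr φ J₁ z z = 0 → z ∈ XX φ J₁ S := by
  intro z hz
  by_cases hz0 : z = 0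
  · have := xx_smul h₁ hS hx 0
    rwa [zero_smul, ← hz0] at this
  by_cases hne : pr φ J₁ z₀ z = 0
  · obtain ⟨v', hv', hv'z⟩ := exists_partner h₁ hz0 hz
    have hfin : v' ∈ XX φ J₁ S → z ∈ XX φ J₁ S := fun h =>
      a2c_step h₁ hS hv' h hz (by rw [hv'z]; exact one_ne_zero)
    by_cases h3 : pr φ J₁ z₀ v' = 0
    · obtain ⟨v, hv, hvz⟩ := exists_partner h₁ hz₀ h0
      have hvX : v ∈ XX φ J₁ S :=
        a2c_step h₁ hS h0 hx hv (by rw [pr_swap1 h₁ hvz]; exact one_ne_zero)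
      by_cases h4 : pr φ J₁ v v' = 0
      · have hw : pr φ J₁ (z₀ + v') (z₀ + v') = 0 := by
          simp only [pr_add_left, pr_add_right, h0, hv', h3, pr_swap0 h₁ h3]
          ring
        have hwX : z₀ + v' ∈ XX φ J₁ S :=
          a2c_step h₁ hS hv hvX hw (by rw [pr_add_right, hvz, h4, add_zero]; exact one_ne_zero)
        exact a2c_step h₁ hS hw hwX hz (by rw [pr_add_left, hne, hv'z, zero_add]; exact one_ne_zero)
      · exact hfin (a2c_step h₁ hS hv hvX hv' h4)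
    · exact hfin (a2c_step h₁ hS h0 hx hv' h3)
  · exact a2c_step h₁ hS h0 hx hz hne

end Cfsg.Agent.Lib.Helper45.TU
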