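import Mathlib
import Cfsg.Agent.Lib.Helper45.TU.A1a
import Cfsg.Agent.Lib.Helper45.TU.A1c
import Cfsg.Agent.Lib.Helper45.TU.A1d
import Cfsg.Agent.Lib.Helper45.TU.A1e

set_option autoImplicit false
set_option linter.unusedVariables false
set_option linter.unusedSectionVars false

namespace Cfsg.Agent.Lib.Helper45.TU

open Matrix hiding col row
open scoped Kronecker
open Cfsg.Agent.Lib.Helper99.Tens
open Cfsg.Agent.Lib.Helper99.TSp (Ind)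

variable {A B : Type} [Fintype A] [DecidableEq A] [Fintype B] [DecidableEq B] {F : Type*} [Field F] [Finite F]
variable {φ : F →+* F} {J₁ : Matrix A A F} {J₂ : Matrix B B F} {G : Subgroup (GL (A × B) F)}

theorem alg1 (h₁ : Hrm φ J₁) {S : Set (Matrix A A F)} (hS : SAlg φ J₁ S) (h2 : 2 ≤ Fintype.card A)
    (hex : ¬ (Fintype.card A = 2 ∧ Nat.card F = 4)) {κ₀ : Matrix A A F} (hκ : κ₀ ∈ S)
    (hns : ∀ c : F, κ₀ ≠ c • (1 : Matrix A A F)) :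
    ∃ (x : A → F) (c : F), x ≠ 0 ∧ c ≠ 0 ∧ c + φ c = 0 ∧ c • vecMulVec x (fl φ J₁ x) ∈ S := by
  obtain ⟨z, hz, hI⟩ := exists_non_eigen h₁ h2 hns
  have hz0 : z ≠ 0 := hI.left_ne
  by_cases hs : pr φ J₁ (κ₀ *ᵥ z) z = 0
  · by_cases hn : pr φ J₁ (κ₀ *ᵥ z) (κ₀ *ᵥ z) = 0
    · obtain ⟨θ, hθ0, hθ⟩ := exists_skew h₁
      have hT : TIP φ J₁ z (κ₀ *ᵥ z) := ⟨hI, hz, hn, pr_swap0 h₁ hs⟩
      have h1 := dz_mem h₁ hS hκ hz hθ
      rw [hs, mul_zero, zero_smul, sub_zero] at h1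
      have h2' := hS.neg _ h1
      rw [neg_neg] at h2'
      obtain ⟨c, hc0, hc, hm⟩ := case_tip h₁ hS hT hθ0 hθ h2'
      exact ⟨z, c, hz0, hc0, hc, hm⟩
    · obtain ⟨c, hc0, hc, hm⟩ := case_n h₁ hS hκ hz hs hn
      exact ⟨z, c, hz0, hc0, hc, hm⟩
  · by_cases h20 : (2 : F) = 0
    · rcases case_even h₁ hS hκ hz hs h20 with ⟨c, hc0, hc, hm⟩ | ⟨h4, u, hu1, hu2, hm⟩
      · exact ⟨z, c, hz0, hc0, hc, hm⟩
      · have h3 : 3 ≤ Fintype.card A := by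
          by_contra hcon
          exact hex ⟨by omega, h4⟩
        exact case_proj h₁ hS h3 h20 hz hu1 hu2 hm
    · obtain ⟨c, hc0, hc, hm⟩ := case_odd h₁ hS hκ hz hs h20
      exact ⟨z, c, hz0, hc0, hc, hm⟩

end Cfsg.Agent.Lib.Helper45.TU
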