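import Mathlib
import Cfsg.Agent.Lib.Helper45.TU.A2b
import Cfsg.Agent.Lib.Helper45.TU.A2c

set_option autoImplicit false
set_option linter.unusedVariables false
set_option linter.unusedSectionVars false

namespace Cfsg.Agent.Lib.Helper45.TU

open Matrix hiding col row
open scoped Kronecker
open Cfsg.Agent.Lib.Helper99.Tens
open Cfsg.Agent.Lib.Helper99.TSp (Ind)

variable {A B : Type} [Fintype A] [DecidableEq A] [Fintype B] [DecidableEq B] {F : Type*} [Field F] [Finite F]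
variable {φ : F →+* F} {J₁ : Matrix A A F} {J₂ : Matrix B B F} {G : Subgroup (GL (A × B) F)}

theorem alg2 (h₁ : Hrm φ J₁) {S : Set (Matrix A A F)} (hS : SAlg φ J₁ S) (h2 : 2 ≤ Fintype.card A)
    (hex : ¬ (Fintype.card A = 2 ∧ Nat.card F = 4)) {x : A → F} {c₀ : F} (hx : x ≠ 0) (hc₀ : c₀ ≠ 0)
    (hc : c₀ + φ c₀ = 0) (h : c₀ • vecMulVec x (fl φ J₁ x) ∈ S) :
    ∀ (a : A → F) (c : F), c + φ c = 0 → c • vecMulVec a (fl φ J₁ a) ∈ S := by
  have hx0 : x ∈ XX φ J₁ S := xx_of_one h₁ hS hc₀ hc h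
  obtain ⟨z₀, hz₀, h0, hzX⟩ : ∃ z : A → F, z ≠ 0 ∧ pr φ J₁ z z = 0 ∧ z ∈ XX φ J₁ S := by
    by_cases hxx : pr φ J₁ x x = 0
    · exact ⟨x, hx, hxx, hx0⟩
    · exact xx_exists_iso h₁ hS h2 hex hx0 hxx
  have hiso := xx_all_iso h₁ hS h2 hz₀ h0 hzX
  intro a
  by_cases haa : pr φ J₁ a a = 0
  · exact hiso a haa
  · obtain ⟨z, z', hz, hz', hne, rfl⟩ := exists_hyp_decomp h₁ h2 haa
    exact xx_add h₁ hS (hiso z hz) (hiso z' hz') hne

end Cfsg.Agent.Lib.Helper45.TU
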