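import Mathlib
import Cfsg.Agent.Lib.Helper99.SpF
import Cfsg.Agent.Lib.Helper94.HermWitt
import Cfsg.Agent.Lib.Helper94.HermLag

set_option autoImplicit false
set_option linter.unusedSimpArgs false
set_option linter.unusedVariables false
set_option linter.unusedSectionVars false

/-! Unitary tensor calculus for `GU(A) ⊗ GU(B) ≤ SU(A ⊗ B)` (S5670): definitions and basic calculus.
`φ` is the involution of `F`; `pr φ J x w = xᵀ J φ(w)` is linear in `x` and `φ`-semilinear in `w`. -/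

namespace Cfsg.Agent.Lib.Helper45.TU

open Matrix hiding col row
open scoped Kronecker
open Cfsg.Agent.Lib.Helper99.Tens
open Cfsg.Agent.Lib.Helper99.TSp (Ind MS_comm5 ind_of_not_smul exists_smul_of_not_ind kron_mul_one kron_one_mul
  col_transpose row_transpose root_conj_aux)

section one

variable {n : Type} [Fintype n] [DecidableEq n] {F : Type*} [Field F]

/-- the conjugate vector. -/
def cj (φ : F →+* F) (w : n → F) : n → F := fun i => φ (w i)

/-- the covector `⟨·, w⟩ = J φ(w)`. -/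
def fl (φ : F →+* F) (J : Matrix n n F) (w : n → F) : n → F := J *ᵥ cj φ w

/-- the pairing `⟨x, w⟩ = xᵀ J φ(w)`: linear in `x`, semilinear in `w`. -/
def pr (φ : F →+* F) (J : Matrix n n F) (x w : n → F) : F := fl φ J w ⬝ᵥ x

variable {φ : F →+* F} {J : Matrix n n F}

lemma cj_add (w w' : n → F) : cj φ (w + w') = cj φ w + cj φ w' := by
  funext i; simp [cj]

lemma cj_smul (c : F) (w : n → F) : cj φ (c • w) = φ c • cj φ w := by
  funext i; simp [cj]

lemma cj_zero : cj φ (0 : n → F) = 0 := by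
  funext i; simp [cj]

lemma cj_neg (w : n → F) : cj φ (-w) = - cj φ w := by
  funext i; simp [cj]

lemma cj_sub (w w' : n → F) : cj φ (w - w') = cj φ w - cj φ w' := by
  funext i; simp [cj]

lemma cj_mulVec {m : Type} [Fintype m] (M : Matrix n m F) (w : m → F) : cj φ (M *ᵥ w) = M.map φ *ᵥ cj φ w := by
  funext i
  simp [cj, Matrix.mulVec, dotProduct, map_sum]

lemma fl_add (w w' : n → F) : fl φ J (w + w') = fl φ J w + fl φ J w' := by
  unfold fl; rw [cj_add, Matrix.mulVec_add]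

lemma fl_smul (c : F) (w : n → F) : fl φ J (c • w) = φ c • fl φ J w := by
  unfold fl; rw [cj_smul, Matrix.mulVec_smul]

lemma fl_zero : fl φ J (0 : n → F) = 0 := by
  unfold fl; rw [cj_zero, Matrix.mulVec_zero]

lemma fl_neg (w : n → F) : fl φ J (-w) = - fl φ J w := by
  unfold fl; rw [cj_neg, Matrix.mulVec_neg]

lemma fl_sub (w w' : n → F) : fl φ J (w - w') = fl φ J w - fl φ J w' := by
  unfold fl; rw [cj_sub, Matrix.mulVec_sub]

lemma pr_add_left (x x' w : n → F) : pr φ J (x + x') w = pr φ J x w + pr φ J x' w := by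
  unfold pr; rw [dotProduct_add]

lemma pr_add_right (x w w' : n → F) : pr φ J x (w + w') = pr φ J x w + pr φ J x w' := by
  unfold pr; rw [fl_add, add_dotProduct]

lemma pr_smul_left (c : F) (x w : n → F) : pr φ J (c • x) w = c * pr φ J x w := by
  unfold pr; rw [dotProduct_smul, smul_eq_mul]

lemma pr_smul_right (c : F) (x w : n → F) : pr φ J x (c • w) = φ c * pr φ J x w := by
  unfold pr; rw [fl_smul, smul_dotProduct, smul_eq_mul]

lemma pr_zero_left (w : n → F) : pr φ J 0 w = 0 := by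
  unfold pr; rw [dotProduct_zero]

lemma pr_zero_right (x : n → F) : pr φ J x 0 = 0 := by
  unfold pr; rw [fl_zero, zero_dotProduct]

lemma pr_neg_left (x w : n → F) : pr φ J (-x) w = - pr φ J x w := by
  unfold pr; rw [dotProduct_neg]

lemma pr_neg_right (x w : n → F) : pr φ J x (-w) = - pr φ J x w := by
  unfold pr; rw [fl_neg, neg_dotProduct]

lemma pr_sub_left (x x' w : n → F) : pr φ J (x - x') w = pr φ J x w - pr φ J x' w := by
  unfold pr; rw [dotProduct_sub]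

lemma pr_sub_right (x w w' : n → F) : pr φ J x (w - w') = pr φ J x w - pr φ J x w' := by
  unfold pr; rw [fl_sub, sub_dotProduct]

lemma pr_single (i j : n) : pr φ J (Pi.single i 1) (Pi.single j 1) = J i j := by
  unfold pr fl
  rw [dotProduct_single, mul_one]
  have : cj φ (Pi.single j (1 : F) : n → F) = Pi.single j 1 := by
    funext k
    by_cases h : k = j
    · subst h; simp [cj]
    · simp [cj, h]
  rw [this, Matrix.mulVec_single_one]
  rfl

/-- non-degenerate hermitian matrices (with respect to the involution `φ ≠ id`). -/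
structure Hrm (φ : F →+* F) (J : Matrix n n F) : Prop where
  ne_id : φ ≠ RingHom.id F
  invol : ∀ a, φ (φ a) = a
  herm : ∀ x w, φ (pr φ J x w) = pr φ J w x
  unit : IsUnit J.det

lemma pr_swap (hJ : Hrm φ J) (x w : n → F) : pr φ J x w = φ (pr φ J w x) := (hJ.herm w x).symm

lemma pr_swap0 (hJ : Hrm φ J) {x w : n → F} (h : pr φ J x w = 0) : pr φ J w x = 0 := by
  rw [pr_swap hJ, h, map_zero]

lemma pr_swap1 (hJ : Hrm φ J) {x w : n → F} (h : pr φ J x w = 1) : pr φ J w x = 1 := by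
  rw [pr_swap hJ, h, map_one]

lemma Hrm.mul_inv (hJ : Hrm φ J) : J * J⁻¹ = 1 := Matrix.mul_nonsing_inv _ hJ.unit

lemma Hrm.inv_mul (hJ : Hrm φ J) : J⁻¹ * J = 1 := Matrix.nonsing_inv_mul _ hJ.unit

lemma cj_cj (hJ : Hrm φ J) (w : n → F) : cj φ (cj φ w) = w := by
  funext i; exact hJ.invol _

lemma map_map_invol {m k : Type} (hJ : Hrm φ J) (M : Matrix m k F) : (M.map φ).map φ = M := by
  ext i j; exact hJ.invol _

/-- `Jᴴ = J`. -/
lemma Hrm.conjT (hJ : Hrm φ J) : (J.map φ)ᵀ = J := by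
  ext i j
  rw [Matrix.transpose_apply, Matrix.map_apply, ← pr_single (φ := φ) (J := J) j i, hJ.herm, pr_single]

lemma Hrm.inj (hJ : Hrm φ J) {w : n → F} (h : fl φ J w = 0) : w = 0 := by
  have h1 : cj φ w = 0 := by
    have : J⁻¹ *ᵥ (J *ᵥ cj φ w) = cj φ w := by rw [Matrix.mulVec_mulVec, hJ.inv_mul, Matrix.one_mulVec]
    rw [← this]
    unfold fl at h
    rw [h, Matrix.mulVec_zero]
  rw [← cj_cj hJ w, h1, cj_zero]

/-- representing a covector. -/
lemma exists_repr (hJ : Hrm φ J) (ψ : n → F) : ∃ w : n → F, fl φ J w = ψ :=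
  ⟨cj φ (J⁻¹ *ᵥ ψ), by unfold fl; rw [cj_cj hJ, Matrix.mulVec_mulVec, hJ.mul_inv, Matrix.one_mulVec]⟩

lemma eq_zero_of_pr (hJ : Hrm φ J) {w : n → F} (h : ∀ x, pr φ J x w = 0) : w = 0 := by
  apply hJ.inj
  funext i
  have := h (Pi.single i 1)
  unfold pr at this
  rwa [dotProduct_single, mul_one] at this

/-- isometries. -/
def IsoM (φ : F →+* F) (J : Matrix n n F) (s : Matrix n n F) : Prop :=
  ∀ x w, pr φ J (s *ᵥ x) (s *ᵥ w) = pr φ J x w

/-- the adjoint: `⟨κ x, w⟩ = ⟨x, κ† w⟩`. -/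
noncomputable def adj (φ : F →+* F) (J : Matrix n n F) (κ : Matrix n n F) : Matrix n n F := (J⁻¹ * κᵀ * J).map φ

lemma pr_adj (hJ : Hrm φ J) (κ : Matrix n n F) (x w : n → F) :
    pr φ J (κ *ᵥ x) w = pr φ J x (adj φ J κ *ᵥ w) := by
  unfold pr fl adj
  rw [cj_mulVec, map_map_invol hJ, Matrix.mulVec_mulVec, ← Matrix.mul_assoc, ← Matrix.mul_assoc, hJ.mul_inv,
    Matrix.one_mul, ← Matrix.mulVec_mulVec, Matrix.mulVec_transpose, Matrix.dotProduct_mulVec]

lemma mat_ext_pr (hJ : Hrm φ J) {M M' : Matrix n n F} (h : ∀ x w, pr φ J x (M *ᵥ w) = pr φ J x (M' *ᵥ w)) :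
    M = M' := by
  have key : ∀ w, M *ᵥ w = M' *ᵥ w := by
    intro w
    rw [← sub_eq_zero]
    apply eq_zero_of_pr hJ
    intro x
    rw [pr_sub_right, h, sub_self]
  ext i j
  have := congrFun (key (Pi.single j 1)) i
  simpa using this

lemma adj_unique (hJ : Hrm φ J) {κ κ' : Matrix n n F} (h : ∀ x w, pr φ J (κ *ᵥ x) w = pr φ J x (κ' *ᵥ w)) :
    adj φ J κ = κ' := by
  apply mat_ext_pr hJ
  intro x w
  rw [← pr_adj hJ, h]

lemma pr_adj' (hJ : Hrm φ J) (κ : Matrix n n F) (x w : n → F) :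
    pr φ J x (κ *ᵥ w) = pr φ J (adj φ J κ *ᵥ x) w := by
  rw [pr_swap hJ, pr_adj hJ, ← pr_swap hJ]

lemma adj_mul (hJ : Hrm φ J) (κ κ' : Matrix n n F) : adj φ J (κ * κ') = adj φ J κ' * adj φ J κ := by
  apply adj_unique hJ
  intro x w
  rw [← Matrix.mulVec_mulVec, pr_adj hJ, pr_adj hJ, Matrix.mulVec_mulVec]

lemma adj_one (hJ : Hrm φ J) : adj φ J 1 = 1 := by
  apply adj_unique hJ
  intro x w
  rw [Matrix.one_mulVec, Matrix.one_mulVec]

lemma adj_add (hJ : Hrm φ J) (κ κ' : Matrix n n F) : adj φ J (κ + κ') = adj φ J κ + adj φ J κ' := by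
  apply adj_unique hJ
  intro x w
  rw [Matrix.add_mulVec, Matrix.add_mulVec, pr_add_left, pr_add_right, pr_adj hJ, pr_adj hJ]

lemma adj_smul (hJ : Hrm φ J) (c : F) (κ : Matrix n n F) : adj φ J (c • κ) = φ c • adj φ J κ := by
  apply adj_unique hJ
  intro x w
  rw [Matrix.smul_mulVec, Matrix.smul_mulVec, pr_smul_left, pr_smul_right, hJ.invol, pr_adj hJ]

lemma adj_neg (hJ : Hrm φ J) (κ : Matrix n n F) : adj φ J (-κ) = - adj φ J κ := by
  apply adj_unique hJ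
  intro x w
  rw [Matrix.neg_mulVec, Matrix.neg_mulVec, pr_neg_left, pr_neg_right, pr_adj hJ]

lemma adj_sub (hJ : Hrm φ J) (κ κ' : Matrix n n F) : adj φ J (κ - κ') = adj φ J κ - adj φ J κ' := by
  rw [sub_eq_add_neg, adj_add hJ, adj_neg hJ, sub_eq_add_neg]

lemma adj_zero (hJ : Hrm φ J) : adj φ J 0 = 0 := by
  apply adj_unique hJ
  intro x w
  rw [Matrix.zero_mulVec, Matrix.zero_mulVec, pr_zero_left, pr_zero_right]

lemma adj_adj (hJ : Hrm φ J) (κ : Matrix n n F) : adj φ J (adj φ J κ) = κ := by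
  apply adj_unique hJ
  intro x w
  rw [← pr_adj' hJ]

lemma adj_smul_one (hJ : Hrm φ J) (c : F) : adj φ J (c • (1 : Matrix n n F)) = φ c • 1 := by
  rw [adj_smul hJ, adj_one hJ]

/-- `(z ⟨·, z'⟩)† = z' ⟨·, z⟩`. -/
lemma adj_vmv (hJ : Hrm φ J) (z z' : n → F) :
    adj φ J (vecMulVec z (fl φ J z')) = vecMulVec z' (fl φ J z) := by
  apply adj_unique hJ
  intro x w
  rw [Matrix.vecMulVec_mulVec, Matrix.vecMulVec_mulVec, op_smul_eq_smul, op_smul_eq_smul, pr_smul_left,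
    pr_smul_right]
  change pr φ J x z' * pr φ J z w = φ (pr φ J w z) * pr φ J x z'
  rw [hJ.herm, mul_comm]

lemma IsoM.adj_mul (hJ : Hrm φ J) {s : Matrix n n F} (h : IsoM φ J s) : adj φ J s * s = 1 := by
  apply mat_ext_pr hJ
  intro x w
  rw [← Matrix.mulVec_mulVec, ← pr_adj hJ, h, Matrix.one_mulVec]

lemma IsoM.adj_eq (hJ : Hrm φ J) {s s' : Matrix n n F} (h : IsoM φ J s) (hs : s * s' = 1) : adj φ J s = s' := by
  calc adj φ J s = adj φ J s * (s * s') := by rw [hs, Matrix.mul_one]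
    _ = s' := by rw [← Matrix.mul_assoc, h.adj_mul hJ, Matrix.one_mul]

lemma isoM_of_adj (hJ : Hrm φ J) {s : Matrix n n F} (h : adj φ J s * s = 1) : IsoM φ J s := by
  intro x w
  rw [pr_adj hJ, Matrix.mulVec_mulVec, h, Matrix.one_mulVec]

lemma IsoM.inv {s s' : Matrix n n F} (h : IsoM φ J s) (hs : s * s' = 1) : IsoM φ J s' := by
  intro x w
  rw [← h (s' *ᵥ x), Matrix.mulVec_mulVec, Matrix.mulVec_mulVec, hs, Matrix.one_mulVec, Matrix.one_mulVec]

lemma IsoM.mul {s t : Matrix n n F} (h : IsoM φ J s) (h' : IsoM φ J t) : IsoM φ J (s * t) := by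
  intro x w
  rw [← Matrix.mulVec_mulVec, ← Matrix.mulVec_mulVec, h, h']

lemma IsoM.one : IsoM φ J (1 : Matrix n n F) := by
  intro x w
  rw [Matrix.one_mulVec, Matrix.one_mulVec]

lemma adj_conj (hJ : Hrm φ J) {r r' : Matrix n n F} (h : IsoM φ J r) (hr : r * r' = 1) (κ : Matrix n n F) :
    adj φ J (r * κ * r') = r * adj φ J κ * r' := by
  have h' : IsoM φ J r' := h.inv hr
  have hr' : r' * r = 1 := mul_eq_one_comm.1 hr
  rw [adj_mul hJ, adj_mul hJ, h.adj_eq hJ hr, h'.adj_eq hJ hr', Matrix.mul_assoc]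

/-- `fl (s w) ᵥ* s = fl w`, i.e. `⟨s x, s w⟩ = ⟨x, w⟩`. -/
lemma IsoM.vecMul_fl {s s' : Matrix n n F} (h : IsoM φ J s) (hs : s * s' = 1) (w : n → F) :
    fl φ J w ᵥ* s' = fl φ J (s *ᵥ w) := by
  funext i
  have h2 := h (s' *ᵥ Pi.single i 1) w
  rw [Matrix.mulVec_mulVec, hs, Matrix.one_mulVec] at h2
  unfold pr at h2
  rw [dotProduct_single, mul_one, Matrix.dotProduct_mulVec, dotProduct_single, mul_one] at h2
  exact h2.symm

/-- the unitary transvection `x ↦ x + c ⟨x, y⟩ y`. -/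
def tv (φ : F →+* F) (J : Matrix n n F) (y : n → F) (c : F) : Matrix n n F := 1 + c • vecMulVec y (fl φ J y)

lemma tv_mulVec (y : n → F) (c : F) (x : n → F) : tv φ J y c *ᵥ x = x + (c * pr φ J x y) • y := by
  unfold tv pr
  rw [Matrix.add_mulVec, Matrix.one_mulVec, Matrix.smul_mulVec, Matrix.vecMulVec_mulVec, op_smul_eq_smul, smul_smul]

lemma tv_mul {y : n → F} (hy : pr φ J y y = 0) (c : F) : tv φ J y c * tv φ J y (-c) = 1 := by
  unfold tv
  have : vecMulVec y (fl φ J y) * vecMulVec y (fl φ J y) = 0 := by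
    rw [vmv_mul_vmv]
    unfold pr at hy
    rw [hy, zero_smul]
  simp only [Matrix.add_mul, Matrix.mul_add, Matrix.smul_mul, Matrix.mul_smul, this]
  simp

lemma tv_iso (hJ : Hrm φ J) {y : n → F} (hy : pr φ J y y = 0) {c : F} (hc : c + φ c = 0) :
    IsoM φ J (tv φ J y c) := by
  intro x w
  rw [tv_mulVec, tv_mulVec]
  simp only [pr_add_left, pr_add_right, pr_smul_left, pr_smul_right, hy, map_mul]
  rw [hJ.herm w y]
  linear_combination (pr φ J x y * pr φ J y w) * hc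

lemma tv_det {y : n → F} (hy : pr φ J y y = 0) (c : F) : (tv φ J y c).det = 1 := by
  unfold tv
  rw [← Matrix.vecMulVec_smul, det_one_add_vmv, dotProduct_comm, dotProduct_smul]
  unfold pr at hy
  rw [dotProduct_comm, hy]
  simp

end one

section two

variable {A B : Type} [Fintype A] [DecidableEq A] [Fintype B] [DecidableEq B] {F : Type*} [Field F]
variable {φ : F →+* F} {J₁ : Matrix A A F} {J₂ : Matrix B B F}

/-- `ρ_w = 1_A ⊗ ⟨·, w⟩`. -/
def rho (A : Type) [DecidableEq A] (φ : F →+* F) (J₂ : Matrix B B F) (w : B → F) : Matrix A (A × B) F :=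
  row A (fl φ J₂ w)

/-- `κ ⊗ y ⟨·, w⟩`. -/
def N (φ : F →+* F) (J₂ : Matrix B B F) (y w : B → F) (κ : Matrix A A F) : Matrix (A × B) (A × B) F :=
  col A y * κ * rho A φ J₂ w

/-- the pure tensor `a ⊗ y`. -/
def pt (a : A → F) (y : B → F) : A × B → F := fun p => a p.1 * y p.2

lemma col_mulVec (y : B → F) (a : A → F) : col A y *ᵥ a = pt a y := by
  funext ⟨i, t⟩
  simp only [Matrix.mulVec, dotProduct, Cfsg.Agent.Lib.Helper99.Tens.col_apply, pt]
  rw [Finset.sum_eq_single i]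
  · simp [mul_comm]
  · intro j _ hj; simp [Ne.symm hj]
  · simp

lemma rho_col (w y : B → F) : rho A φ J₂ w * col A y = pr φ J₂ y w • (1 : Matrix A A F) := row_mul_col _ _

lemma rho_col_assoc {m : Type*} (w y : B → F) (X : Matrix A m F) :
    rho A φ J₂ w * (col A y * X) = pr φ J₂ y w • X := row_col_assoc _ _ _

lemma rho_add (w w' : B → F) : rho A φ J₂ (w + w') = rho A φ J₂ w + rho A φ J₂ w' := by
  unfold rho; rw [fl_add, row_add]

lemma rho_smul (c : F) (w : B → F) : rho A φ J₂ (c • w) = φ c • rho A φ J₂ w := by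
  unfold rho; rw [fl_smul, row_smul]

lemma rho_zero : rho A φ J₂ (0 : B → F) = 0 := by
  unfold rho; rw [fl_zero, row_zero]

lemma rho_neg (w : B → F) : rho A φ J₂ (-w) = - rho A φ J₂ w := by
  have := rho_smul (A := A) (φ := φ) (J₂ := J₂) (-1 : F) w
  simpa using this

lemma rho_sub (w w' : B → F) : rho A φ J₂ (w - w') = rho A φ J₂ w - rho A φ J₂ w' := by
  rw [sub_eq_add_neg, rho_add, rho_neg, sub_eq_add_neg]

lemma N_eq_nn (y w : B → F) (κ : Matrix A A F) : N φ J₂ y w κ = nn y (fl φ J₂ w) κ := rfl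

lemma N_mul (y w y' w' : B → F) (κ κ' : Matrix A A F) :
    N φ J₂ y w κ * N φ J₂ y' w' κ' = pr φ J₂ y' w • N φ J₂ y w' (κ * κ') := nn_mul _ _ _ _ _ _

lemma N_add (y w : B → F) (κ κ' : Matrix A A F) : N φ J₂ y w (κ + κ') = N φ J₂ y w κ + N φ J₂ y w κ' :=
  nn_add _ _ _ _

lemma N_neg (y w : B → F) (κ : Matrix A A F) : N φ J₂ y w (-κ) = - N φ J₂ y w κ := nn_neg _ _ _

lemma N_sub (y w : B → F) (κ κ' : Matrix A A F) : N φ J₂ y w (κ - κ') = N φ J₂ y w κ - N φ J₂ y w κ' := by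
  rw [sub_eq_add_neg, N_add, N_neg, sub_eq_add_neg]

lemma N_smul (y w : B → F) (c : F) (κ : Matrix A A F) : N φ J₂ y w (c • κ) = c • N φ J₂ y w κ :=
  nn_smul _ _ _ _

lemma N_zero (y w : B → F) : N φ J₂ y w (0 : Matrix A A F) = 0 := by
  unfold N; rw [Matrix.mul_zero, Matrix.zero_mul]

lemma N_add_left (y y' w : B → F) (κ : Matrix A A F) :
    N φ J₂ (y + y') w κ = N φ J₂ y w κ + N φ J₂ y' w κ := by
  unfold N; rw [col_add, Matrix.add_mul, Matrix.add_mul]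

lemma N_add_right (y w w' : B → F) (κ : Matrix A A F) :
    N φ J₂ y (w + w') κ = N φ J₂ y w κ + N φ J₂ y w' κ := by
  unfold N; rw [rho_add, Matrix.mul_add]

lemma N_smul_left (c : F) (y w : B → F) (κ : Matrix A A F) : N φ J₂ (c • y) w κ = c • N φ J₂ y w κ := by
  unfold N; rw [col_smul, Matrix.smul_mul, Matrix.smul_mul]

lemma N_smul_right (c : F) (y w : B → F) (κ : Matrix A A F) : N φ J₂ y (c • w) κ = φ c • N φ J₂ y w κ := by
  unfold N; rw [rho_smul, Matrix.mul_smul]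

lemma N_col (y w x : B → F) (κ : Matrix A A F) :
    N φ J₂ y w κ * col A x = pr φ J₂ x w • (col A y * κ) := by
  unfold N
  rw [Matrix.mul_assoc, rho_col, Matrix.mul_smul, Matrix.mul_one]

lemma rho_N (x y w : B → F) (κ : Matrix A A F) :
    rho A φ J₂ x * N φ J₂ y w κ = pr φ J₂ y x • (κ * rho A φ J₂ w) := by
  unfold N
  rw [Matrix.mul_assoc, rho_col_assoc]

lemma N_eq_kron (y w : B → F) (κ : Matrix A A F) : N φ J₂ y w κ = κ ⊗ₖ vecMulVec y (fl φ J₂ w) :=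
  nn_eq_kron _ _ _

lemma conjB {s s' : Matrix B B F} (hs : s * s' = 1) (hi : IsoM φ J₂ s) (y w : B → F) (κ : Matrix A A F) :
    ((1 : Matrix A A F) ⊗ₖ s) * N φ J₂ y w κ * ((1 : Matrix A A F) ⊗ₖ s') = N φ J₂ (s *ᵥ y) (s *ᵥ w) κ := by
  unfold N rho
  have e1 : row A (fl φ J₂ w) * ((1 : Matrix A A F) ⊗ₖ s') = row A (fl φ J₂ (s *ᵥ w)) := by
    rw [row_mul_kron, Matrix.one_mul, hi.vecMul_fl hs]
  rw [Matrix.mul_assoc, Matrix.mul_assoc, e1, ← Matrix.mul_assoc, ← Matrix.mul_assoc, kron_mul_col,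
    Matrix.mul_one]

lemma conjA (r r' : Matrix A A F) (y w : B → F) (κ : Matrix A A F) :
    (r ⊗ₖ (1 : Matrix B B F)) * N φ J₂ y w κ * (r' ⊗ₖ (1 : Matrix B B F)) = N φ J₂ y w (r * κ * r') := by
  unfold N rho
  have e1 : row A (fl φ J₂ w) * (r' ⊗ₖ (1 : Matrix B B F)) = r' * row A (fl φ J₂ w) := by
    rw [row_mul_kron, Matrix.vecMul_one]
  calc (r ⊗ₖ (1 : Matrix B B F)) * (col A y * κ * row A (fl φ J₂ w)) * (r' ⊗ₖ (1 : Matrix B B F))
      = ((r ⊗ₖ (1 : Matrix B B F)) * col A y) * κ * (row A (fl φ J₂ w) * (r' ⊗ₖ (1 : Matrix B B F))) := by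
        simp only [Matrix.mul_assoc]
    _ = _ := by
        rw [e1, kron_mul_col, Matrix.one_mulVec]
        simp only [Matrix.mul_assoc]

/-- the adjoint `C♯ : A ⊗ B → A` of `C : A → A ⊗ B`: `⟨C a, v⟩ = ⟨a, C♯ v⟩`. -/
noncomputable def sharp (φ : F →+* F) (J₁ : Matrix A A F) (J₂ : Matrix B B F) (C : Matrix (A × B) A F) :
    Matrix A (A × B) F := (J₁⁻¹ * Cᵀ * (J₁ ⊗ₖ J₂)).map φ

lemma pr_sharp (h₁ : Hrm φ J₁) (C : Matrix (A × B) A F) (a : A → F) (v : A × B → F) :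
    pr φ (J₁ ⊗ₖ J₂) (C *ᵥ a) v = pr φ J₁ a (sharp φ J₁ J₂ C *ᵥ v) := by
  unfold pr fl sharp
  rw [cj_mulVec, map_map_invol h₁, Matrix.mulVec_mulVec, ← Matrix.mul_assoc, ← Matrix.mul_assoc, h₁.mul_inv,
    Matrix.one_mul, ← Matrix.mulVec_mulVec, Matrix.mulVec_transpose, Matrix.dotProduct_mulVec]

lemma sharp_unique (h₁ : Hrm φ J₁) {C : Matrix (A × B) A F} {S : Matrix A (A × B) F}
    (h : ∀ a v, pr φ (J₁ ⊗ₖ J₂) (C *ᵥ a) v = pr φ J₁ a (S *ᵥ v)) : sharp φ J₁ J₂ C = S := by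
  have key : ∀ v, sharp φ J₁ J₂ C *ᵥ v = S *ᵥ v := by
    intro v
    rw [← sub_eq_zero]
    apply eq_zero_of_pr h₁
    intro x
    rw [pr_sub_right, ← pr_sharp h₁, h, sub_self]
  ext i j
  have := congrFun (key (Pi.single j 1)) i
  simpa using this

lemma row_map (ψ : B → F) : (row A ψ).map φ = row A (cj φ ψ) := by
  ext i ⟨j, t⟩
  simp only [Matrix.map_apply, Cfsg.Agent.Lib.Helper99.Tens.row_apply, cj]
  split_ifs <;> simp

lemma col_map (y : B → F) : (col A y).map φ = col A (cj φ y) := by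
  ext ⟨j, t⟩ i
  simp only [Matrix.map_apply, Cfsg.Agent.Lib.Helper99.Tens.col_apply, cj]
  split_ifs <;> simp

lemma sharp_col (h₁ : Hrm φ J₁) (h₂ : Hrm φ J₂) (y : B → F) : sharp φ J₁ J₂ (col A y) = rho A φ J₂ y := by
  unfold sharp rho fl
  rw [Cfsg.Agent.Lib.Helper99.TSp.col_transpose, Matrix.mul_assoc, row_mul_kron, ← Matrix.mul_assoc, h₁.inv_mul, Matrix.one_mul, row_map,
    ← Matrix.mulVec_transpose, cj_mulVec]
  congr 2
  conv_rhs => rw [← h₂.conjT]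
  rfl

lemma sharp_mul (h₁ : Hrm φ J₁) (C : Matrix (A × B) A F) (κ : Matrix A A F) :
    sharp φ J₁ J₂ (C * κ) = adj φ J₁ κ * sharp φ J₁ J₂ C := by
  unfold sharp adj
  rw [Matrix.transpose_mul, ← Matrix.map_mul]
  congr 1
  calc J₁⁻¹ * (κᵀ * Cᵀ) * (J₁ ⊗ₖ J₂) = J₁⁻¹ * κᵀ * 1 * Cᵀ * (J₁ ⊗ₖ J₂) := by
        simp only [Matrix.mul_assoc, Matrix.one_mul]
    _ = _ := by rw [← h₁.mul_inv]; simp only [Matrix.mul_assoc]

lemma sharp_add (C C' : Matrix (A × B) A F) :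
    sharp φ J₁ J₂ (C + C') = sharp φ J₁ J₂ C + sharp φ J₁ J₂ C' := by
  unfold sharp
  rw [Matrix.transpose_add, Matrix.mul_add, Matrix.add_mul, Matrix.map_add _ (fun a b => map_add φ a b)]

lemma sharp_smul (c : F) (C : Matrix (A × B) A F) : sharp φ J₁ J₂ (c • C) = φ c • sharp φ J₁ J₂ C := by
  unfold sharp
  rw [Matrix.transpose_smul, Matrix.mul_smul, Matrix.smul_mul]
  ext i j
  simp only [Matrix.map_apply, Matrix.smul_apply, smul_eq_mul, map_mul]

lemma sharp_neg (C : Matrix (A × B) A F) : sharp φ J₁ J₂ (-C) = - sharp φ J₁ J₂ C := by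
  have := sharp_smul (φ := φ) (J₁ := J₁) (J₂ := J₂) (-1 : F) C
  simpa using this

lemma sharp_zero : sharp φ J₁ J₂ (0 : Matrix (A × B) A F) = 0 := by
  unfold sharp
  rw [Matrix.transpose_zero, Matrix.mul_zero, Matrix.zero_mul]
  ext i j
  simp

/-- `C♯ (1 ⊗ w) = ((1 ⊗ ⟨·,w⟩) C)†`. -/
lemma sharp_mul_col (h₁ : Hrm φ J₁) (C : Matrix (A × B) A F) (w : B → F) :
    sharp φ J₁ J₂ C * col A w = adj φ J₁ (rho A φ J₂ w * C) := by
  unfold sharp adj rho
  have e : col A w = (col A (cj φ w)).map φ := by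
    rw [col_map]
    congr 1
    funext i
    exact (h₁.invol _).symm
  rw [e, ← Matrix.map_mul, Matrix.transpose_mul, Cfsg.Agent.Lib.Helper99.TSp.row_transpose, Matrix.mul_assoc, kron_mul_col]
  unfold fl
  simp only [Matrix.mul_assoc]

lemma sharp_iso (h₁ : Hrm φ J₁) {g g' : Matrix (A × B) (A × B) F} (hg : IsoM φ (J₁ ⊗ₖ J₂) g) (h1 : g * g' = 1)
    (C : Matrix (A × B) A F) : sharp φ J₁ J₂ (g * C) = sharp φ J₁ J₂ C * g' := by
  apply sharp_unique h₁
  intro a v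
  rw [← Matrix.mulVec_mulVec, ← Matrix.mulVec_mulVec, ← pr_sharp h₁, ← hg (C *ᵥ a) (g' *ᵥ v),
    Matrix.mulVec_mulVec v g g', h1, Matrix.one_mulVec]

/-- the hypotheses on the group `G`: it contains `SU(A) ⊗ 1` and `1 ⊗ SU(B)` and consists of isometries. -/
structure HasU (φ : F →+* F) (J₁ : Matrix A A F) (J₂ : Matrix B B F) (G : Subgroup (GL (A × B) F)) : Prop where
  h1 : Hrm φ J₁
  h2 : Hrm φ J₂
  hB : ∀ s s' : Matrix B B F, s * s' = 1 → IsoM φ J₂ s → s.det = 1 → (1 : Matrix A A F) ⊗ₖ s ∈ MS G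
  hA : ∀ r r' : Matrix A A F, r * r' = 1 → IsoM φ J₁ r → r.det = 1 → r ⊗ₖ (1 : Matrix B B F) ∈ MS G
  iso : ∀ g ∈ MS G, IsoM φ (J₁ ⊗ₖ J₂) g

variable {G : Subgroup (GL (A × B) F)}

lemma rho_g (hS : HasU φ J₁ J₂ G) {g g' : Matrix (A × B) (A × B) F} (hg : g ∈ MS G) (h1 : g * g' = 1)
    (w : B → F) : rho A φ J₂ w * g' = sharp φ J₁ J₂ (g * col A w) := by
  rw [sharp_iso hS.h1 (hS.iso g hg) h1, sharp_col hS.h1 hS.h2]

/-- long root elements of `1 ⊗ SU(B)`. -/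
lemma long_mem (hS : HasU φ J₁ J₂ G) {y : B → F} (hy : pr φ J₂ y y = 0) {c : F} (hc : c + φ c = 0) :
    1 + N φ J₂ y y (c • (1 : Matrix A A F)) ∈ MS G := by
  have := hS.hB _ _ (tv_mul hy c) (tv_iso hS.h2 hy hc) (tv_det hy c)
  have e : (1 : Matrix A A F) ⊗ₖ tv φ J₂ y c = 1 + N φ J₂ y y (c • (1 : Matrix A A F)) := by
    unfold tv
    rw [N_eq_kron, Matrix.kronecker_add, Matrix.one_kronecker_one, Matrix.smul_kronecker,
      Matrix.kronecker_smul]
  rwa [e] at this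

lemma conjB_mem (hS : HasU φ J₁ J₂ G) {s s' : Matrix B B F} (hs : s * s' = 1) (hi : IsoM φ J₂ s)
    (hd : s.det = 1) {X : Matrix (A × B) (A × B) F} (hX : 1 + X ∈ MS G) :
    1 + ((1 : Matrix A A F) ⊗ₖ s) * X * ((1 : Matrix A A F) ⊗ₖ s') ∈ MS G :=
  MS_conj (hS.hB s s' hs hi hd) (kron_mul_one hs) hX

lemma conjA_mem (hS : HasU φ J₁ J₂ G) {r r' : Matrix A A F} (hr : r * r' = 1) (hi : IsoM φ J₁ r)
    (hd : r.det = 1) {X : Matrix (A × B) (A × B) F} (hX : 1 + X ∈ MS G) :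
    1 + (r ⊗ₖ (1 : Matrix B B F)) * X * (r' ⊗ₖ (1 : Matrix B B F)) ∈ MS G :=
  MS_conj (hS.hA r r' hr hi hd) (kron_one_mul hr) hX

/-- totally isotropic independent pairs. -/
structure TIP (φ : F →+* F) (J₂ : Matrix B B F) (y w : B → F) : Prop where
  ind : Ind y w
  yy : pr φ J₂ y y = 0
  ww : pr φ J₂ w w = 0
  yw : pr φ J₂ y w = 0

lemma TIP.wy (h₂ : Hrm φ J₂) {y w : B → F} (h : TIP φ J₂ y w) : pr φ J₂ w y = 0 := pr_swap0 h₂ h.yw

lemma TIP.symm (h₂ : Hrm φ J₂) {y w : B → F} (h : TIP φ J₂ y w) : TIP φ J₂ w y :=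
  ⟨h.ind.symm, h.ww, h.yy, h.wy h₂⟩

end two

section bridge

open Cfsg.Agent.Lib.Helper94.U

variable {n : Type} [Fintype n] [DecidableEq n] {F : Type*} [Field F] {φ : F →+* F} {J : Matrix n n F}

/-- the sesquilinear map of helper94's library: `Bf w x = ⟨x, w⟩` (semilinear in the FIRST argument). -/
def Bf (φ : F →+* F) (J : Matrix n n F) : (n → F) →ₛₗ[φ] (n → F) →ₗ[F] F :=
  LinearMap.mk₂'ₛₗ φ (RingHom.id F) (fun w x => pr φ J x w)
    (fun w w' x => pr_add_right x w w')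
    (fun c w x => by rw [pr_smul_right, smul_eq_mul])
    (fun w x x' => pr_add_left x x' w)
    (fun c w x => by rw [pr_smul_left, RingHom.id_apply, smul_eq_mul])

@[simp] lemma Bf_apply (w x : n → F) : Bf φ J w x = pr φ J x w := rfl

lemma hform (hJ : Hrm φ J) : HForm φ (Bf φ J) where
  ne_id := hJ.ne_id
  invol := hJ.invol
  symm := fun x y => by rw [Bf_apply, Bf_apply, hJ.herm]
  nondeg := fun x hx => eq_zero_of_pr hJ (fun y => hx y)

/-- from a linear isometry of determinant one to matrices. -/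
lemma exists_mat (t : (n → F) ≃ₗ[F] (n → F)) (ht : UIsom (Bf φ J) t)
    (hd : LinearMap.det (t : (n → F) →ₗ[F] (n → F)) = 1) :
    ∃ s s' : Matrix n n F, s * s' = 1 ∧ IsoM φ J s ∧ s.det = 1 ∧ ∀ x, s *ᵥ x = t x := by
  have hx : ∀ x, LinearMap.toMatrix' (t : (n → F) →ₗ[F] (n → F)) *ᵥ x = t x := by
    intro x
    rw [← Matrix.toLin'_apply, Matrix.toLin'_toMatrix']
    rfl
  refine ⟨LinearMap.toMatrix' (t : (n → F) →ₗ[F] (n → F)),
    LinearMap.toMatrix' (t.symm : (n → F) →ₗ[F] (n → F)), ?_, ?_, ?_, hx⟩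
  · rw [← LinearMap.toMatrix'_comp]
    have : (t : (n → F) →ₗ[F] (n → F)) ∘ₗ (t.symm : (n → F) →ₗ[F] (n → F)) = LinearMap.id := by
      ext x
      simp
    rw [this, LinearMap.toMatrix'_id]
  · intro x w
    rw [hx, hx]
    exact ht w x
  · rw [← hd, LinearMap.det_toMatrix']

end bridge

end Cfsg.Agent.Lib.Helper45.TU
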