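import Mathlib
import Cfsg.Agent.Lib.Helper45.TU.Base

set_option autoImplicit false
set_option linter.unusedVariables false
set_option linter.unusedSectionVars false

/-! S5670 farm: the intermediate statements, as `Prop`-valued definitions. -/

namespace Cfsg.Agent.Lib.Helper45.TU

open Matrix hiding col row
open scoped Kronecker
open Cfsg.Agent.Lib.Helper99.Tens
open Cfsg.Agent.Lib.Helper99.TSp (Ind)

variable {A B : Type} [Fintype A] [DecidableEq A] [Fintype B] [DecidableEq B] {F : Type*} [Field F]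

/-- (L): the long elements `1 + κ ⊗ y⟨·,y⟩` of `G` have scalar `κ`. -/
def LL (φ : F →+* F) (J₂ : Matrix B B F) (G : Subgroup (GL (A × B) F)) : Prop :=
  ∀ y : B → F, y ≠ 0 → pr φ J₂ y y = 0 → ∀ κ : Matrix A A F, 1 + N φ J₂ y y κ ∈ MS G →
    ∃ c : F, κ = c • (1 : Matrix A A F)

/-- elements of `G` supported on a totally isotropic plane have scalar blocks. -/
def K4 (φ : F →+* F) (J₂ : Matrix B B F) (G : Subgroup (GL (A × B) F)) : Prop :=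
  ∀ y w : B → F, TIP φ J₂ y w → ∀ κ₁₁ κ₁₂ κ₂₁ κ₂₂ : Matrix A A F,
    1 + (N φ J₂ y y κ₁₁ + N φ J₂ y w κ₁₂ + N φ J₂ w y κ₂₁ + N φ J₂ w w κ₂₂) ∈ MS G →
    (∃ c : F, κ₁₁ = c • (1 : Matrix A A F)) ∧ (∃ c : F, κ₁₂ = c • (1 : Matrix A A F))

/-- rigidity of the unipotent radical. -/
def LR (φ : F →+* F) (J₂ : Matrix B B F) (G : Subgroup (GL (A × B) F)) : Prop :=
  ∀ (y₁ y₂ : B → F) (R : Matrix A (A × B) F) (C : Matrix (A × B) A F), TIP φ J₂ y₁ y₂ →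
    R * col A y₁ = 0 → rho A φ J₂ y₁ * C = 0 → R * C = 0 →
    1 + (col A y₁ * R + C * rho A φ J₂ y₁) ∈ MS G →
    (∃ c : F, R * col A y₂ = c • (1 : Matrix A A F)) ∧ (∃ c : F, rho A φ J₂ y₂ * C = c • (1 : Matrix A A F))

/-- extension step of TI. -/
def TIX (φ : F →+* F) (J₂ : Matrix B B F) (G : Subgroup (GL (A × B) F)) : Prop :=
  ∀ (g g' : Matrix (A × B) (A × B) F) (y' y₁ w' : B → F) (α α' : Matrix A A F), g ∈ MS G → g * g' = 1 →
    α * α' = 1 → y' ≠ 0 → pr φ J₂ y' y' = 0 → g * col A y' = col A y₁ * α →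
    pr φ J₂ w' w' = 0 → pr φ J₂ y' w' = 0 → ∃ x : B → F, g * col A w' = col A x * α

/-- TI: `g (A ⊗ y') = A ⊗ y₁` (`y'` isotropic) forces `g` to be a Kronecker product. -/
def TI (φ : F →+* F) (J₂ : Matrix B B F) (G : Subgroup (GL (A × B) F)) : Prop :=
  ∀ (g g' : Matrix (A × B) (A × B) F) (y' y₁ : B → F) (α : Matrix A A F), g ∈ MS G → g * g' = 1 →
    y' ≠ 0 → pr φ J₂ y' y' = 0 → g * col A y' = col A y₁ * α → IsKr g

/-- a conjugate of a long root element which is Kronecker. -/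
def RC (φ : F →+* F) (J₂ : Matrix B B F) (G : Subgroup (GL (A × B) F)) : Prop :=
  ∀ (g g' : Matrix (A × B) (A × B) F) (y' : B → F) (c : F), g ∈ MS G → g * g' = 1 →
    y' ≠ 0 → pr φ J₂ y' y' = 0 → c ≠ 0 → IsKr (1 + g * N φ J₂ y' y' (c • (1 : Matrix A A F)) * g') → IsKr g

/-- vanishing block. -/
def ST (φ : F →+* F) (J₂ : Matrix B B F) (G : Subgroup (GL (A × B) F)) : Prop :=
  ∀ (g g' : Matrix (A × B) (A × B) F) (y' y₂ : B → F), g ∈ MS G → g * g' = 1 →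
    y' ≠ 0 → y₂ ≠ 0 → pr φ J₂ y' y' = 0 → pr φ J₂ y₂ y₂ = 0 → rho A φ J₂ y₂ * (g * col A y') = 0 → IsKr g

/-- the long root group at `y`. -/
def rootSet (A : Type) [Fintype A] [DecidableEq A] (φ : F →+* F) (J₂ : Matrix B B F) (y : B → F) :
    Set (GL (A × B) F) :=
  {x | ∃ c : F, c + φ c = 0 ∧ (x : Matrix (A × B) (A × B) F) = 1 + N φ J₂ y y (c • (1 : Matrix A A F))}

/-- its conjugate by `g`. -/
def conjRootSet (φ : F →+* F) (J₂ : Matrix B B F) (g g' : Matrix (A × B) (A × B) F) (y : B → F) :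
    Set (GL (A × B) F) :=
  {x | ∃ c : F, c + φ c = 0 ∧ (x : Matrix (A × B) (A × B) F) = 1 + g * N φ J₂ y y (c • (1 : Matrix A A F)) * g'}

/-- Gleason: some `d ∈ ⟨Z_{y₂}, g Z_{y'} g⁻¹⟩` has `d g` Kronecker. -/
def GLE (φ : F →+* F) (J₂ : Matrix B B F) (G : Subgroup (GL (A × B) F)) : Prop :=
  ∀ (g g' : Matrix (A × B) (A × B) F) (y' y₂ : B → F), g ∈ MS G → g * g' = 1 →
    y' ≠ 0 → y₂ ≠ 0 → pr φ J₂ y' y' = 0 → pr φ J₂ y₂ y₂ = 0 →
    ∃ d : GL (A × B) F, d ∈ Subgroup.closure (rootSet A φ J₂ y₂ ∪ conjRootSet φ J₂ g g' y') ∧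
      IsKr ((d : Matrix (A × B) (A × B) F) * g)

/-- all blocks of a non-Kronecker element are injective. -/
def T5 (φ : F →+* F) (J₂ : Matrix B B F) (G : Subgroup (GL (A × B) F)) : Prop :=
  ∀ (g g' : Matrix (A × B) (A × B) F) (y' y₂ : B → F), g ∈ MS G → g * g' = 1 → ¬ IsKr g →
    y' ≠ 0 → y₂ ≠ 0 → pr φ J₂ y' y' = 0 → pr φ J₂ y₂ y₂ = 0 →
    ∀ a : A → F, (rho A φ J₂ y₂ * (g * col A y')) *ᵥ a = 0 → a = 0

/-- the parameters of the long elements of `G`. -/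
def SS (φ : F →+* F) (J₂ : Matrix B B F) (G : Subgroup (GL (A × B) F)) : Set (Matrix A A F) :=
  {κ | ∀ y : B → F, pr φ J₂ y y = 0 → 1 + N φ J₂ y y κ ∈ MS G}

/-- isotropic vectors all of whose transvections are in `G`. -/
def TV {ι : Type} [Fintype ι] [DecidableEq ι] (φ : F →+* F) (J : Matrix ι ι F) (G : Subgroup (GL ι F)) :
    Set (ι → F) :=
  {v | pr φ J v v = 0 ∧ ∀ c : F, c + φ c = 0 → tv φ J v c ∈ MS G}

/-- closure properties of the set `SS` (an `SU(A)`-invariant "Jordan-Lie" set of skew-hermitian matrices). -/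
structure SAlg (φ : F →+* F) (J₁ : Matrix A A F) (S : Set (Matrix A A F)) : Prop where
  add : ∀ κ ∈ S, ∀ κ' ∈ S, κ + κ' ∈ S
  neg : ∀ κ ∈ S, -κ ∈ S
  fix : ∀ t : F, φ t = t → ∀ κ ∈ S, t • κ ∈ S
  scalar : ∀ c : F, c + φ c = 0 → c • (1 : Matrix A A F) ∈ S
  conj : ∀ r r' : Matrix A A F, r * r' = 1 → IsoM φ J₁ r → r.det = 1 → ∀ κ ∈ S, r * κ * r' ∈ S
  skew : ∀ κ ∈ S, adj φ J₁ κ = -κ
  lam : ∀ κ ∈ S, ∀ κ' ∈ S, ∀ ν : F, ν • (κ * κ') - φ ν • (κ' * κ) ∈ S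

/-- vectors all of whose rank one elements `c x x♭` (`c` skew) are in `S`. -/
def XX (φ : F →+* F) (J₁ : Matrix A A F) (S : Set (Matrix A A F)) : Set (A → F) :=
  {x | ∀ c : F, c + φ c = 0 → c • vecMulVec x (fl φ J₁ x) ∈ S}

end Cfsg.Agent.Lib.Helper45.TU
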