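import Mathlib
import Cfsg.Agent.Lib.Helper45.TU.Spec

set_option autoImplicit false
set_option linter.unusedVariables false
set_option linter.unusedSectionVars false

namespace Cfsg.Agent.Lib.Helper45.TU

open Matrix hiding col row
open scoped Kronecker
open Cfsg.Agent.Lib.Helper99.Tens
open Cfsg.Agent.Lib.Helper99.TSp (Ind)

namespace CW

section HCW

variable {F : Type*} [Field F] {σ : Type} [Fintype σ] [DecidableEq σ] {φ : F →+* F}

/-- polynomial functions of degree at most `d` on the `φ`-fixed points -/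
def PF (φ : F →+* F) (d : ℕ) (f : (σ → F) → F) : Prop :=
  ∃ q : MvPolynomial σ F, q.totalDegree ≤ d ∧
    ∀ x : σ → F, (∀ i, φ (x i) = x i) → MvPolynomial.eval x q = f x

lemma PF.const (c : F) : PF φ 0 (fun _ : σ → F => c) :=
  ⟨MvPolynomial.C c, by simp, fun x _ => by simp⟩

lemma PF.coord (i : σ) : PF φ 1 (fun x : σ → F => x i) :=
  ⟨MvPolynomial.X i, by simp [MvPolynomial.totalDegree_X], fun x _ => by simp⟩

lemma PF.mono {d e : ℕ} {f : (σ → F) → F} (h : d ≤ e) (hf : PF φ d f) : PF φ e f := by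
  obtain ⟨q, hq, hx⟩ := hf
  exact ⟨q, hq.trans h, hx⟩

lemma PF.add {d : ℕ} {f g : (σ → F) → F} (hf : PF φ d f) (hg : PF φ d g) :
    PF φ d (fun x => f x + g x) := by
  obtain ⟨q, hq, hx⟩ := hf
  obtain ⟨r, hr, hy⟩ := hg
  refine ⟨q + r, (MvPolynomial.totalDegree_add q r).trans (max_le hq hr), fun x h => ?_⟩
  rw [map_add, hx x h, hy x h]

lemma PF.mul {d e : ℕ} {f g : (σ → F) → F} (hf : PF φ d f) (hg : PF φ e g) :
    PF φ (d + e) (fun x => f x * g x) := by
  obtain ⟨q, hq, hx⟩ := hf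
  obtain ⟨r, hr, hy⟩ := hg
  refine ⟨q * r, (MvPolynomial.totalDegree_mul q r).trans (add_le_add hq hr), fun x h => ?_⟩
  rw [map_mul, hx x h, hy x h]

lemma PF.const_mul {d : ℕ} {f : (σ → F) → F} (c : F) (hf : PF φ d f) :
    PF φ d (fun x => c * f x) := by
  have := (PF.const (φ := φ) (σ := σ) c).mul hf
  rwa [zero_add] at this

lemma PF.mul_const {d : ℕ} {f : (σ → F) → F} (c : F) (hf : PF φ d f) :
    PF φ d (fun x => f x * c) := by
  have := hf.mul (PF.const (φ := φ) (σ := σ) c)
  rwa [add_zero] at this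

lemma PF.neg {d : ℕ} {f : (σ → F) → F} (hf : PF φ d f) : PF φ d (fun x => - f x) := by
  have := hf.const_mul (-1)
  simpa using this

lemma PF.sub {d : ℕ} {f g : (σ → F) → F} (hf : PF φ d f) (hg : PF φ d g) :
    PF φ d (fun x => f x - g x) := by
  have := hf.add hg.neg
  simpa [sub_eq_add_neg] using this

lemma eval_map_fixed (q : MvPolynomial σ F) (x : σ → F) (h : ∀ i, φ (x i) = x i) :
    MvPolynomial.eval x (MvPolynomial.map φ q) = φ (MvPolynomial.eval x q) := by
  rw [MvPolynomial.eval_map, ← MvPolynomial.eval₂_id, MvPolynomial.eval₂_comp_left]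
  congr 1
  funext i
  exact (h i).symm

lemma totalDegree_map_le' {R S : Type*} [CommSemiring R] [CommSemiring S] (f : R →+* S)
    (q : MvPolynomial σ R) : (MvPolynomial.map f q).totalDegree ≤ q.totalDegree := by
  unfold MvPolynomial.totalDegree
  exact Finset.sup_mono (MvPolynomial.support_map_subset f q)

lemma PF.conj {d : ℕ} {f : (σ → F) → F} (hf : PF φ d f) : PF φ d (fun x => φ (f x)) := by
  obtain ⟨q, hq, hx⟩ := hf
  refine ⟨MvPolynomial.map φ q, (totalDegree_map_le' φ q).trans hq, fun x h => ?_⟩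
  rw [eval_map_fixed q x h, hx x h]

lemma PF.sum {ι : Type*} (s : Finset ι) {d : ℕ} {f : ι → (σ → F) → F}
    (hf : ∀ i ∈ s, PF φ d (f i)) : PF φ d (fun x => ∑ i ∈ s, f i x) := by
  classical
  induction s using Finset.induction_on with
  | empty => simpa using (PF.const (φ := φ) (σ := σ) 0).mono (Nat.zero_le d)
  | insert a s ha ih =>
    simp only [Finset.sum_insert ha]
    exact (hf a (Finset.mem_insert_self a s)).add
      (ih fun i hi => hf i (Finset.mem_insert_of_mem hi))

lemma PF.prod {ι : Type*} (s : Finset ι) {d : ι → ℕ} {f : ι → (σ → F) → F}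
    (hf : ∀ i ∈ s, PF φ (d i) (f i)) : PF φ (∑ i ∈ s, d i) (fun x => ∏ i ∈ s, f i x) := by
  classical
  induction s using Finset.induction_on with
  | empty => simpa using (PF.const (φ := φ) (σ := σ) 1)
  | insert a s ha ih =>
    simp only [Finset.sum_insert ha, Finset.prod_insert ha]
    exact (hf a (Finset.mem_insert_self a s)).mul
      (ih fun i hi => hf i (Finset.mem_insert_of_mem hi))

lemma PF.det {A : Type} [Fintype A] [DecidableEq A] {M : (σ → F) → Matrix A A F}
    (h : ∀ a b, PF φ 1 (fun x => M x a b)) : PF φ (Fintype.card A) (fun x => (M x).det) := by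
  simp only [Matrix.det_apply']
  refine PF.sum _ fun τ _ => ?_
  refine PF.const_mul _ ?_
  have := PF.prod (φ := φ) (Finset.univ : Finset A) (d := fun _ => 1)
    (f := fun i x => M x (τ i) i) (fun i _ => h _ _)
  simpa using this

theorem hcw [Finite F] (hinv : ∀ a, φ (φ a) = a) {ι : Type} [Fintype ι] (d : ι → ℕ)
    (f : ι → (σ → F) → F) (hf : ∀ i, PF φ (d i) (f i)) (hd : ∑ i, d i < Fintype.card σ)
    (h0 : ∀ i, f i 0 + φ (f i 0) = 0) :
    ∃ x : σ → F, x ≠ 0 ∧ (∀ j, φ (x j) = x j) ∧ ∀ i, f i x + φ (f i x) = 0 := by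
  classical
  choose q hq hx using hf
  set K : Subfield F := RingHom.eqLocusField φ (RingHom.id F) with hK
  have memK : ∀ c : F, c ∈ K ↔ φ c = c := fun c => Iff.rfl
  have hφφ : φ.comp φ = RingHom.id F := RingHom.ext hinv
  have hdesc : ∀ i, ∃ p' : MvPolynomial σ K, MvPolynomial.map K.subtype p' =
      q i + MvPolynomial.map φ (q i) := by
    intro i
    have : q i + MvPolynomial.map φ (q i) ∈ Set.range (MvPolynomial.map K.subtype) := by
      rw [MvPolynomial.mem_range_map_iff_coeffs_subset]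
      intro c hc
      rw [Finset.mem_coe, MvPolynomial.mem_coeffs_iff] at hc
      obtain ⟨m, -, rfl⟩ := hc
      have hfx : φ (MvPolynomial.coeff m (q i + MvPolynomial.map φ (q i))) =
          MvPolynomial.coeff m (q i + MvPolynomial.map φ (q i)) := by
        rw [MvPolynomial.coeff_add, MvPolynomial.coeff_map, map_add, hinv, add_comm]
      exact ⟨⟨_, (memK _).2 hfx⟩, rfl⟩
    exact this
  choose p' hp' using hdesc
  have hdeg : ∀ i, (p' i).totalDegree ≤ d i := by
    intro i
    have h1 : (p' i).totalDegree = (MvPolynomial.map K.subtype (p' i)).totalDegree := by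
      unfold MvPolynomial.totalDegree
      rw [MvPolynomial.support_map_of_injective _ K.subtype_injective]
    rw [h1, hp']
    exact (MvPolynomial.totalDegree_add _ _).trans
      (max_le (hq i) ((totalDegree_map_le' φ (q i)).trans (hq i)))
  have heval : ∀ (i : ι) (x : σ → K), ((MvPolynomial.eval x (p' i) : K) : F) =
      f i (fun j => (x j : F)) + φ (f i (fun j => (x j : F))) := by
    intro i x
    have hfix : ∀ j, φ ((fun j => (x j : F)) j) = (fun j => (x j : F)) j := fun j => (x j).2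
    have h1 : ((MvPolynomial.eval x (p' i) : K) : F) =
        MvPolynomial.eval (fun j => (x j : F)) (MvPolynomial.map K.subtype (p' i)) := by
      rw [MvPolynomial.eval_map, ← MvPolynomial.eval₂_id]
      exact MvPolynomial.eval₂_comp_left K.subtype (RingHom.id K) x (p' i)
    rw [h1, hp', map_add, eval_map_fixed _ _ hfix, hx i _ hfix]
  have : Fintype K := Fintype.ofFinite K
  have hcp : CharP K (ringChar K) := ringChar.charP K
  have hp : (ringChar K).Prime := CharP.char_is_prime K (ringChar K)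
  have hlt : ∑ i, (p' i).totalDegree < Fintype.card σ :=
    lt_of_le_of_lt (Finset.sum_le_sum fun i _ => hdeg i) hd
  have hdvd := char_dvd_card_solutions_of_fintype_sum_lt (ringChar K) hlt
  have hz : ∀ i, MvPolynomial.eval (0 : σ → K) (p' i) = 0 := by
    intro i
    apply Subtype.ext
    rw [heval]
    exact h0 i
  have hpos : 0 < Fintype.card { x : σ → K // ∀ i, MvPolynomial.eval x (p' i) = 0 } :=
    Fintype.card_pos_iff.2 ⟨⟨0, hz⟩⟩
  have h2 : 1 < Fintype.card { x : σ → K // ∀ i, MvPolynomial.eval x (p' i) = 0 } :=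
    lt_of_lt_of_le hp.one_lt (Nat.le_of_dvd hpos hdvd)
  obtain ⟨⟨x, hxs⟩, hne⟩ := Fintype.exists_ne_of_one_lt_card h2 ⟨0, hz⟩
  refine ⟨fun j => (x j : F), ?_, fun j => (x j).2, fun i => ?_⟩
  · intro h
    apply hne
    apply Subtype.ext
    funext j
    apply Subtype.ext
    exact congrFun h j
  · rw [← heval, hxs i]
    rfl

/-- matrices of polynomial functions -/
def PFM {A : Type} (φ : F →+* F) (d : ℕ) (M : (σ → F) → Matrix A A F) : Prop :=
  ∀ a b, PF φ d (fun x => M x a b)

section mat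

variable {A : Type} [Fintype A] [DecidableEq A] {d : ℕ} {M M' : (σ → F) → Matrix A A F}

lemma PFM.mul_const (h : PFM φ d M) (C : Matrix A A F) : PFM φ d (fun x => M x * C) := by
  intro a b
  simp only [Matrix.mul_apply]
  exact PF.sum _ fun c _ => (h a c).mul_const _

lemma PFM.const_mul (h : PFM φ d M) (C : Matrix A A F) : PFM φ d (fun x => C * M x) := by
  intro a b
  simp only [Matrix.mul_apply]
  exact PF.sum _ fun c _ => (h c b).const_mul _

lemma PFM.transpose (h : PFM φ d M) : PFM φ d (fun x => (M x)ᵀ) := fun a b => h b a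

lemma PFM.map (h : PFM φ d M) : PFM φ d (fun x => (M x).map φ) := fun a b => (h a b).conj

lemma PFM.add (h : PFM φ d M) (h' : PFM φ d M') : PFM φ d (fun x => M x + M' x) :=
  fun a b => (h a b).add (h' a b)

lemma PFM.sub (h : PFM φ d M) (h' : PFM φ d M') : PFM φ d (fun x => M x - M' x) :=
  fun a b => (h a b).sub (h' a b)

lemma PFM.adj (h : PFM φ d M) (J : Matrix A A F) : PFM φ d (fun x => adj φ J (M x)) := by
  unfold TU.adj
  exact ((h.transpose.const_mul _).mul_const _).map

lemma PFM.smul_const {f : (σ → F) → F} (h : PF φ d f) (C : Matrix A A F) :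
    PFM φ d (fun x => f x • C) := fun a b => h.mul_const _

end mat

end HCW

section field

variable {F : Type*} [Field F] {φ : F →+* F}

lemma eq_zero_of_two_traces {ω c : F} (hω : φ ω ≠ ω) (h1 : c + φ c = 0)
    (h2 : ω * c + φ (ω * c) = 0) : c = 0 := by
  have h3 : φ c = -c := by linear_combination h1
  rw [map_mul, h3] at h2
  have h4 : (ω - φ ω) * c = 0 := by linear_combination h2
  rcases mul_eq_zero.1 h4 with h | h
  · exact absurd (sub_eq_zero.1 h).symm hω
  · exact h

lemma eq_zero_of_trace_fixed {γ c : F} (hγ : γ + φ γ = 1) (hc : φ c = c)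
    (h : γ * c + φ (γ * c) = 0) : c = 0 := by
  rw [map_mul, hc] at h
  have : (γ + φ γ) * c = 0 := by linear_combination h
  rwa [hγ, one_mul] at this

end field

section detadj

variable {n : Type} [Fintype n] [DecidableEq n] {F : Type*} [Field F] {φ : F →+* F}
  {J : Matrix n n F}

lemma det_adj' (hJ : Hrm φ J) (κ : Matrix n n F) : (adj φ J κ).det = φ κ.det := by
  unfold adj
  have h : ((J⁻¹ * κᵀ * J).map φ).det = φ (J⁻¹ * κᵀ * J).det := (RingHom.map_det φ _).symm
  rw [h, Matrix.det_mul, Matrix.det_mul, Matrix.det_transpose, mul_right_comm, ← Matrix.det_mul,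
    hJ.inv_mul, Matrix.det_one, one_mul]

end detadj

end CW

open CW

variable {A B : Type} [Fintype A] [DecidableEq A] [Fintype B] [DecidableEq B] {F : Type*} [Field F] [Finite F]
variable {φ : F →+* F} {J₁ : Matrix A A F} {J₂ : Matrix B B F} {G : Subgroup (GL (A × B) F)}

theorem cw [Nonempty A] (h₁ : Hrm φ J₁) (h₂ : Hrm φ J₂) (hc : Fintype.card A + 5 < 2 * Fintype.card B) (y₂ v₀ : B → F)
    (P : (B → F) → Matrix A A F) (hadd : ∀ w w', P (w + w') = P w + P w')
    (hsm : ∀ (c : F) w, P (c • w) = φ c • P w) (hP : IsUnit (P y₂).det) :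
    ∃ (w : B → F) (s : F), w ≠ 0 ∧ pr φ J₂ w w = 0 ∧ pr φ J₂ w y₂ = 0 ∧ pr φ J₂ w v₀ = 0 ∧ s + φ s = 0 ∧
      (adj φ J₁ (P w) * P y₂ - adj φ J₁ (P y₂) * P w + s • (adj φ J₁ (P y₂) * P y₂)).det = 0 := by
  classical
  -- field elements
  obtain ⟨ω, hω⟩ : ∃ ω, φ ω ≠ ω := by
    by_contra hcon
    push Not at hcon
    exact h₁.ne_id (RingHom.ext hcon)
  set θ : F := ω - φ ω with hθdef
  have hθ0 : θ ≠ 0 := fun h => hω (sub_eq_zero.1 h).symm
  have hφθ : φ θ = -θ := by rw [hθdef, map_sub, h₁.invol]; ring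
  set γ : F := ω / θ with hγdef
  have hγ : γ + φ γ = 1 := by
    rw [hγdef, map_div₀, hφθ]
    field_simp
    rw [hθdef]; ring
  -- P is semilinear
  have hP0 : P 0 = 0 := by
    have := hadd 0 0
    rw [add_zero] at this
    exact left_eq_add.1 this
  have hPsum : ∀ w, P w = ∑ j, φ (w j) • P (Pi.single j 1) := by
    intro w
    have hw : w = ∑ j, w j • (Pi.single j 1 : B → F) := by
      funext k
      simp [Finset.sum_apply, Pi.single_apply]
    conv_lhs => rw [hw]
    have : ∀ (s : Finset B) (g : B → B → F), P (∑ j ∈ s, g j) = ∑ j ∈ s, P (g j) := by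
      intro s g
      induction s using Finset.induction_on with
      | empty => simpa using hP0
      | insert a s ha ih => rw [Finset.sum_insert ha, Finset.sum_insert ha, hadd, ih]
    rw [this]
    exact Finset.sum_congr rfl fun j _ => hsm _ _
  -- the parametrisation
  let wf : (((B ⊕ B) ⊕ Unit) → F) → B → F := fun x j =>
    x (Sum.inl (Sum.inl j)) + x (Sum.inl (Sum.inr j)) * ω
  let sf : (((B ⊕ B) ⊕ Unit) → F) → F := fun x => θ * x (Sum.inr ())
  let Mf : (((B ⊕ B) ⊕ Unit) → F) → Matrix A A F := fun x =>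
    adj φ J₁ (P (wf x)) * P y₂ - adj φ J₁ (P y₂) * P (wf x) + sf x • (adj φ J₁ (P y₂) * P y₂)
  have hwf : ∀ j, PF φ 1 (fun x => wf x j) := fun j =>
    (PF.coord _).add ((PF.coord _).mul_const ω)
  have hsf : PF φ 1 sf := (PF.coord _).const_mul θ
  have hprL : ∀ y : B → F, PF φ 1 (fun x => pr φ J₂ (wf x) y) := by
    intro y
    unfold pr
    simp only [dotProduct]
    exact PF.sum _ fun j _ => (hwf j).const_mul _
  have hprQ : PF φ 2 (fun x => pr φ J₂ (wf x) (wf x)) := by
    unfold pr fl cj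
    simp only [dotProduct, Matrix.mulVec]
    refine PF.sum _ fun j _ => ?_
    exact PF.mul (d := 1) (e := 1) (PF.sum _ fun k _ => (hwf k).conj.const_mul _) (hwf j)
  have hPw : PFM φ 1 (fun x => P (wf x)) := by
    intro a b
    have : (fun x => P (wf x) a b) = fun x => ∑ j, φ (wf x j) * P (Pi.single j 1) a b := by
      funext x
      rw [hPsum (wf x), Matrix.sum_apply]
      rfl
    rw [this]
    exact PF.sum _ fun j _ => (hwf j).conj.mul_const _
  have hMf : PFM φ 1 Mf :=
    (((hPw.adj J₁).mul_const _).sub (hPw.const_mul _)).add (PFM.smul_const hsf _)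
  have hdet : PF φ (Fintype.card A) (fun x => (Mf x).det) := PF.det hMf
  -- values at zero
  have hwf0 : wf 0 = 0 := by funext j; simp [wf]
  have hMf0 : Mf 0 = 0 := by
    simp only [Mf, hwf0, hP0, adj_zero h₁, sf]
    simp
  -- Chevalley-Warning
  obtain ⟨x, hx0, hxfix, hxs⟩ := hcw (σ := (B ⊕ B) ⊕ Unit) h₁.invol
    ![1, 1, 1, 1, 2, Fintype.card A]
    ![fun x => pr φ J₂ (wf x) y₂, fun x => ω * pr φ J₂ (wf x) y₂, fun x => pr φ J₂ (wf x) v₀,
      fun x => ω * pr φ J₂ (wf x) v₀, fun x => γ * pr φ J₂ (wf x) (wf x),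
      fun x => γ * (θ ^ Fintype.card A * (Mf x).det)]
    (by
      intro i
      fin_cases i
      · exact hprL y₂
      · exact (hprL y₂).const_mul ω
      · exact hprL v₀
      · exact (hprL v₀).const_mul ω
      · exact hprQ.const_mul γ
      · exact (hdet.const_mul _).const_mul γ)
    (by
      simp only [Fin.sum_univ_six, Fintype.card_sum, Fintype.card_unit]
      simp
      omega)
    (by
      intro i
      fin_cases i <;> simp [hwf0, hMf0, pr_zero_left, Matrix.det_zero])
  have e0 : pr φ J₂ (wf x) y₂ + φ (pr φ J₂ (wf x) y₂) = 0 := hxs 0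
  have e1 : ω * pr φ J₂ (wf x) y₂ + φ (ω * pr φ J₂ (wf x) y₂) = 0 := hxs 1
  have e2 : pr φ J₂ (wf x) v₀ + φ (pr φ J₂ (wf x) v₀) = 0 := hxs 2
  have e3 : ω * pr φ J₂ (wf x) v₀ + φ (ω * pr φ J₂ (wf x) v₀) = 0 := hxs 3
  have e4 : γ * pr φ J₂ (wf x) (wf x) + φ (γ * pr φ J₂ (wf x) (wf x)) = 0 := hxs 4
  have e5 : γ * (θ ^ Fintype.card A * (Mf x).det) + φ (γ * (θ ^ Fintype.card A * (Mf x).det)) = 0 :=
    hxs 5
  have hs : sf x + φ (sf x) = 0 := by
    simp only [sf]
    rw [map_mul, hφθ, hxfix]; ring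
  have hφs : φ (sf x) = - sf x := by linear_combination hs
  have hadjM : adj φ J₁ (θ • Mf x) = θ • Mf x := by
    simp only [Mf]
    rw [adj_smul h₁, adj_add h₁, adj_sub h₁, adj_mul h₁, adj_mul h₁, adj_smul h₁, adj_mul h₁,
      adj_adj h₁, adj_adj h₁, hφθ, hφs]
    simp only [smul_add, smul_sub, neg_smul, smul_neg]
    abel
  have hfixD : φ (θ ^ Fintype.card A * (Mf x).det) = θ ^ Fintype.card A * (Mf x).det := by
    rw [← Matrix.det_smul, ← det_adj' h₁, hadjM]
  have hD := eq_zero_of_trace_fixed hγ hfixD e5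
  have hdet0 : (Mf x).det = 0 := (mul_eq_zero.1 hD).resolve_left (pow_ne_zero _ hθ0)
  refine ⟨wf x, sf x, ?_, eq_zero_of_trace_fixed hγ (h₂.herm _ _) e4,
    eq_zero_of_two_traces hω e0 e1, eq_zero_of_two_traces hω e2 e3, hs, hdet0⟩
  intro hw0
  have hz : ∀ j, x (Sum.inl (Sum.inl j)) = 0 ∧ x (Sum.inl (Sum.inr j)) = 0 := by
    intro j
    have h := congrFun hw0 j
    simp only [wf, Pi.zero_apply] at h
    have h' := congrArg φ h
    rw [map_add, map_mul, hxfix, hxfix, map_zero] at h'
    have h3 : x (Sum.inl (Sum.inr j)) * (ω - φ ω) = 0 := by linear_combination h - h'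
    have h4 : x (Sum.inl (Sum.inr j)) = 0 := (mul_eq_zero.1 h3).resolve_right hθ0
    rw [h4, zero_mul, add_zero] at h
    exact ⟨h, h4⟩
  have ht : x (Sum.inr ()) ≠ 0 := by
    intro ht
    apply hx0
    funext i
    rcases i with (j | j) | u
    · exact (hz j).1
    · exact (hz j).2
    · exact ht
  have hMx : Mf x = sf x • (adj φ J₁ (P y₂) * P y₂) := by
    simp only [Mf, hw0, hP0, adj_zero h₁]
    simp
  rw [hMx, Matrix.det_smul, Matrix.det_mul, det_adj' h₁] at hdet0
  have hP2 : (P y₂).det ≠ 0 := hP.ne_zero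
  have hs0 : sf x ≠ 0 := mul_ne_zero hθ0 ht
  exact mul_ne_zero (pow_ne_zero _ hs0) (mul_ne_zero ((map_ne_zero φ).2 hP2) hP2) hdet0

end Cfsg.Agent.Lib.Helper45.TU
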