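import Mathlib
import Cfsg.Agent.Lib.Helper45.TU.Spec

set_option autoImplicit false
set_option linter.unusedVariables false
set_option linter.unusedSectionVars false

namespace Cfsg.Agent.Lib.Helper45.TU

open Matrix hiding col row
open scoped Kronecker
open Cfsg.Agent.Lib.Helper99.Tens
open Cfsg.Agent.Lib.Helper99.TSp (Ind)

variable {n : Type} [Fintype n] [DecidableEq n] {F : Type*} [Field F] [Finite F] {φ : F →+* F} {J : Matrix n n F}

lemma exists_skew (hJ : Hrm φ J) : ∃ θ : F, θ ≠ 0 ∧ θ + φ θ = 0 :=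
  (hform hJ).exists_skew

lemma exists_trace (hJ : Hrm φ J) (τ : F) (hτ : φ τ = τ) : ∃ e : F, e + φ e = τ :=
  (hform hJ).exists_trace τ hτ

lemma exists_norm (hJ : Hrm φ J) (a : F) (ha : φ a = a) : ∃ c : F, c * φ c = a :=
  (hform hJ).exists_norm a ha

lemma exists_norm_one (hJ : Hrm φ J) : ∃ l : F, l ≠ 1 ∧ l * φ l = 1 :=
  (hform hJ).exists_norm_one

lemma exists_not_fixed (hJ : Hrm φ J) : ∃ ω : F, φ ω ≠ ω :=
  (hform hJ).exists_not_fixed

/-- correcting a vector `u` with `⟨u, w⟩ = 1` (`w` isotropic) to an isotropic one. -/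
lemma geo1_correct (hJ : Hrm φ J) {u w : n → F} (hww : pr φ J w w = 0) (huw : pr φ J u w = 1) :
    ∃ e : F, pr φ J (u + e • w) (u + e • w) = 0 := by
  obtain ⟨e, he⟩ := exists_trace hJ (-(pr φ J u u)) (by rw [map_neg, hJ.herm])
  refine ⟨e, ?_⟩
  have hwu : pr φ J w u = 1 := pr_swap1 hJ huw
  rw [pr_add_left, pr_add_right, pr_add_right, pr_smul_left, pr_smul_left, pr_smul_right,
    pr_smul_right, hww, huw, hwu]
  linear_combination he

lemma exists_partner (hJ : Hrm φ J) {y : n → F} (hy : y ≠ 0) (hyy : pr φ J y y = 0) :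
    ∃ v : n → F, pr φ J v v = 0 ∧ pr φ J v y = 1 := by
  obtain ⟨ψ, hψ⟩ := exists_dot_one hy
  obtain ⟨u, hu⟩ := exists_repr hJ ψ
  have h1 : pr φ J y u = 1 := by unfold pr; rw [hu, hψ]
  have h2 : pr φ J u y = 1 := pr_swap1 hJ h1
  obtain ⟨e, he⟩ := geo1_correct hJ hyy h2
  refine ⟨u + e • y, he, ?_⟩
  rw [pr_add_left, pr_smul_left, hyy, h2]
  ring

lemma exists_partner_perp (hJ : Hrm φ J) {y w : n → F} (h : TIP φ J y w) :
    ∃ w' : n → F, pr φ J w' w' = 0 ∧ pr φ J w' w = 1 ∧ pr φ J w' y = 0 := by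
  obtain ⟨ψ, hψ1, hψ0⟩ := exists_dot_one_zero (y := w) (u := y) h.ind.not_smul
  obtain ⟨u, hu⟩ := exists_repr hJ ψ
  have h1 : pr φ J w u = 1 := by unfold pr; rw [hu, hψ1]
  have h0 : pr φ J y u = 0 := by unfold pr; rw [hu, hψ0]
  have h2 : pr φ J u w = 1 := pr_swap1 hJ h1
  have h3 : pr φ J u y = 0 := pr_swap0 hJ h0
  obtain ⟨e, he⟩ := geo1_correct hJ h.ww h2
  refine ⟨u + e • w, he, ?_, ?_⟩
  · rw [pr_add_left, pr_smul_left, h.ww, h2]
    ring
  · rw [pr_add_left, pr_smul_left, h.wy hJ, h3]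
    ring

end Cfsg.Agent.Lib.Helper45.TU
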