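import Mathlib
import Cfsg.Agent.Lib.Helper45.TU.Geo1

set_option autoImplicit false
set_option linter.unusedVariables false
set_option linter.unusedSectionVars false

namespace Cfsg.Agent.Lib.Helper45.TU

open Matrix hiding col row
open scoped Kronecker
open Cfsg.Agent.Lib.Helper99.Tens
open Cfsg.Agent.Lib.Helper99.TSp (Ind)

variable {n : Type} [Fintype n] [DecidableEq n] {F : Type*} [Field F] [Finite F] {φ : F →+* F} {J : Matrix n n F}

/-- the functional `x ↦ ⟨x, a⟩`. -/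
def geo2L (φ : F →+* F) (J : Matrix n n F) (a : n → F) : (n → F) →ₗ[F] F where
  toFun x := pr φ J x a
  map_add' x x' := pr_add_left x x' a
  map_smul' c x := by rw [pr_smul_left, RingHom.id_apply, smul_eq_mul]

/-- the functional `x ↦ ψ ⬝ᵥ x`. -/
def geo2D (ψ : n → F) : (n → F) →ₗ[F] F where
  toFun x := ψ ⬝ᵥ x
  map_add' x x' := dotProduct_add _ _ _
  map_smul' c x := by rw [dotProduct_smul, RingHom.id_apply]

/-- two independent vectors in the kernel of a map to a space of codimension at least two. -/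
lemma geo2_exists_ind {W : Type*} [AddCommGroup W] [Module F W] [FiniteDimensional F W]
    (L : (n → F) →ₗ[F] W) (h : Module.finrank F W + 2 ≤ Fintype.card n) :
    ∃ u v : n → F, Ind u v ∧ L u = 0 ∧ L v = 0 := by
  obtain ⟨u, hu0, hu⟩ := exists_ker L (by omega)
  obtain ⟨ψ, hψ⟩ := exists_dot_one hu0
  obtain ⟨v, hv0, hv⟩ := exists_ker (L.prod (geo2D ψ)) (by
    rw [Module.finrank_prod, Module.finrank_self]; omega)
  have hv1 : L v = 0 := congrArg Prod.fst hv
  have hv2 : ψ ⬝ᵥ v = 0 := congrArg Prod.snd hv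
  refine ⟨u, v, ?_, hu, hv1⟩
  intro a b hab
  have h1 : ψ ⬝ᵥ (a • u + b • v) = 0 := by rw [hab, dotProduct_zero]
  rw [dotProduct_add, dotProduct_smul, dotProduct_smul, hψ, hv2] at h1
  have ha : a = 0 := by simpa using h1
  subst ha
  rw [zero_smul, zero_add] at hab
  exact ⟨rfl, (smul_eq_zero.1 hab).resolve_right hv0⟩

/-- a plane contains a non-zero isotropic vector. -/
lemma geo2_iso_in_plane (hJ : Hrm φ J) {u v : n → F} (h : Ind u v) :
    ∃ α β : F, α • u + β • v ≠ 0 ∧ pr φ J (α • u + β • v) (α • u + β • v) = 0 := by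
  have hne : ∀ α β : F, (α ≠ 0 ∨ β ≠ 0) → α • u + β • v ≠ 0 := by
    intro α β hαβ h0
    obtain ⟨h1, h2⟩ := h α β h0
    rcases hαβ with h3 | h3
    · exact h3 h1
    · exact h3 h2
  by_cases huu : pr φ J u u = 0
  · refine ⟨1, 0, hne 1 0 (Or.inl one_ne_zero), ?_⟩
    simpa using huu
  set t : F := pr φ J v u / pr φ J u u with ht
  -- `v' = v - t u`
  have hv'u : pr φ J ((-t) • u + (1 : F) • v) u = 0 := by
    rw [pr_add_left, pr_smul_left, pr_smul_left, ht]
    field_simp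
    ring
  have huv' : pr φ J u ((-t) • u + (1 : F) • v) = 0 := pr_swap0 hJ hv'u
  by_cases hvv : pr φ J ((-t) • u + (1 : F) • v) ((-t) • u + (1 : F) • v) = 0
  · exact ⟨-t, 1, hne _ _ (Or.inr one_ne_zero), hvv⟩
  set m : F := pr φ J ((-t) • u + (1 : F) • v) ((-t) • u + (1 : F) • v) with hm
  obtain ⟨c, hc⟩ := exists_norm hJ (-(pr φ J u u) / m) (by
    rw [map_div₀, map_neg, hJ.herm, hm, hJ.herm])
  have hc0 : c ≠ 0 := by
    rintro rfl
    rw [zero_mul] at hc
    have := hc.symm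
    rw [div_eq_zero_iff] at this
    rcases this with h1 | h1
    · exact huu (neg_eq_zero.1 h1)
    · exact hvv h1
  refine ⟨1 - c * t, c, hne _ _ (Or.inr hc0), ?_⟩
  have e : (1 - c * t) • u + c • v = u + c • ((-t) • u + (1 : F) • v) := by module
  rw [e]
  simp only [pr_add_left u, pr_add_right _ u, pr_smul_left c, pr_smul_right c, hv'u, huv', ← hm]
  have : c * (φ c * m) = -(pr φ J u u) := by
    rw [← mul_assoc, hc, div_mul_cancel₀ _ hvv]
  rw [this]
  ring

/-- a non-zero isotropic vector in the kernel of a map to a space of codimension at least two. -/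
lemma geo2_exists_iso_ker (hJ : Hrm φ J) {W : Type*} [AddCommGroup W] [Module F W]
    [FiniteDimensional F W] (L : (n → F) →ₗ[F] W) (h : Module.finrank F W + 2 ≤ Fintype.card n) :
    ∃ u : n → F, u ≠ 0 ∧ pr φ J u u = 0 ∧ L u = 0 := by
  obtain ⟨u, v, hind, hu, hv⟩ := geo2_exists_ind L h
  obtain ⟨α, β, h0, h1⟩ := geo2_iso_in_plane hJ hind
  exact ⟨_, h0, h1, by rw [map_add, map_smul, map_smul, hu, hv]; simp⟩

/-- a non-zero vector perpendicular to two given vectors. -/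
lemma exists_perp2 (hJ : Hrm φ J) (h : 3 ≤ Fintype.card n) (a b : n → F) :
    ∃ u : n → F, u ≠ 0 ∧ pr φ J u a = 0 ∧ pr φ J u b = 0 := by
  obtain ⟨u, hu0, hu⟩ := exists_ker ((geo2L φ J a).prod (geo2L φ J b)) (by
    rw [Module.finrank_prod, Module.finrank_self]; omega)
  exact ⟨u, hu0, congrArg Prod.fst hu, congrArg Prod.snd hu⟩

lemma exists_iso (hJ : Hrm φ J) (h : 2 ≤ Fintype.card n) : ∃ u : n → F, u ≠ 0 ∧ pr φ J u u = 0 := by
  obtain ⟨u, hu0, hu, -⟩ := geo2_exists_iso_ker hJ (0 : (n → F) →ₗ[F] PUnit) (by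
    rw [Module.finrank_zero_of_subsingleton]; omega)
  exact ⟨u, hu0, hu⟩

lemma exists_iso_perp1 (hJ : Hrm φ J) (h : 3 ≤ Fintype.card n) (a : n → F) :
    ∃ u : n → F, u ≠ 0 ∧ pr φ J u u = 0 ∧ pr φ J u a = 0 := by
  obtain ⟨u, hu0, hu, hL⟩ := geo2_exists_iso_ker hJ (geo2L φ J a) (by
    rw [Module.finrank_self]; omega)
  exact ⟨u, hu0, hu, hL⟩

/-- a non-zero isotropic vector perpendicular to two given vectors. -/
lemma exists_iso_perp2 (hJ : Hrm φ J) (h : 4 ≤ Fintype.card n) (a b : n → F) :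
    ∃ u : n → F, u ≠ 0 ∧ pr φ J u u = 0 ∧ pr φ J u a = 0 ∧ pr φ J u b = 0 := by
  obtain ⟨u, hu0, hu, hL⟩ := geo2_exists_iso_ker hJ ((geo2L φ J a).prod (geo2L φ J b)) (by
    rw [Module.finrank_prod, Module.finrank_self]; omega)
  exact ⟨u, hu0, hu, congrArg Prod.fst hL, congrArg Prod.snd hL⟩

lemma exists_tip (hJ : Hrm φ J) (h : 4 ≤ Fintype.card n) {y : n → F} (hy : y ≠ 0) (hyy : pr φ J y y = 0) :
    ∃ w : n → F, TIP φ J y w := by
  obtain ⟨v, hvv, hvy⟩ := exists_partner hJ hy hyy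
  obtain ⟨u, hu0, huu, huy, huv⟩ := exists_iso_perp2 hJ h y v
  refine ⟨u, ?_, hyy, huu, pr_swap0 hJ huy⟩
  intro a b hab
  have h1 : pr φ J (a • y + b • u) v = 0 := by rw [hab, pr_zero_left]
  rw [pr_add_left, pr_smul_left, pr_smul_left, huv, pr_swap1 hJ hvy] at h1
  have ha : a = 0 := by simpa using h1
  subst ha
  rw [zero_smul, zero_add] at hab
  exact ⟨rfl, (smul_eq_zero.1 hab).resolve_right hu0⟩

end Cfsg.Agent.Lib.Helper45.TU
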