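import Mathlib
import Cfsg.Agent.Lib.Helper45.TU.Spec

set_option autoImplicit false
set_option linter.unusedVariables false
set_option linter.unusedSectionVars false

namespace Cfsg.Agent.Lib.Helper45.TU

open Matrix hiding col row
open scoped Kronecker
open Cfsg.Agent.Lib.Helper99.Tens
open Cfsg.Agent.Lib.Helper99.TSp (Ind)

variable {A B : Type} [Fintype A] [DecidableEq A] [Fintype B] [DecidableEq B] {F : Type*} [Field F]
variable {φ : F →+* F} {J₁ : Matrix A A F} {J₂ : Matrix B B F}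

lemma pt_add_left (a a' : A → F) (y : B → F) : pt (a + a') y = pt a y + pt a' y := by
  funext p; simp [pt, add_mul]

lemma pt_add_right (a : A → F) (y y' : B → F) : pt a (y + y') = pt a y + pt a y' := by
  funext p; simp [pt, mul_add]

lemma pt_smul_left (c : F) (a : A → F) (y : B → F) : pt (c • a) y = c • pt a y := by
  funext p; simp [pt, mul_assoc]

lemma pt_smul_right (c : F) (a : A → F) (y : B → F) : pt a (c • y) = c • pt a y := by
  funext p; simp [pt, mul_left_comm]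

lemma pt_eq_zero {a : A → F} {y : B → F} (h : pt a y = 0) : a = 0 ∨ y = 0 := by
  by_contra hcon
  push Not at hcon
  obtain ⟨i, hi⟩ := Function.ne_iff.1 hcon.1
  obtain ⟨j, hj⟩ := Function.ne_iff.1 hcon.2
  have := congrFun h (i, j)
  simp only [pt, Pi.zero_apply, mul_eq_zero] at this
  rcases this with h | h
  · exact hi h
  · exact hj h

lemma pt_ind {a a' : A → F} {y y' : B → F} (hI : Ind y y') (h : pt a y = pt a' y') : a = 0 ∧ a' = 0 := by
  have key : ∀ i, a i = 0 ∧ a' i = 0 := by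
    intro i
    have : a i • y + (- a' i) • y' = 0 := by
      funext j
      have := congrFun h (i, j)
      simp only [pt] at this
      simp [this]
    obtain ⟨h1, h2⟩ := hI _ _ this
    exact ⟨h1, neg_eq_zero.1 h2⟩
  exact ⟨funext fun i => (key i).1, funext fun i => (key i).2⟩

/-- every vector is a sum of pure tensors. -/
lemma pt_induction (P : (A × B → F) → Prop) (hadd : ∀ v v', P v → P v' → P (v + v'))
    (hpt : ∀ (a : A → F) (y : B → F), P (pt a y)) : ∀ v, P v := by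
  intro v
  have hv : v = ∑ p : A × B, pt (Pi.single p.1 (v p)) (Pi.single p.2 1) := by
    funext ⟨i, j⟩
    rw [Finset.sum_apply, Finset.sum_eq_single (i, j)]
    · simp [pt]
    · rintro ⟨i', j'⟩ _ hne
      simp only [pt]
      by_cases h1 : i' = i
      · subst h1
        have : j' ≠ j := fun h => hne (by rw [h])
        simp [Pi.single_apply, this.symm]
      · simp [Pi.single_apply, Ne.symm h1]
    · simp
  have h0 : P 0 := by
    have := hpt 0 0
    have e : pt (0 : A → F) (0 : B → F) = 0 := by funext p; simp [pt]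
    rwa [e] at this
  rw [hv]
  refine Finset.sum_induction _ P hadd h0 ?_
  intro p _
  exact hpt _ _

lemma kron_pt (α : Matrix A A F) (β : Matrix B B F) (a : A → F) (y : B → F) :
    (α ⊗ₖ β) *ᵥ pt a y = pt (α *ᵥ a) (β *ᵥ y) := by
  funext ⟨i, j⟩
  simp only [Matrix.mulVec, dotProduct, pt, Matrix.kroneckerMap_apply, Fintype.sum_prod_type]
  rw [Finset.sum_mul_sum]
  refine Finset.sum_congr rfl fun i' _ => ?_
  refine Finset.sum_congr rfl fun j' _ => ?_
  ring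

lemma rho_pt (w : B → F) (a : A → F) (y : B → F) : rho A φ J₂ w *ᵥ pt a y = pr φ J₂ y w • a := by
  rw [← col_mulVec, Matrix.mulVec_mulVec, rho_col, Matrix.smul_mulVec, Matrix.one_mulVec]

lemma N_pt (y w x : B → F) (κ : Matrix A A F) (a : A → F) :
    N φ J₂ y w κ *ᵥ pt a x = pr φ J₂ x w • pt (κ *ᵥ a) y := by
  rw [← col_mulVec, Matrix.mulVec_mulVec, N_col, Matrix.smul_mulVec, ← Matrix.mulVec_mulVec, col_mulVec]

lemma cj_pt (a : A → F) (y : B → F) : cj φ (pt a y) = pt (cj φ a) (cj φ y) := by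
  funext p; simp [cj, pt]

lemma fl_pt (a : A → F) (y : B → F) : fl φ (J₁ ⊗ₖ J₂) (pt a y) = pt (fl φ J₁ a) (fl φ J₂ y) := by
  unfold fl
  rw [cj_pt, kron_pt]

lemma pt_dot_pt (a a' : A → F) (y y' : B → F) : pt a y ⬝ᵥ pt a' y' = (a ⬝ᵥ a') * (y ⬝ᵥ y') := by
  simp only [dotProduct, pt, Fintype.sum_prod_type]
  rw [Finset.sum_mul_sum]
  refine Finset.sum_congr rfl fun i' _ => ?_
  refine Finset.sum_congr rfl fun j' _ => ?_
  ring

lemma pr_pt (a a' : A → F) (y y' : B → F) :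
    pr φ (J₁ ⊗ₖ J₂) (pt a y) (pt a' y') = pr φ J₁ a a' * pr φ J₂ y y' := by
  unfold pr
  rw [fl_pt, pt_dot_pt]

lemma pr_pt_right (v : A × B → F) (a : A → F) (y : B → F) :
    pr φ (J₁ ⊗ₖ J₂) v (pt a y) = pr φ J₁ (rho A φ J₂ y *ᵥ v) a := by
  refine pt_induction (fun v => pr φ (J₁ ⊗ₖ J₂) v (pt a y) = pr φ J₁ (rho A φ J₂ y *ᵥ v) a) ?_ ?_ v
  · intro v v' h h'
    rw [pr_add_left, Matrix.mulVec_add, pr_add_left, h, h']
  · intro a' y'
    rw [pr_pt, rho_pt, pr_smul_left, mul_comm]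

lemma vmv_pt (a a' : A → F) (y y' : B → F) :
    vecMulVec (pt a y) (pt a' y') = vecMulVec a a' ⊗ₖ vecMulVec y y' := by
  ext ⟨i, j⟩ ⟨i', j'⟩
  simp only [Matrix.vecMulVec_apply, pt, Matrix.kroneckerMap_apply]
  ring

lemma N_rank_one (a : A → F) (y : B → F) (c : F) :
    1 + N φ J₂ y y (c • vecMulVec a (fl φ J₁ a)) = tv φ (J₁ ⊗ₖ J₂) (pt a y) c := by
  unfold tv
  rw [N_eq_kron, fl_pt, vmv_pt, Matrix.smul_kronecker]

lemma Hrm.kron (h₁ : Hrm φ J₁) (h₂ : Hrm φ J₂) : Hrm φ (J₁ ⊗ₖ J₂) where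
  ne_id := h₁.ne_id
  invol := h₁.invol
  herm := by
    intro x
    refine pt_induction (fun x => ∀ w, φ (pr φ (J₁ ⊗ₖ J₂) x w) = pr φ (J₁ ⊗ₖ J₂) w x) ?_ ?_ x
    · intro v v' h h' w
      rw [pr_add_left, pr_add_right, map_add, h, h']
    · intro a y w
      refine pt_induction (fun w => φ (pr φ (J₁ ⊗ₖ J₂) (pt a y) w) = pr φ (J₁ ⊗ₖ J₂) w (pt a y)) ?_ ?_ w
      · intro v v' h h'
        rw [pr_add_left, pr_add_right, map_add, h, h']
      · intro a' y'
        rw [pr_pt, pr_pt, map_mul, h₁.herm, h₂.herm]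
  unit := by
    rw [Matrix.det_kronecker]
    exact (h₁.unit.pow _).mul (h₂.unit.pow _)

/-- `x w♭ · x' w'♭ = ⟨x', w⟩ x w'♭`. -/
lemma vmv_mul (x w x' w' : A → F) :
    vecMulVec x (fl φ J₁ w) * vecMulVec x' (fl φ J₁ w') = pr φ J₁ x' w • vecMulVec x (fl φ J₁ w') := by
  rw [vmv_mul_vmv]
  rfl

lemma vmv_mulVec (x w v : A → F) : vecMulVec x (fl φ J₁ w) *ᵥ v = pr φ J₁ v w • x := by
  rw [Matrix.vecMulVec_mulVec, op_smul_eq_smul]
  rfl

lemma mul_vmv (κ : Matrix A A F) (x w : A → F) :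
    κ * vecMulVec x (fl φ J₁ w) = vecMulVec (κ *ᵥ x) (fl φ J₁ w) := by
  rw [Matrix.mul_vecMulVec]

/-- `x w♭ κ = x (κ† w)♭`. -/
lemma vmv_mul_mat (h₁ : Hrm φ J₁) (κ : Matrix A A F) (x w : A → F) :
    vecMulVec x (fl φ J₁ w) * κ = vecMulVec x (fl φ J₁ (adj φ J₁ κ *ᵥ w)) := by
  rw [Matrix.vecMulVec_mul]
  congr 1
  funext i
  have := pr_adj h₁ κ (Pi.single i 1) w
  unfold pr at this
  rw [Matrix.dotProduct_mulVec, dotProduct_single, mul_one, dotProduct_single, mul_one] at this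
  exact this

lemma vmv_conj (h₁ : Hrm φ J₁) {r r' : Matrix A A F} (hr : r * r' = 1) (hi : IsoM φ J₁ r) (x w : A → F) :
    r * vecMulVec x (fl φ J₁ w) * r' = vecMulVec (r *ᵥ x) (fl φ J₁ (r *ᵥ w)) := by
  rw [mul_vmv, Matrix.vecMulVec_mul, hi.vecMul_fl hr]

end Cfsg.Agent.Lib.Helper45.TU
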