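import Mathlib
import Cfsg.Agent.Lib.Helper45.TU.Geo
import Cfsg.Agent.Lib.Helper45.TU.Pt

set_option autoImplicit false
set_option linter.unusedVariables false
set_option linter.unusedSectionVars false

namespace Cfsg.Agent.Lib.Helper45.TU

open Matrix hiding col row
open scoped Kronecker
open Cfsg.Agent.Lib.Helper99.Tens
open Cfsg.Agent.Lib.Helper99.TSp (Ind)

variable {A B : Type} [Fintype A] [DecidableEq A] [Fintype B] [DecidableEq B] {F : Type*} [Field F] [Finite F]
variable {φ : F →+* F} {J₁ : Matrix A A F} {J₂ : Matrix B B F} {G : Subgroup (GL (A × B) F)}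

namespace KRI

/-- the image of `s - 1` is totally isotropic when `s` is an isometry with `(s-1)² = 0`. -/
lemma iso_image {n : Type} [Fintype n] [DecidableEq n] {J : Matrix n n F} {s : Matrix n n F}
    (hs : IsoM φ J s) (hsq : (s - 1) * (s - 1) = 0) (x x' : n → F) :
    pr φ J ((s - 1) *ᵥ x) ((s - 1) *ᵥ x') = 0 := by
  have hsx : ∀ z, s *ᵥ z = z + (s - 1) *ᵥ z := by
    intro z
    rw [Matrix.sub_mulVec, Matrix.one_mulVec]; abel
  have E : ∀ z z', pr φ J z ((s - 1) *ᵥ z') + pr φ J ((s - 1) *ᵥ z) z' +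
      pr φ J ((s - 1) *ᵥ z) ((s - 1) *ᵥ z') = 0 := by
    intro z z'
    have h := hs z z'
    rw [hsx z, hsx z', pr_add_left, pr_add_right, pr_add_right] at h
    linear_combination h
  have h := E x ((s - 1) *ᵥ x')
  rw [Matrix.mulVec_mulVec, hsq, Matrix.zero_mulVec, pr_zero_right, pr_zero_right] at h
  simpa using h

lemma exists_mulVec_ne_zero {n : Type} [Fintype n] [DecidableEq n] {M : Matrix n n F} (h : M ≠ 0) :
    ∃ x, M *ᵥ x ≠ 0 := by
  by_contra hcon
  push Not at hcon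
  apply h
  ext i j
  have := congrFun (hcon (Pi.single j 1)) i
  simpa using this

lemma exists_pr_ne_zero {n : Type} [Fintype n] [DecidableEq n] [Nonempty n] {J : Matrix n n F}
    (hJ : Hrm φ J) : ∃ a a' : n → F, pr φ J a a' ≠ 0 := by
  obtain ⟨i⟩ := ‹Nonempty n›
  by_contra hcon
  push Not at hcon
  have := eq_zero_of_pr hJ (w := Pi.single i 1) (fun x => hcon x _)
  have h1 := congrFun this i
  simp at h1

/-- `α ⊗ M + 1 ⊗ M' = 0` with `α` not scalar forces `M = M' = 0`. -/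
lemma kron_add_eq_zero [Nonempty A] {α : Matrix A A F} (hα : ¬ ∃ c : F, α = c • (1 : Matrix A A F))
    {M M' : Matrix B B F} (h : α ⊗ₖ M + (1 : Matrix A A F) ⊗ₖ M' = 0) : M = 0 ∧ M' = 0 := by
  have he : ∀ i i' j j', α i i' * M j j' + (1 : Matrix A A F) i i' * M' j j' = 0 := by
    intro i i' j j'
    have := congrFun (congrFun h (i, j)) (i', j')
    simpa [Matrix.kroneckerMap_apply] using this
  have hM : M = 0 := by
    by_contra hM
    obtain ⟨j, j', hj⟩ : ∃ j j', M j j' ≠ 0 := by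
      by_contra hcon
      push Not at hcon
      exact hM (by ext j j'; exact hcon j j')
    apply hα
    refine ⟨- M' j j' / M j j', ?_⟩
    ext i i'
    have := he i i' j j'
    rw [Matrix.smul_apply, smul_eq_mul]
    field_simp
    linear_combination this
  refine ⟨hM, ?_⟩
  obtain ⟨i⟩ := ‹Nonempty A›
  ext j j'
  have := he i i j j'
  rw [hM] at this
  simpa using this

lemma one_kron_eq_zero [Nonempty A] {M : Matrix B B F} (h : (1 : Matrix A A F) ⊗ₖ M = 0) : M = 0 := by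
  obtain ⟨i⟩ := ‹Nonempty A›
  ext j j'
  have := congrFun (congrFun h (i, j)) (i, j')
  simpa [Matrix.kroneckerMap_apply] using this

lemma kron_one_eq_zero [Nonempty B] {M : Matrix A A F} (h : M ⊗ₖ (1 : Matrix B B F) = 0) : M = 0 := by
  obtain ⟨j⟩ := ‹Nonempty B›
  ext i i'
  have := congrFun (congrFun h (i, j)) (i', j)
  simpa [Matrix.kroneckerMap_apply] using this

lemma pure_iso {α : Matrix A A F} {β : Matrix B B F} (hiso : IsoM φ (J₁ ⊗ₖ J₂) (α ⊗ₖ β))
    (a a' : A → F) (y y' : B → F) :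
    pr φ J₁ (α *ᵥ a) (α *ᵥ a') * pr φ J₂ (β *ᵥ y) (β *ᵥ y') = pr φ J₁ a a' * pr φ J₂ y y' := by
  have := hiso (pt a y) (pt a' y')
  rwa [kron_pt, kron_pt, pr_pt, pr_pt] at this

/-- the final step, common to two cases -/
lemma fin {α' : Matrix A A F} {β' : Matrix B B F} (hβ : IsoM φ J₂ β')
    (hsq : (β' - 1) * (β' - 1) = 0) (hne : β' ≠ 1) {a₀ : A → F} (ha : a₀ ≠ 0)
    (hfix : α' *ᵥ a₀ = a₀) :
    ∃ (a : A → F) (y : B → F) (v : A × B → F), a ≠ 0 ∧ y ≠ 0 ∧ pr φ J₂ y y = 0 ∧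
      (α' ⊗ₖ β' - 1) *ᵥ v = pt a y := by
  obtain ⟨x, hx⟩ := exists_mulVec_ne_zero (sub_ne_zero.2 hne)
  refine ⟨a₀, (β' - 1) *ᵥ x, pt a₀ x, ha, hx, iso_image hβ hsq x x, ?_⟩
  rw [Matrix.sub_mulVec, kron_pt, Matrix.one_mulVec, hfix, Matrix.sub_mulVec, Matrix.one_mulVec]
  funext p
  simp only [pt, Pi.sub_apply]
  ring

end KRI

open KRI

theorem kri [Nonempty A] [Nonempty B] (h₁ : Hrm φ J₁) (h₂ : Hrm φ J₂) (h2 : 2 ≤ Fintype.card B)
    {k : Matrix (A × B) (A × B) F} (hk : IsKr k) (hiso : IsoM φ (J₁ ⊗ₖ J₂) k) (hne : k ≠ 1)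
    (hsq : (k - 1) * (k - 1) = 0) :
    ∃ (a : A → F) (y : B → F) (v : A × B → F), a ≠ 0 ∧ y ≠ 0 ∧ pr φ J₂ y y = 0 ∧ (k - 1) *ᵥ v = pt a y := by
  classical
  obtain ⟨α, β, rfl⟩ := hk
  obtain ⟨i₀⟩ := ‹Nonempty A›
  by_cases hα : ∃ c : F, α = c • (1 : Matrix A A F)
  · -- `α` scalar
    obtain ⟨l, rfl⟩ := hα
    have hk' : (l • (1 : Matrix A A F)) ⊗ₖ β = (1 : Matrix A A F) ⊗ₖ (l • β) := by
      rw [Matrix.smul_kronecker, Matrix.kronecker_smul]
    rw [hk'] at hiso hne hsq ⊢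
    have hkm : (1 : Matrix A A F) ⊗ₖ (l • β) - 1 = (1 : Matrix A A F) ⊗ₖ (l • β - 1) := by
      have e : (1 : Matrix A A F) ⊗ₖ (l • β - 1) + (1 : Matrix A A F) ⊗ₖ (1 : Matrix B B F) =
          (1 : Matrix A A F) ⊗ₖ (l • β) := by
        rw [← Matrix.kronecker_add, sub_add_cancel]
      rw [← e, Matrix.one_kronecker_one, add_sub_cancel_right]
    have hβiso : IsoM φ J₂ (l • β) := by
      intro y y'
      obtain ⟨a, a', haa⟩ := exists_pr_ne_zero h₁
      have := pure_iso hiso a a' y y'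
      rw [Matrix.one_mulVec, Matrix.one_mulVec] at this
      exact mul_left_cancel₀ haa this
    have hβsq : (l • β - 1) * (l • β - 1) = 0 := by
      rw [hkm, ← Matrix.mul_kronecker_mul, Matrix.one_mul] at hsq
      exact one_kron_eq_zero hsq
    have hβne : l • β ≠ 1 := by
      intro h
      apply hne
      rw [h, Matrix.one_kronecker_one]
    exact fin hβiso hβsq hβne (a₀ := Pi.single i₀ 1)
      (fun h => by simpa using congrFun h i₀) (Matrix.one_mulVec _)
  by_cases hβ : ∃ c : F, β = c • (1 : Matrix B B F)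
  · -- `β` scalar
    obtain ⟨m, rfl⟩ := hβ
    have hk' : α ⊗ₖ (m • (1 : Matrix B B F)) = (m • α) ⊗ₖ (1 : Matrix B B F) := by
      rw [Matrix.smul_kronecker, Matrix.kronecker_smul]
    rw [hk'] at hne ⊢
    have hα1 : m • α - 1 ≠ 0 := by
      intro h
      apply hne
      rw [sub_eq_zero.1 h, Matrix.one_kronecker_one]
    obtain ⟨a', ha'⟩ := exists_mulVec_ne_zero hα1
    obtain ⟨y, hy0, hyy⟩ := exists_iso h₂ h2
    refine ⟨(m • α - 1) *ᵥ a', y, pt a' y, ha', hy0, hyy, ?_⟩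
    rw [Matrix.sub_mulVec, kron_pt, Matrix.one_mulVec, Matrix.one_mulVec, Matrix.sub_mulVec,
      Matrix.one_mulVec]
    funext p
    simp only [pt, Pi.sub_apply]
    ring
  -- neither is scalar
  obtain ⟨j₀⟩ := ‹Nonempty B›
  have E0 : (α * α) ⊗ₖ (β * β) - (2 : F) • (α ⊗ₖ β) + (1 : Matrix A A F) ⊗ₖ (1 : Matrix B B F) = 0 := by
    rw [Matrix.mul_kronecker_mul, Matrix.one_kronecker_one, ← hsq, two_smul]
    noncomm_ring
  have he0 : ∀ i i' j j', (α * α) i i' * (β * β) j j' - 2 * (α i i' * β j j') +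
      (1 : Matrix A A F) i i' * (1 : Matrix B B F) j j' = 0 := by
    intro i i' j j'
    have := congrFun (congrFun E0 (i, j)) (i', j')
    simp only [Matrix.add_apply, Matrix.sub_apply, Matrix.smul_apply, Matrix.kroneckerMap_apply,
      smul_eq_mul, Matrix.zero_apply] at this
    exact this
  have hββ : β * β ≠ 0 := by
    intro h0
    have e1 : ∀ i i' j j', 2 * (α i i' * β j j') = (1 : Matrix A A F) i i' * (1 : Matrix B B F) j j' := by
      intro i i' j j'
      have := he0 i i' j j'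
      rw [h0] at this
      simp only [Matrix.zero_apply, mul_zero, zero_sub] at this
      linear_combination -this
    -- then `β` is scalar
    apply hβ
    have h1 := e1 i₀ i₀ j₀ j₀
    simp only [Matrix.one_apply_eq, mul_one] at h1
    have hα0 : 2 * α i₀ i₀ ≠ 0 := by
      intro h
      rw [← mul_assoc, h, zero_mul] at h1
      exact zero_ne_one h1
    refine ⟨(2 * α i₀ i₀)⁻¹, ?_⟩
    ext j j'
    have h2 := e1 i₀ i₀ j j'
    simp only [Matrix.one_apply_eq, one_mul] at h2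
    rw [Matrix.smul_apply, smul_eq_mul, ← h2, ← mul_assoc 2, ← mul_assoc, inv_mul_cancel₀ hα0,
      one_mul]
  obtain ⟨j₁, j₂, hb2⟩ : ∃ j j', (β * β) j j' ≠ 0 := by
    by_contra hcon
    push Not at hcon
    exact hββ (by ext j j'; exact hcon j j')
  set p : F := 2 * β j₁ j₂ / (β * β) j₁ j₂ with hp
  set r : F := - (1 : Matrix B B F) j₁ j₂ / (β * β) j₁ j₂ with hr
  have hαα : ∀ i i', (α * α) i i' = p * α i i' + r * (1 : Matrix A A F) i i' := by
    intro i i'
    have := he0 i i' j₁ j₂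
    rw [hp, hr]
    field_simp
    linear_combination this
  have E1 : α ⊗ₖ (p • (β * β) - (2 : F) • β) + (1 : Matrix A A F) ⊗ₖ (r • (β * β) + 1) = 0 := by
    ext ⟨i, j⟩ ⟨i', j'⟩
    have := he0 i i' j j'
    rw [hαα] at this
    simp only [Matrix.add_apply, Matrix.kroneckerMap_apply, Matrix.sub_apply, Matrix.smul_apply,
      smul_eq_mul, Matrix.zero_apply]
    linear_combination this
  obtain ⟨hM, hM'⟩ := kron_add_eq_zero hα E1
  have hr0 : r ≠ 0 := by
    intro h
    rw [h, zero_smul, zero_add] at hM'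
    exact one_ne_zero hM'
  have hββ' : β * β = (-r⁻¹) • (1 : Matrix B B F) := by
    have : r • (β * β) = -1 := eq_neg_of_add_eq_zero_left hM'
    calc β * β = r⁻¹ • (r • (β * β)) := by rw [smul_smul, inv_mul_cancel₀ hr0, one_smul]
      _ = (-r⁻¹) • (1 : Matrix B B F) := by rw [this, smul_neg, neg_smul]
  have h20 : (2 : F) = 0 := by
    by_contra h
    apply hβ
    refine ⟨2⁻¹ * (p * -r⁻¹), ?_⟩
    have : (2 : F) • β = p • (β * β) := (sub_eq_zero.1 hM).symm
    calc β = (2 : F)⁻¹ • ((2 : F) • β) := by rw [smul_smul, inv_mul_cancel₀ h, one_smul]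
      _ = _ := by rw [this, hββ', smul_smul, smul_smul, mul_assoc]
  have hp0 : p = 0 := by
    rw [h20, zero_smul, sub_zero] at hM
    exact (smul_eq_zero.1 hM).resolve_right hββ
  have hαα' : α * α = r • (1 : Matrix A A F) := by
    ext i i'
    rw [hαα, hp0, zero_mul, zero_add, Matrix.smul_apply, smul_eq_mul]
  have hneg : ∀ c : F, -c = c := by
    intro c
    have : c + c = 0 := by rw [← two_mul, h20, zero_mul]
    exact neg_eq_of_add_eq_zero_left this
  have hchar : ringChar F = 2 := by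
    have : CharP F 2 := CharTwo.of_one_ne_zero_of_two_eq_zero one_ne_zero h20
    exact ringChar.eq F 2
  have : Fintype F := Fintype.ofFinite F
  obtain ⟨ρ, hρ'⟩ := FiniteField.isSquare_of_char_two hchar r
  have hρ : ρ ^ 2 = r := by rw [hρ', sq]
  have hρ0 : ρ ≠ 0 := by
    rintro rfl
    apply hr0
    rw [← hρ]; simp
  set α' : Matrix A A F := ρ⁻¹ • α with hα'
  set β' : Matrix B B F := ρ • β with hβ'
  have hk' : α ⊗ₖ β = α' ⊗ₖ β' := by
    rw [hα', hβ', Matrix.smul_kronecker, Matrix.kronecker_smul, smul_smul, inv_mul_cancel₀ hρ0,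
      one_smul]
  have hα2 : α' * α' = 1 := by
    rw [hα', Matrix.smul_mul, Matrix.mul_smul, hαα', smul_smul, smul_smul, ← hρ]
    have : ρ⁻¹ * ρ⁻¹ * ρ ^ 2 = 1 := by field_simp
    rw [this, one_smul]
  have hβ2 : β' * β' = 1 := by
    rw [hβ', Matrix.smul_mul, Matrix.mul_smul, hββ', smul_smul, smul_smul, hneg, ← hρ]
    have : ρ * ρ * (ρ ^ 2)⁻¹ = 1 := by field_simp
    rw [this, one_smul]
  have hβsq : (β' - 1) * (β' - 1) = 0 := by
    have : (β' - 1) * (β' - 1) = β' * β' - (2 : F) • β' + 1 := by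
      rw [two_smul]; noncomm_ring
    rw [this, hβ2, h20, zero_smul, sub_zero, ← two_smul F (1 : Matrix B B F), h20, zero_smul]
  have hβne : β' ≠ 1 := by
    intro h
    apply hβ
    refine ⟨ρ⁻¹, ?_⟩
    rw [← h, hβ', smul_smul, inv_mul_cancel₀ hρ0, one_smul]
  rw [hk'] at hiso ⊢
  have hβiso : IsoM φ J₂ β' := by
    obtain ⟨a, a', haa⟩ := exists_pr_ne_zero h₁
    obtain ⟨z, z', hzz⟩ := exists_pr_ne_zero h₂
    set t := pr φ J₁ (α' *ᵥ a) (α' *ᵥ a') with ht
    set e := pr φ J₁ a a' with he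
    have hP : ∀ y y', t * pr φ J₂ (β' *ᵥ y) (β' *ᵥ y') = e * pr φ J₂ y y' :=
      fun y y' => pure_iso hiso a a' y y'
    have ht0 : t ≠ 0 := by
      intro h
      have := hP z z'
      rw [h, zero_mul] at this
      exact mul_ne_zero haa hzz this.symm
    -- apply twice
    have h2 : ∀ y y', t * t * pr φ J₂ y y' = e * e * pr φ J₂ y y' := by
      intro y y'
      have h3 := hP (β' *ᵥ y) (β' *ᵥ y')
      rw [Matrix.mulVec_mulVec, Matrix.mulVec_mulVec, hβ2, Matrix.one_mulVec, Matrix.one_mulVec] at h3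
      have h4 := hP y y'
      linear_combination t * h3 + e * h4
    have h5 : t * t = e * e := mul_right_cancel₀ hzz (h2 z z')
    have h6 : (t - e) * (t - e) = 0 := by
      have : (t - e) * (t - e) = t * t + e * e - 2 * (t * e) := by ring
      rw [this, h5, h20, zero_mul, sub_zero, ← two_mul, h20, zero_mul]
    have h7 : t = e := sub_eq_zero.1 (mul_self_eq_zero.1 h6)
    intro y y'
    have := hP y y'
    rw [h7] at this
    exact mul_left_cancel₀ haa this
  have hα1 : α' + 1 ≠ 0 := by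
    intro h
    apply hα
    refine ⟨-ρ, ?_⟩
    have h1 : α' = -1 := eq_neg_of_add_eq_zero_left h
    calc α = ρ • α' := by rw [hα', smul_smul, mul_inv_cancel₀ hρ0, one_smul]
      _ = -ρ • (1 : Matrix A A F) := by rw [h1, smul_neg, neg_smul]
  obtain ⟨a', ha'⟩ := exists_mulVec_ne_zero hα1
  refine fin hβiso hβsq hβne ha' ?_
  rw [Matrix.mulVec_mulVec, Matrix.mul_add, hα2, Matrix.mul_one, add_comm]

end Cfsg.Agent.Lib.Helper45.TU
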