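import Mathlib
import Cfsg.Agent.Lib.Helper45.TU.Short
import Cfsg.Agent.Lib.Helper45.TU.KRI
import Cfsg.Agent.Lib.Helper45.TU.CW
import Cfsg.Agent.Lib.Helper45.TU.Geo1
import Cfsg.Agent.Lib.Helper45.TU.Geo2

set_option autoImplicit false
set_option linter.unusedVariables false
set_option linter.unusedSectionVars false

namespace Cfsg.Agent.Lib.Helper45.TU

open Matrix hiding col row
open scoped Kronecker
open Cfsg.Agent.Lib.Helper99.Tens
open Cfsg.Agent.Lib.Helper99.TSp (Ind)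

variable {A B : Type} [Fintype A] [DecidableEq A] [Fintype B] [DecidableEq B] {F : Type*} [Field F] [Finite F]
variable {φ : F →+* F} {J₁ : Matrix A A F} {J₂ : Matrix B B F} {G : Subgroup (GL (A × B) F)}

lemma pfin_smul_one_eq_zero [Nonempty A] {c : F} (h : c • (1 : Matrix A A F) = 0) : c = 0 := by
  obtain ⟨a⟩ := ‹Nonempty A›
  have := congrFun (congrFun h a) a
  simpa using this

theorem isKr_of_T5 [Nonempty A] [Nonempty B] (hS : HasU φ J₁ J₂ G) (hT : T5 φ J₂ G)
    (h5 : 5 ≤ Fintype.card B) (hc : Fintype.card A + 5 < 2 * Fintype.card B)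
    {g g' : Matrix (A × B) (A × B) F} (hg : g ∈ MS G) (h1 : g * g' = 1) : IsKr g := by
  by_contra hnk
  have h₁ := hS.h1
  have h₂ := hS.h2
  obtain ⟨y₂, hy0, hyy⟩ := exists_iso h₂ (by omega)
  obtain ⟨v₀, hvv, hvy⟩ := exists_partner h₂ hy0 hyy
  have hyv : pr φ J₂ y₂ v₀ = 1 := pr_swap1 h₂ hvy
  have h1' : g' * g = 1 := mul_eq_one_comm.1 h1
  set C₂ : Matrix (A × B) A F := g * col A y₂ with hC₂
  set P : (B → F) → Matrix A A F := fun w => rho A φ J₂ w * C₂ with hPdef
  have hPinj : ∀ a, P y₂ *ᵥ a = 0 → a = 0 := hT g g' y₂ y₂ hg h1 hnk hy0 hy0 hyy hyy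
  have hPunit : IsUnit (P y₂).det := by
    rw [isUnit_iff_ne_zero]
    intro hd
    obtain ⟨a, ha0, ha⟩ := Matrix.exists_mulVec_eq_zero_iff.2 hd
    exact ha0 (hPinj a ha)
  obtain ⟨w, s, hw0, hww, hwy, hwv, hs, hdet⟩ := cw h₁ h₂ hc y₂ v₀ P
    (fun w w' => by simp only [hPdef, rho_add, Matrix.add_mul])
    (fun c w => by simp only [hPdef, rho_smul, Matrix.smul_mul]) hPunit
  have hyw : pr φ J₂ y₂ w = 0 := pr_swap0 h₂ hwy
  have hvw : pr φ J₂ v₀ w = 0 := pr_swap0 h₂ hwv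
  set X : Matrix (A × B) (A × B) F :=
    N φ J₂ w y₂ ((1 : F) • (1 : Matrix A A F)) - N φ J₂ y₂ w (φ 1 • (1 : Matrix A A F)) with hXdef
  set Y : Matrix (A × B) (A × B) F := N φ J₂ y₂ y₂ (s • (1 : Matrix A A F)) with hYdef
  have hX : 1 + X ∈ MS G := short_mem hS hww hyy hwy 1
  have hY : 1 + Y ∈ MS G := long_mem hS hyy hs
  have hXY : X * Y = 0 := by
    simp only [hXdef, hYdef, Matrix.sub_mul, N_mul, hyy, hyw, zero_smul, sub_self]
  set n : Matrix (A × B) (A × B) F := X + Y with hndef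
  have hu : 1 + n ∈ MS G := MS_add hXY hX hY
  have hnn : n * n = 0 := by
    simp only [hndef, hXdef, hYdef, Matrix.add_mul, Matrix.mul_add, Matrix.sub_mul, Matrix.mul_sub,
      N_mul, hyy, hyw, hwy, hww, zero_smul, sub_self, add_zero]
  have hrn : rho A φ J₂ y₂ * n = 0 := by
    simp only [hndef, hXdef, hYdef, Matrix.mul_add, Matrix.mul_sub, rho_N, hyy, hwy, zero_smul,
      sub_self, add_zero]
  set k : Matrix (A × B) (A × B) F := 1 + g' * n * g with hkdef
  have hg' : g' ∈ MS G := MS_inv hg h1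
  have hk : k ∈ MS G := MS_conj hg' h1' hu
  have hkm : k - 1 = g' * n * g := by rw [hkdef, add_sub_cancel_left]
  have hsq0 : g' * n * g * (g' * n * g) = 0 := by
    calc g' * n * g * (g' * n * g) = g' * (n * (g * g') * n) * g := by
          simp only [Matrix.mul_assoc]
      _ = 0 := by rw [h1, Matrix.mul_one, hnn, Matrix.mul_zero, Matrix.zero_mul]
  have hsq : (k - 1) * (k - 1) = 0 := by rw [hkm]; exact hsq0
  have hkinv : k * (1 - g' * n * g) = 1 := unip_mul hsq0
  have hn0 : n ≠ 0 := by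
    intro hn
    have e1 : n * col A v₀ = col A w + s • col A y₂ := by
      simp only [hndef, hXdef, hYdef, Matrix.add_mul, Matrix.sub_mul, N_col, hvy, hvw, zero_smul,
        one_smul, sub_zero, Matrix.mul_one, Matrix.mul_smul]
    rw [hn, Matrix.zero_mul] at e1
    have e2 : rho A φ J₂ v₀ * (col A w + s • col A y₂) = s • (1 : Matrix A A F) := by
      rw [Matrix.mul_add, Matrix.mul_smul, rho_col, rho_col, hwv, hyv, zero_smul, zero_add, one_smul]
    rw [← e1, Matrix.mul_zero] at e2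
    have hs0 : s = 0 := pfin_smul_one_eq_zero e2.symm
    rw [hs0, zero_smul, add_zero] at e1
    apply hw0
    apply eq_zero_of_pr h₂
    intro x
    apply pr_swap0 h₂
    have e3 : rho A φ J₂ x * col A w = pr φ J₂ w x • (1 : Matrix A A F) := rho_col _ _
    rw [← e1, Matrix.mul_zero] at e3
    exact pfin_smul_one_eq_zero e3.symm
  have hk1 : k ≠ 1 := by
    intro h
    apply hn0
    have h0 : g' * n * g = 0 := by rw [← hkm, h, sub_self]
    calc n = (g * g') * n * (g * g') := by rw [h1, Matrix.one_mul, Matrix.mul_one]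
      _ = g * (g' * n * g) * g' := by simp only [Matrix.mul_assoc]
      _ = 0 := by rw [h0, Matrix.mul_zero, Matrix.zero_mul]
  have hN : ∀ (y w : B → F) (κ : Matrix A A F), N φ J₂ y w κ * C₂ = col A y * (κ * P w) := by
    intro y w κ
    unfold N
    simp only [hPdef, Matrix.mul_assoc]
  have hsc : ∀ (x : B → F) (M : Matrix A A F),
      sharp φ J₁ J₂ C₂ * (col A x * M) = adj φ J₁ (P x) * M := by
    intro x M
    rw [← Matrix.mul_assoc, sharp_mul_col h₁]
  have hblock : rho A φ J₂ y₂ * (k * col A y₂) =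
      adj φ J₁ (P w) * P y₂ - adj φ J₁ (P y₂) * P w + s • (adj φ J₁ (P y₂) * P y₂) := by
    have e1 : k * col A y₂ = col A y₂ + g' * (n * C₂) := by
      rw [hkdef, Matrix.add_mul, Matrix.one_mul, hC₂]
      simp only [Matrix.mul_assoc]
    rw [e1, Matrix.mul_add, rho_col, hyy, zero_smul, zero_add, ← Matrix.mul_assoc,
      rho_g hS hg h1, ← hC₂, hndef, hXdef, hYdef, Matrix.add_mul, Matrix.sub_mul, hN, hN, hN,
      Matrix.mul_add, Matrix.mul_sub, hsc, hsc, hsc, map_one]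
    simp only [one_smul, Matrix.one_mul, Matrix.smul_mul, Matrix.mul_smul]
  have hkKr : IsKr k := by
    by_contra hnk'
    obtain ⟨a, ha0, ha⟩ := Matrix.exists_mulVec_eq_zero_iff.2 hdet
    exact ha0 (hT k _ y₂ y₂ hk hkinv hnk' hy0 hy0 hyy hyy a (by rw [hblock]; exact ha))
  obtain ⟨a, y, v, ha0, hy0', hyy', hv⟩ := kri h₁ h₂ (by omega) hkKr (hS.iso k hk) hk1 hsq
  apply ha0
  apply hT g g' y y₂ hg h1 hnk hy0' hy0 hyy' hyy a
  rw [← Matrix.mulVec_mulVec, ← Matrix.mulVec_mulVec, col_mulVec, ← hv, hkm,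
    Matrix.mulVec_mulVec, Matrix.mulVec_mulVec]
  have e : rho A φ J₂ y₂ * (g * (g' * n * g)) = 0 := by
    calc rho A φ J₂ y₂ * (g * (g' * n * g)) = rho A φ J₂ y₂ * ((g * g') * n * g) := by
          simp only [Matrix.mul_assoc]
      _ = (rho A φ J₂ y₂ * n) * g := by rw [h1, Matrix.one_mul, Matrix.mul_assoc]
      _ = 0 := by rw [hrn, Matrix.zero_mul]
  rw [Matrix.mul_assoc, e, Matrix.zero_mulVec]

end Cfsg.Agent.Lib.Helper45.TU
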