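import Mathlib


set_option autoImplicit false
set_option linter.unusedVariables false
set_option linter.unusedSectionVars false

namespace Cfsg.Agent.Lib.Helper45.TU

/-- a coset `kH` fixed by `x` -/
lemma gleason_fix {Γ : Type*} [Group Γ] (H : Subgroup Γ) (x k : Γ)
    (h : x • (k : Γ ⧸ H) = (k : Γ ⧸ H)) : k⁻¹ * x * k ∈ H := by
  have h1 : ((x * k : Γ) : Γ ⧸ H) = (k : Γ ⧸ H) := h
  have h2 := QuotientGroup.eq.mp h1.symm
  rwa [← mul_assoc] at h2

lemma gleason_fix' {Γ : Type*} [Group Γ] (H : Subgroup Γ) (x k : Γ)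
    (h : k⁻¹ * x * k ∈ H) : x • (k : Γ ⧸ H) = (k : Γ ⧸ H) := by
  show ((x * k : Γ) : Γ ⧸ H) = (k : Γ ⧸ H)
  refine (QuotientGroup.eq.mpr ?_).symm
  rwa [← mul_assoc]

/-- Gleason's lemma for two `p`-subgroups with unique fixed points on `Γ ⧸ H`. -/
theorem gleason {Γ : Type*} [Group Γ] [Finite Γ] (p : ℕ) [Fact p.Prime] (H Z Z' : Subgroup Γ)
    (hZ : IsPGroup p Z) (hZ' : IsPGroup p Z') (g : Γ)
    (h1 : ∀ k : Γ, (∀ x ∈ Z, k⁻¹ * x * k ∈ H) → k ∈ H)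
    (h2 : ∀ k : Γ, (∀ x ∈ Z', k⁻¹ * x * k ∈ H) → k⁻¹ * g ∈ H)
    (h3 : ∀ x ∈ Z', g⁻¹ * x * g ∈ H) : ∃ d ∈ Z ⊔ Z', d * g ∈ H := by
  classical
  set D : Subgroup Γ := Z ⊔ Z' with hD
  let a : Γ ⧸ H := (g : Γ ⧸ H)
  let O := MulAction.orbit D a
  have hZ1 : IsPGroup p (Z.subgroupOf D) := hZ.comap_subtype
  have hZ2 : IsPGroup p (Z'.subgroupOf D) := hZ'.comap_subtype
  have hfin : Finite O := Subtype.finite
  have c1 := hZ1.card_modEq_card_fixedPoints O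
  have c2 := hZ2.card_modEq_card_fixedPoints O
  have hone : Nat.card (MulAction.fixedPoints (Z'.subgroupOf D) O) = 1 := by
    rw [Nat.card_eq_one_iff_exists]
    refine ⟨⟨⟨a, MulAction.mem_orbit_self a⟩, ?_⟩, ?_⟩
    · rw [MulAction.mem_fixedPoints]
      rintro ⟨⟨x, hxD⟩, hx⟩
      apply Subtype.ext
      exact gleason_fix' H x g (h3 x hx)
    · rintro ⟨⟨o, ho⟩, hfix⟩
      apply Subtype.ext
      apply Subtype.ext
      show o = a
      obtain ⟨k, rfl⟩ := QuotientGroup.mk_surjective o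
      rw [MulAction.mem_fixedPoints] at hfix
      have hk : ∀ x ∈ Z', k⁻¹ * x * k ∈ H := by
        intro x hx
        have hxD : x ∈ D := (le_sup_right : Z' ≤ Z ⊔ Z') hx
        have := hfix ⟨⟨x, hxD⟩, hx⟩
        have h5 := congrArg Subtype.val this
        exact gleason_fix H x k h5
      exact QuotientGroup.eq.mpr (h2 k hk)
  rw [hone] at c2
  have hne : Nat.card (MulAction.fixedPoints (Z.subgroupOf D) O) ≠ 0 := by
    intro h0
    rw [h0] at c1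
    have h5 : (0 : ℕ) ≡ 1 [MOD p] := c1.symm.trans c2
    have h6 : p ∣ 1 := (Nat.modEq_zero_iff_dvd.mp h5.symm)
    exact (Fact.out : p.Prime).one_lt.ne' (Nat.dvd_one.mp h6)
  have hnonempty : Nonempty (MulAction.fixedPoints (Z.subgroupOf D) O) := by
    by_contra hcon
    rw [not_nonempty_iff] at hcon
    exact hne Nat.card_of_isEmpty
  obtain ⟨⟨⟨o, ⟨d, hd⟩⟩, hfix⟩⟩ := hnonempty
  refine ⟨(d : Γ), d.2, ?_⟩
  apply h1
  intro x hx
  rw [MulAction.mem_fixedPoints] at hfix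
  have hxD : x ∈ D := (le_sup_left : Z ≤ Z ⊔ Z') hx
  have := hfix ⟨⟨x, hxD⟩, hx⟩
  have h5 : x • o = o := congrArg Subtype.val this
  have h6 : o = (((d : Γ) * g : Γ) : Γ ⧸ H) := hd.symm
  rw [h6] at h5
  exact gleason_fix H x _ h5

end Cfsg.Agent.Lib.Helper45.TU
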