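import Mathlib
import Cfsg.Agent.Lib.Helper45.TU.Geo
import Cfsg.Agent.Lib.Helper45.TU.GAbs

set_option autoImplicit false
set_option linter.unusedVariables false
set_option linter.unusedSectionVars false

namespace Cfsg.Agent.Lib.Helper45.TU

open Matrix hiding col row
open scoped Kronecker
open Cfsg.Agent.Lib.Helper99.Tens
open Cfsg.Agent.Lib.Helper99.TSp (Ind)

section aux

variable {ι : Type} [Fintype ι] [DecidableEq ι] {F : Type*} [Field F]

lemma gle_coe_inv {x : GL ι F} {Y : Matrix ι ι F} (h : (x : Matrix ι ι F) * Y = 1) :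
    ((x⁻¹ : GL ι F) : Matrix ι ι F) = Y := by
  calc ((x⁻¹ : GL ι F) : Matrix ι ι F) = ((x⁻¹ : GL ι F) : Matrix ι ι F) * ((x : Matrix ι ι F) * Y) := by
        rw [h, mul_one]
    _ = Y := by rw [← mul_assoc, ← Units.val_mul, inv_mul_cancel, Units.val_one, one_mul]

lemma unip_mul2 {M : Matrix ι ι F} (hM : M * M = 0) (c d : F) :
    (1 + c • M) * (1 + d • M) = 1 + (c + d) • M := by
  rw [add_mul, mul_add, mul_add, one_mul, one_mul, mul_one, smul_mul_smul_comm, hM,
      smul_zero, add_zero, add_smul]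
  abel

/-- the group `{1 + c M : c + φ c = 0}` for `M² = 0`. -/
def unipSub (φ : F →+* F) (M : Matrix ι ι F) (hM : M * M = 0) : Subgroup (GL ι F) where
  carrier := {x | ∃ c : F, c + φ c = 0 ∧ (x : Matrix ι ι F) = 1 + c • M}
  one_mem' := ⟨0, by simp, by simp⟩
  mul_mem' := by
    rintro x y ⟨c, hc, hx⟩ ⟨d, hd, hy⟩
    refine ⟨c + d, by rw [map_add]; linear_combination hc + hd, ?_⟩
    rw [Units.val_mul, hx, hy, unip_mul2 hM]
  inv_mem' := by
    rintro x ⟨c, hc, hx⟩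
    refine ⟨-c, by rw [map_neg]; linear_combination -hc, ?_⟩
    apply gle_coe_inv
    rw [hx, unip_mul2 hM, add_neg_cancel, zero_smul, add_zero]

lemma mem_unipSub {φ : F →+* F} {M : Matrix ι ι F} {hM : M * M = 0} {x : GL ι F} :
    x ∈ unipSub φ M hM ↔ ∃ c : F, c + φ c = 0 ∧ (x : Matrix ι ι F) = 1 + c • M := Iff.rfl

lemma unip_pow {M : Matrix ι ι F} (hM : M * M = 0) (c : F) (k : ℕ) :
    (1 + c • M) ^ k = 1 + ((k : F) * c) • M := by
  induction k with
  | zero => simp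
  | succ k ih =>
    rw [pow_succ, ih, unip_mul2 hM, Nat.cast_succ, add_mul, one_mul]

lemma unipSub_pgroup (φ : F →+* F) (M : Matrix ι ι F) (hM : M * M = 0) (p : ℕ) [CharP F p] :
    IsPGroup p (unipSub φ M hM) := by
  rintro ⟨x, c, hc, hx⟩
  refine ⟨1, ?_⟩
  apply Subtype.ext
  apply Units.ext
  rw [pow_one]
  show ((x ^ p : GL ι F) : Matrix ι ι F) = 1
  rw [Units.val_pow_eq_pow_val, hx, unip_pow hM, CharP.cast_eq_zero, zero_mul, zero_smul, add_zero]

end aux

variable {A B : Type} [Fintype A] [DecidableEq A] [Fintype B] [DecidableEq B] {F : Type*} [Field F] [Finite F]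
variable {φ : F →+* F} {J₁ : Matrix A A F} {J₂ : Matrix B B F} {G : Subgroup (GL (A × B) F)}

lemma IsKr_mul {X Y : Matrix (A × B) (A × B) F} (hX : IsKr X) (hY : IsKr Y) : IsKr (X * Y) := by
  obtain ⟨α, β, rfl⟩ := hX
  obtain ⟨α', β', rfl⟩ := hY
  exact ⟨α * α', β * β', (Matrix.mul_kronecker_mul _ _ _ _).symm⟩

/-- the Kronecker elements of `G`. -/
def krSub [Nonempty A] [Nonempty B] (G : Subgroup (GL (A × B) F)) : Subgroup G where
  carrier := {k | IsKr ((k : GL (A × B) F) : Matrix (A × B) (A × B) F)}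
  one_mem' := ⟨1, 1, by simp⟩
  mul_mem' := fun {x y} hx hy => IsKr_mul hx hy
  inv_mem' := fun {x} hx => IsKr_inv hx (by
    show ((x : GL (A × B) F) : Matrix (A × B) (A × B) F) * (((x⁻¹ : G) : GL (A × B) F) : Matrix (A × B) (A × B) F) = 1
    rw [Subgroup.coe_inv, ← Units.val_mul, mul_inv_cancel, Units.val_one])

lemma isKr_long (y : B → F) (c : F) : IsKr (1 + N φ J₂ y y (c • (1 : Matrix A A F))) := by
  refine ⟨1, 1 + c • vecMulVec y (fl φ J₂ y), ?_⟩
  rw [N_eq_kron, Matrix.kronecker_add, Matrix.one_kronecker_one, Matrix.smul_kronecker,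
      Matrix.kronecker_smul]

theorem gle_of_rc [Nonempty A] [Nonempty B] (hS : HasU φ J₁ J₂ G) (hRC : RC φ J₂ G) : GLE φ J₂ G := by
  intro g g' y' y₂ hg hgg hy' hy₂ hyy' hyy₂
  obtain ⟨γ, hγ, rfl⟩ := hg
  have hg' : ((γ⁻¹ : GL (A × B) F) : Matrix (A × B) (A × B) F) = g' := gle_coe_inv hgg
  subst hg'
  have hgg' : ((γ⁻¹ : GL (A × B) F) : Matrix (A × B) (A × B) F) * (γ : Matrix (A × B) (A × B) F) = 1 := by
    rw [← Units.val_mul, inv_mul_cancel, Units.val_one]
  obtain ⟨θ, hθ0, hθ⟩ := exists_skew hS.h2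
  set p := ringChar F with hp
  have : CharP F p := ringChar.charP F
  have : Fact p.Prime := ⟨CharP.char_is_prime F p⟩
  set M : Matrix (A × B) (A × B) F := N φ J₂ y₂ y₂ (1 : Matrix A A F) with hMdef
  set M0 : Matrix (A × B) (A × B) F := N φ J₂ y' y' (1 : Matrix A A F) with hM0def
  set M' : Matrix (A × B) (A × B) F := (γ : Matrix (A × B) (A × B) F) * M0 *
    ((γ⁻¹ : GL (A × B) F) : Matrix (A × B) (A × B) F) with hM'def
  have hM : M * M = 0 := by rw [hMdef, N_mul, hyy₂, zero_smul]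
  have hM0 : M0 * M0 = 0 := by rw [hM0def, N_mul, hyy', zero_smul]
  have hM' : M' * M' = 0 := conj_sq hgg' hM0
  have hfin : Finite (GL (A × B) F) := inferInstance
  -- the two root elements
  obtain ⟨z, hzG, hz⟩ := long_mem (A := A) hS hyy₂ hθ
  obtain ⟨z0, hz0G, hz0⟩ := long_mem (A := A) hS hyy' hθ
  have hzM : (z : Matrix (A × B) (A × B) F) = 1 + θ • M := by rw [hz, hMdef, N_smul]
  have h1 : ∀ k : G, (∀ x ∈ (unipSub φ M hM).subgroupOf G, k⁻¹ * x * k ∈ krSub G) → k ∈ krSub G := by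
    intro k hk
    have h := hk ⟨z, hzG⟩ (by
      rw [Subgroup.mem_subgroupOf]
      exact ⟨θ, hθ, hzM⟩)
    have h' : IsKr ((((k : GL (A × B) F)⁻¹ : GL (A × B) F) : Matrix (A × B) (A × B) F) *
        (z : Matrix (A × B) (A × B) F) * ((k : GL (A × B) F) : Matrix (A × B) (A × B) F)) := h
    have hkk : (((k : GL (A × B) F)⁻¹ : GL (A × B) F) : Matrix (A × B) (A × B) F) *
        ((k : GL (A × B) F) : Matrix (A × B) (A × B) F) = 1 := by
      rw [← Units.val_mul, inv_mul_cancel, Units.val_one]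
    rw [hz, mul_add, add_mul, mul_one, hkk] at h'
    have := hRC _ _ y₂ θ (MS_coe_inv k.2) hkk hy₂ hyy₂ hθ0 h'
    exact IsKr_inv this hkk
  have h2 : ∀ k : G, (∀ x ∈ (unipSub φ M' hM').subgroupOf G, k⁻¹ * x * k ∈ krSub G) →
      k⁻¹ * ⟨γ, hγ⟩ ∈ krSub G := by
    intro k hk
    have hmem : γ * z0 * γ⁻¹ ∈ G := G.mul_mem (G.mul_mem hγ hz0G) (G.inv_mem hγ)
    have hval : ((γ * z0 * γ⁻¹ : GL (A × B) F) : Matrix (A × B) (A × B) F) = 1 + θ • M' := by
      rw [Units.val_mul, Units.val_mul, hz0, mul_add, add_mul, mul_one, hgg, hM'def, hM0def, N_smul,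
        Matrix.mul_smul, Matrix.smul_mul]
    have h := hk ⟨γ * z0 * γ⁻¹, hmem⟩ (by
      rw [Subgroup.mem_subgroupOf]
      exact ⟨θ, hθ, hval⟩)
    have h' : IsKr ((((k : GL (A × B) F)⁻¹ : GL (A × B) F) : Matrix (A × B) (A × B) F) *
        ((γ * z0 * γ⁻¹ : GL (A × B) F) : Matrix (A × B) (A × B) F) *
        ((k : GL (A × B) F) : Matrix (A × B) (A × B) F)) := h
    have hkk : (((k : GL (A × B) F)⁻¹ : GL (A × B) F) : Matrix (A × B) (A × B) F) *
        ((k : GL (A × B) F) : Matrix (A × B) (A × B) F) = 1 := by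
      rw [← Units.val_mul, inv_mul_cancel, Units.val_one]
    have hkg : ((((k : GL (A × B) F)⁻¹ * γ : GL (A × B) F)) : Matrix (A × B) (A × B) F) *
        ((γ⁻¹ * (k : GL (A × B) F) : GL (A × B) F) : Matrix (A × B) (A × B) F) = 1 := by
      rw [← Units.val_mul, ← Units.val_one]
      congr 1
      group
    have e : (((k : GL (A × B) F)⁻¹ : GL (A × B) F) : Matrix (A × B) (A × B) F) *
        ((γ * z0 * γ⁻¹ : GL (A × B) F) : Matrix (A × B) (A × B) F) *
        ((k : GL (A × B) F) : Matrix (A × B) (A × B) F) =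
        1 + ((((k : GL (A × B) F)⁻¹ * γ : GL (A × B) F)) : Matrix (A × B) (A × B) F) *
          N φ J₂ y' y' (θ • (1 : Matrix A A F)) *
          ((γ⁻¹ * (k : GL (A × B) F) : GL (A × B) F) : Matrix (A × B) (A × B) F) := by
      rw [hval, mul_add, add_mul, mul_one, hkk, hM'def, hM0def, N_smul, Units.val_mul, Units.val_mul]
      simp only [Matrix.mul_smul, Matrix.smul_mul, Matrix.mul_assoc]
    rw [e] at h'
    exact hRC _ _ y' θ (MS_coe (G.mul_mem (G.inv_mem k.2) hγ)) hkg hy' hyy' hθ0 h'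
  have h3 : ∀ x ∈ (unipSub φ M' hM').subgroupOf G, (⟨γ, hγ⟩ : G)⁻¹ * x * ⟨γ, hγ⟩ ∈ krSub G := by
    rintro ⟨x, hxG⟩ hx
    rw [Subgroup.mem_subgroupOf] at hx
    obtain ⟨c, hc, hx⟩ := hx
    show IsKr (((γ⁻¹ : GL (A × B) F) : Matrix (A × B) (A × B) F) * (x : Matrix (A × B) (A × B) F) *
      (γ : Matrix (A × B) (A × B) F))
    have hx' : (x : Matrix (A × B) (A × B) F) = 1 + c • M' := hx
    have e : ((γ⁻¹ : GL (A × B) F) : Matrix (A × B) (A × B) F) * (x : Matrix (A × B) (A × B) F) *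
      (γ : Matrix (A × B) (A × B) F) = 1 + N φ J₂ y' y' (c • (1 : Matrix A A F)) := by
      rw [hx', mul_add, add_mul, mul_one, hgg', hM'def, hM0def, N_smul]
      congr 1
      rw [Matrix.mul_smul, Matrix.smul_mul]
      congr 1
      calc _ = (((γ⁻¹ : GL (A × B) F) : Matrix (A × B) (A × B) F) * (γ : Matrix (A × B) (A × B) F)) *
            N φ J₂ y' y' (1 : Matrix A A F) *
            (((γ⁻¹ : GL (A × B) F) : Matrix (A × B) (A × B) F) * (γ : Matrix (A × B) (A × B) F)) := by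
            simp only [Matrix.mul_assoc]
        _ = _ := by rw [hgg', Matrix.one_mul, Matrix.mul_one]
    rw [e]
    exact isKr_long y' c
  obtain ⟨d, hd, hdg⟩ := gleason p (krSub G) ((unipSub φ M hM).subgroupOf G)
    ((unipSub φ M' hM').subgroupOf G) (unipSub_pgroup φ M hM p).comap_subtype
    (unipSub_pgroup φ M' hM' p).comap_subtype ⟨γ, hγ⟩ h1 h2 h3
  refine ⟨d, ?_, hdg⟩
  set C : Subgroup (GL (A × B) F) := Subgroup.closure (rootSet A φ J₂ y₂ ∪
    conjRootSet φ J₂ (γ : Matrix (A × B) (A × B) F) ((γ⁻¹ : GL (A × B) F) : Matrix (A × B) (A × B) F) y') with hC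
  have l1 : (unipSub φ M hM).subgroupOf G ≤ C.subgroupOf G := by
    intro x hx
    rw [Subgroup.mem_subgroupOf] at hx ⊢
    obtain ⟨c, hc, hx⟩ := hx
    apply Subgroup.subset_closure
    left
    exact ⟨c, hc, by rw [hx, hMdef, N_smul]⟩
  have l2 : (unipSub φ M' hM').subgroupOf G ≤ C.subgroupOf G := by
    intro x hx
    rw [Subgroup.mem_subgroupOf] at hx ⊢
    obtain ⟨c, hc, hx⟩ := hx
    apply Subgroup.subset_closure
    right
    exact ⟨c, hc, by rw [hx, hM'def, hM0def, N_smul, Matrix.mul_smul, Matrix.smul_mul]⟩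
  have := (sup_le l1 l2) hd
  rwa [Subgroup.mem_subgroupOf] at this

end Cfsg.Agent.Lib.Helper45.TU
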