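import Mathlib
import Cfsg.Agent.Lib.Helper45.TU.Short

set_option autoImplicit false
set_option linter.unusedVariables false
set_option linter.unusedSectionVars false
set_option linter.unusedSimpArgs false

namespace Cfsg.Agent.Lib.Helper45.TU

open Matrix hiding col row
open scoped Kronecker
open Cfsg.Agent.Lib.Helper99.Tens
open Cfsg.Agent.Lib.Helper99.TSp (Ind MS_comm5)

variable {A B : Type} [Fintype A] [DecidableEq A] [Fintype B] [DecidableEq B] {F : Type*} [Field F] [Finite F]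
variable {φ : F →+* F} {J₁ : Matrix A A F} {J₂ : Matrix B B F} {G : Subgroup (GL (A × B) F)}

/-- step (a), one value of `c`. -/
lemma k4_aux_comm (hS : HasU φ J₁ J₂ G) (hL : LL φ J₂ G) {y w : B → F} (hT : TIP φ J₂ y w)
    (κ κ' : Matrix A A F) (hm : 1 + (N φ J₂ y w κ + N φ J₂ w y κ') ∈ MS G) (c : F) :
    ∃ a : F, φ c • κ + c • κ' = a • (1 : Matrix A A F) := by
  have hJ := hS.h2
  obtain ⟨w', hw'w', hw'w, hw'y⟩ := exists_partner_perp hJ hT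
  have hyy := hT.yy
  have hww := hT.ww
  have hyw := hT.yw
  have hwy := hT.wy hJ
  have hww' := pr_swap1 hJ hw'w
  have hyw' := pr_swap0 hJ hw'y
  have hs := short_mem (A := A) hS hyy hw'w' hyw' c
  have hXX : (N φ J₂ y w κ + N φ J₂ w y κ') * (N φ J₂ y w κ + N φ J₂ w y κ') = 0 := by
    simp only [Matrix.add_mul, Matrix.mul_add, N_mul, hyy, hww, hyw, hwy, zero_smul, add_zero]
  have hYY : (N φ J₂ y w' (c • (1 : Matrix A A F)) - N φ J₂ w' y (φ c • (1 : Matrix A A F))) *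
      (N φ J₂ y w' (c • (1 : Matrix A A F)) - N φ J₂ w' y (φ c • (1 : Matrix A A F))) = 0 := by
    simp only [Matrix.sub_mul, Matrix.mul_sub, N_mul, hyy, hw'w', hyw', hw'y, zero_smul, sub_zero]
  have c1 := MS_comm5 hXX hYY hm hs
  have e1 : (N φ J₂ y w κ + N φ J₂ w y κ') *
      (N φ J₂ y w' (c • (1 : Matrix A A F)) - N φ J₂ w' y (φ c • (1 : Matrix A A F)))
      = N φ J₂ y y (-(φ c • κ)) := by
    simp only [Matrix.add_mul, Matrix.mul_sub, N_mul, hyy, hyw, hw'w, hw'y, zero_smul, one_smul,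
      sub_zero, zero_sub, add_zero, Matrix.mul_smul, Matrix.mul_one, N_neg]
  have e2 : (N φ J₂ y w' (c • (1 : Matrix A A F)) - N φ J₂ w' y (φ c • (1 : Matrix A A F))) *
      (N φ J₂ y w κ + N φ J₂ w y κ') = N φ J₂ y y (c • κ') := by
    simp only [Matrix.sub_mul, Matrix.mul_add, N_mul, hyy, hyw', hww', hwy, zero_smul, one_smul,
      sub_zero, zero_add, add_zero, Matrix.smul_mul, Matrix.one_mul]
  have e3 : (N φ J₂ y w' (c • (1 : Matrix A A F)) - N φ J₂ w' y (φ c • (1 : Matrix A A F))) *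
      N φ J₂ y y (-(φ c • κ)) = 0 := by
    simp only [Matrix.sub_mul, N_mul, hyy, hyw', zero_smul, sub_zero]
  have e4 : N φ J₂ y y (-(φ c • κ)) * (N φ J₂ y w κ + N φ J₂ w y κ') = 0 := by
    simp only [Matrix.mul_add, N_mul, hyy, hwy, zero_smul, add_zero]
  rw [Matrix.mul_assoc (N φ J₂ y w' (c • (1 : Matrix A A F)) - N φ J₂ w' y (φ c • (1 : Matrix A A F))),
    e1, e2, e3, e4, Matrix.zero_mul] at c1
  have c1' : 1 + N φ J₂ y y (-(φ c • κ + c • κ')) ∈ MS G := by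
    have : N φ J₂ y y (-(φ c • κ + c • κ')) = N φ J₂ y y (-(φ c • κ)) - N φ J₂ y y (c • κ') + 0 - 0 + 0 := by
      rw [← N_sub]
      simp only [add_zero, sub_zero]
      congr 1
      abel
    rw [this]; exact c1
  obtain ⟨a, ha⟩ := hL y hT.ind.left_ne hyy _ c1'
  exact ⟨-a, by rw [neg_smul, ← ha, neg_neg]⟩

/-- step (a). -/
lemma k4_aux_a (hS : HasU φ J₁ J₂ G) (hL : LL φ J₂ G) {y w : B → F} (hT : TIP φ J₂ y w)
    (κ κ' : Matrix A A F) (hm : 1 + (N φ J₂ y w κ + N φ J₂ w y κ') ∈ MS G) :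
    ∃ a : F, κ = a • (1 : Matrix A A F) := by
  obtain ⟨ω, hω⟩ := exists_not_fixed hS.h2
  obtain ⟨a, ha⟩ := k4_aux_comm hS hL hT κ κ' hm 1
  obtain ⟨b, hb⟩ := k4_aux_comm hS hL hT κ κ' hm ω
  rw [map_one, one_smul, one_smul] at ha
  have hne : φ ω - ω ≠ 0 := sub_ne_zero.2 hω
  refine ⟨(φ ω - ω)⁻¹ * (b - ω * a), ?_⟩
  have h1 : (φ ω - ω) • κ = (b - ω * a) • (1 : Matrix A A F) := by
    rw [sub_smul, sub_smul, mul_smul, ← ha, ← hb, smul_add]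
    abel
  rw [mul_smul, ← h1, smul_smul, inv_mul_cancel₀ hne, one_smul]

/-- step (b). -/
lemma k4_aux_b (hS : HasU φ J₁ J₂ G) (hL : LL φ J₂ G) (h5 : 5 ≤ Fintype.card B) {y w : B → F}
    (hT : TIP φ J₂ y w) (κ₁₁ κ₁₂ κ₂₁ κ₂₂ : Matrix A A F)
    (hm : 1 + (N φ J₂ y y κ₁₁ + N φ J₂ y w κ₁₂ + N φ J₂ w y κ₂₁ + N φ J₂ w w κ₂₂) ∈ MS G) :
    ∃ c : F, κ₁₂ = c • (1 : Matrix A A F) := by
  have hJ := hS.h2
  have hyy := hT.yy
  have hww := hT.ww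
  have hyw := hT.yw
  have hwy := hT.wy hJ
  obtain ⟨l, hl1, hl⟩ := exists_norm_one hJ
  have hl0 : l ≠ 0 := by
    rintro rfl
    simp at hl
  have hT' : TIP φ J₂ (l • y) w := by
    refine ⟨?_, ?_, hww, ?_⟩
    · intro a b hab
      have := hT.ind (a * l) b (by rw [← hab, mul_smul])
      exact ⟨(mul_eq_zero.1 this.1).resolve_right hl0, this.2⟩
    · rw [pr_smul_left, pr_smul_right, hyy, mul_zero, mul_zero]
    · rw [pr_smul_left, hyw, mul_zero]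
  obtain ⟨s, s', hs, hi, hd, hsy, hsw⟩ := witt_pair hJ h5 hT hT'
  have h1 := conjB_mem hS hs hi hd hm
  simp only [Matrix.mul_add, Matrix.add_mul, conjB hs hi, hsy, hsw] at h1
  have hXX : (N φ J₂ y y κ₁₁ + N φ J₂ y w κ₁₂ + N φ J₂ w y κ₂₁ + N φ J₂ w w κ₂₂) *
      (N φ J₂ y y κ₁₁ + N φ J₂ y w κ₁₂ + N φ J₂ w y κ₂₁ + N φ J₂ w w κ₂₂) = 0 := by
    simp only [Matrix.add_mul, Matrix.mul_add, N_mul, hyy, hww, hyw, hwy, zero_smul, add_zero]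
  have h2 := MS_sub hXX hm
  have h3 := MS_mul h1 h2
  have e : (1 + (N φ J₂ (l • y) (l • y) κ₁₁ + N φ J₂ (l • y) w κ₁₂ + N φ J₂ w (l • y) κ₂₁ + N φ J₂ w w κ₂₂)) *
      (1 - (N φ J₂ y y κ₁₁ + N φ J₂ y w κ₁₂ + N φ J₂ w y κ₂₁ + N φ J₂ w w κ₂₂))
      = 1 + (N φ J₂ y w ((l - 1) • κ₁₂) + N φ J₂ w y ((φ l - 1) • κ₂₁)) := by
    have e0 : (N φ J₂ (l • y) (l • y) κ₁₁ + N φ J₂ (l • y) w κ₁₂ + N φ J₂ w (l • y) κ₂₁ + N φ J₂ w w κ₂₂) *
        (N φ J₂ y y κ₁₁ + N φ J₂ y w κ₁₂ + N φ J₂ w y κ₂₁ + N φ J₂ w w κ₂₂) = 0 := by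
      simp only [N_smul_left, N_smul_right, Matrix.add_mul, Matrix.mul_add, Matrix.smul_mul, N_mul, hyy,
        hww, hyw, hwy, zero_smul, add_zero, smul_zero]
    rw [Matrix.add_mul, Matrix.one_mul, Matrix.mul_sub, Matrix.mul_one, e0, sub_zero]
    simp only [N_smul_left, N_smul_right, N_smul, N_sub, smul_smul, sub_smul, one_smul]
    rw [mul_comm (φ l) l, hl, one_smul]
    abel
  rw [e] at h3
  obtain ⟨a, ha⟩ := k4_aux_a hS hL hT _ _ h3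
  have hne : l - 1 ≠ 0 := sub_ne_zero.2 hl1
  exact ⟨(l - 1)⁻¹ * a, by rw [mul_smul, ← ha, smul_smul, inv_mul_cancel₀ hne, one_smul]⟩

theorem k4_of_LL (hS : HasU φ J₁ J₂ G) (hL : LL φ J₂ G) (h5 : 5 ≤ Fintype.card B) : K4 φ J₂ G := by
  intro y w hT κ₁₁ κ₁₂ κ₂₁ κ₂₂ hm
  have hJ := hS.h2
  have hyy := hT.yy
  have hww := hT.ww
  have hyw := hT.yw
  have hwy := hT.wy hJ
  obtain ⟨c', hc'⟩ := k4_aux_b hS hL h5 hT κ₁₁ κ₁₂ κ₂₁ κ₂₂ hm
  refine ⟨?_, ⟨c', hc'⟩⟩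
  have hT' : TIP φ J₂ (y + w) w := by
    refine ⟨?_, ?_, hww, ?_⟩
    · have := hT.ind.add_left 1
      rwa [one_smul] at this
    · simp only [pr_add_left, pr_add_right, hyy, hww, hyw, hwy, add_zero]
    · rw [pr_add_left, hyw, hww, add_zero]
  obtain ⟨s, s', hs, hi, hd, hsy, hsw⟩ := witt_pair hJ h5 hT hT'
  have := conjB_mem hS hs hi hd hm
  simp only [Matrix.mul_add, Matrix.add_mul, conjB hs hi, hsy, hsw] at this
  have e : N φ J₂ (y + w) (y + w) κ₁₁ + N φ J₂ (y + w) w κ₁₂ + N φ J₂ w (y + w) κ₂₁ + N φ J₂ w w κ₂₂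
      = N φ J₂ y y κ₁₁ + N φ J₂ y w (κ₁₁ + κ₁₂) + N φ J₂ w y (κ₁₁ + κ₂₁)
        + N φ J₂ w w (κ₁₁ + κ₁₂ + κ₂₁ + κ₂₂) := by
    simp only [N_add_left, N_add_right, N_add]
    abel
  rw [e] at this
  obtain ⟨c, hc⟩ := k4_aux_b hS hL h5 hT _ _ _ _ this
  refine ⟨c - c', ?_⟩
  rw [sub_smul, ← hc, ← hc', add_sub_cancel_right]

end Cfsg.Agent.Lib.Helper45.TU
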