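import Mathlib
import Cfsg.Agent.Lib.Helper45.TU.Short

set_option autoImplicit false
set_option linter.unusedVariables false
set_option linter.unusedSectionVars false

namespace Cfsg.Agent.Lib.Helper45.TU

open Matrix hiding col row
open scoped Kronecker
open Cfsg.Agent.Lib.Helper99.Tens
open Cfsg.Agent.Lib.Helper99.TSp (Ind MS_comm5)

variable {A B : Type} [Fintype A] [DecidableEq A] [Fintype B] [DecidableEq B] {F : Type*} [Field F] [Finite F]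
variable {φ : F →+* F} {J₁ : Matrix A A F} {J₂ : Matrix B B F} {G : Subgroup (GL (A × B) F)}

theorem lr_of_k4 (hS : HasU φ J₁ J₂ G) (hK : K4 φ J₂ G) : LR φ J₂ G := by
  intro y₁ y₂ R C hT hR hC hRC hm
  have hJ := hS.h2
  have h0 : pr φ J₂ y₁ y₂ = 0 := hT.yw
  have h0' : pr φ J₂ y₂ y₁ = 0 := hT.wy hJ
  have h11 := hT.yy
  have h22 := hT.ww
  obtain ⟨θ, hθ0, hθ⟩ := exists_skew hJ
  have hl := long_mem hS h22 hθ
  have hXX : (col A y₁ * R + C * rho A φ J₂ y₁) * (col A y₁ * R + C * rho A φ J₂ y₁) = 0 := by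
    have : (col A y₁ * R + C * rho A φ J₂ y₁) * (col A y₁ * R + C * rho A φ J₂ y₁)
        = col A y₁ * (R * col A y₁) * R + col A y₁ * (R * C) * rho A φ J₂ y₁
          + C * (rho A φ J₂ y₁ * col A y₁) * R + C * (rho A φ J₂ y₁ * C) * rho A φ J₂ y₁ := by
      simp only [Matrix.add_mul, Matrix.mul_add, Matrix.mul_assoc]
      abel
    rw [this, hR, hRC, hC, rho_col, h11]
    simp
  have hYY : N φ J₂ y₂ y₂ (θ • (1 : Matrix A A F)) * N φ J₂ y₂ y₂ (θ • (1 : Matrix A A F)) = 0 := by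
    rw [N_mul, h22, zero_smul]
  have c1 := MS_comm5 hXX hYY hm hl
  have e1 : (col A y₁ * R + C * rho A φ J₂ y₁) * N φ J₂ y₂ y₂ (θ • (1 : Matrix A A F))
      = N φ J₂ y₁ y₂ (θ • (R * col A y₂)) := by
    unfold N
    have : (col A y₁ * R + C * rho A φ J₂ y₁) * (col A y₂ * (θ • (1 : Matrix A A F)) * rho A φ J₂ y₂)
        = col A y₁ * (θ • (R * col A y₂)) * rho A φ J₂ y₂
          + θ • (C * (rho A φ J₂ y₁ * col A y₂) * rho A φ J₂ y₂) := by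
      simp only [Matrix.add_mul, Matrix.mul_assoc, Matrix.one_mul, Matrix.smul_mul, Matrix.mul_smul, smul_add]
    rw [this, rho_col, h0']
    simp
  have e2 : N φ J₂ y₂ y₂ (θ • (1 : Matrix A A F)) * (col A y₁ * R + C * rho A φ J₂ y₁)
      = N φ J₂ y₂ y₁ (θ • (rho A φ J₂ y₂ * C)) := by
    unfold N
    have : (col A y₂ * (θ • (1 : Matrix A A F)) * rho A φ J₂ y₂) * (col A y₁ * R + C * rho A φ J₂ y₁)
        = θ • (col A y₂ * (rho A φ J₂ y₂ * col A y₁) * R)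
          + col A y₂ * (θ • (rho A φ J₂ y₂ * C)) * rho A φ J₂ y₁ := by
      simp only [Matrix.mul_add, Matrix.mul_assoc, Matrix.one_mul, Matrix.smul_mul, Matrix.mul_smul, smul_add]
    rw [this, rho_col, h0]
    simp
  have e3 : N φ J₂ y₂ y₂ (θ • (1 : Matrix A A F)) * N φ J₂ y₁ y₂ (θ • (R * col A y₂)) = 0 := by
    rw [N_mul, h0, zero_smul]
  have e4 : N φ J₂ y₁ y₂ (θ • (R * col A y₂)) * (col A y₁ * R + C * rho A φ J₂ y₁)
      = N φ J₂ y₁ y₁ (θ • (R * col A y₂ * (rho A φ J₂ y₂ * C))) := by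
    unfold N
    have : (col A y₁ * (θ • (R * col A y₂)) * rho A φ J₂ y₂) * (col A y₁ * R + C * rho A φ J₂ y₁)
        = θ • (col A y₁ * (R * col A y₂) * (rho A φ J₂ y₂ * col A y₁) * R)
          + col A y₁ * (θ • (R * col A y₂ * (rho A φ J₂ y₂ * C))) * rho A φ J₂ y₁ := by
      simp only [Matrix.mul_add, Matrix.mul_assoc, Matrix.smul_mul, Matrix.mul_smul, smul_add]
    rw [this, rho_col, h0]
    simp
  have e5 : N φ J₂ y₁ y₁ (θ • (R * col A y₂ * (rho A φ J₂ y₂ * C))) * N φ J₂ y₂ y₂ (θ • (1 : Matrix A A F))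
      = 0 := by
    rw [N_mul, h0', zero_smul]
  rw [Matrix.mul_assoc (N φ J₂ y₂ y₂ (θ • (1 : Matrix A A F))), e1, e2, e3, e4, e5] at c1
  have c1' : 1 + (N φ J₂ y₁ y₁ (-(θ • (R * col A y₂ * (rho A φ J₂ y₂ * C)))) + N φ J₂ y₁ y₂ (θ • (R * col A y₂))
      + N φ J₂ y₂ y₁ (-(θ • (rho A φ J₂ y₂ * C))) + N φ J₂ y₂ y₂ 0) ∈ MS G := by
    have : N φ J₂ y₁ y₁ (-(θ • (R * col A y₂ * (rho A φ J₂ y₂ * C)))) + N φ J₂ y₁ y₂ (θ • (R * col A y₂))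
      + N φ J₂ y₂ y₁ (-(θ • (rho A φ J₂ y₂ * C))) + N φ J₂ y₂ y₂ 0
        = N φ J₂ y₁ y₂ (θ • (R * col A y₂)) - N φ J₂ y₂ y₁ (θ • (rho A φ J₂ y₂ * C)) + 0
          - N φ J₂ y₁ y₁ (θ • (R * col A y₂ * (rho A φ J₂ y₂ * C))) + 0 := by
      rw [N_neg, N_neg, N_zero]; abel
    rw [this]; exact c1
  have c2' : 1 + (N φ J₂ y₂ y₂ 0 + N φ J₂ y₂ y₁ (-(θ • (rho A φ J₂ y₂ * C)))
      + N φ J₂ y₁ y₂ (θ • (R * col A y₂)) + N φ J₂ y₁ y₁ (-(θ • (R * col A y₂ * (rho A φ J₂ y₂ * C)))))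
      ∈ MS G := by
    have : N φ J₂ y₂ y₂ 0 + N φ J₂ y₂ y₁ (-(θ • (rho A φ J₂ y₂ * C)))
      + N φ J₂ y₁ y₂ (θ • (R * col A y₂)) + N φ J₂ y₁ y₁ (-(θ • (R * col A y₂ * (rho A φ J₂ y₂ * C))))
        = N φ J₂ y₁ y₁ (-(θ • (R * col A y₂ * (rho A φ J₂ y₂ * C)))) + N φ J₂ y₁ y₂ (θ • (R * col A y₂))
      + N φ J₂ y₂ y₁ (-(θ • (rho A φ J₂ y₂ * C))) + N φ J₂ y₂ y₂ 0 := by abel
    rw [this]; exact c1'
  obtain ⟨c, hc⟩ := (hK y₁ y₂ hT _ _ _ _ c1').2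
  obtain ⟨d, hd⟩ := (hK y₂ y₁ (hT.symm hJ) _ _ _ _ c2').2
  refine ⟨⟨θ⁻¹ * c, ?_⟩, ⟨-(θ⁻¹ * d), ?_⟩⟩
  · rw [mul_smul, ← hc, smul_smul, inv_mul_cancel₀ hθ0, one_smul]
  · rw [neg_smul, mul_smul, ← hd, smul_neg, smul_smul, inv_mul_cancel₀ hθ0, one_smul, neg_neg]

end Cfsg.Agent.Lib.Helper45.TU
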