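import Mathlib
import Cfsg.Agent.Lib.Helper45.TU.Geo

set_option autoImplicit false
set_option linter.unusedVariables false
set_option linter.unusedSectionVars false

namespace Cfsg.Agent.Lib.Helper45.TU

open Matrix hiding col row
open scoped Kronecker
open Cfsg.Agent.Lib.Helper99.Tens
open Cfsg.Agent.Lib.Helper99.TSp (Ind root_conj_aux)

variable {A B : Type} [Fintype A] [DecidableEq A] [Fintype B] [DecidableEq B] {F : Type*} [Field F] [Finite F]
variable {φ : F →+* F} {J₁ : Matrix A A F} {J₂ : Matrix B B F} {G : Subgroup (GL (A × B) F)}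

theorem rc_of_ti [Nonempty A] [Nonempty B] (hS : HasU φ J₁ J₂ G) (hT : TI φ J₂ G)
    (hAB : Fintype.card A < Fintype.card B) : RC φ J₂ G := by
  intro g g' y' c hg h1 hy' hyy hc hk
  have h2 : g' * g = 1 := mul_eq_one_comm.1 h1
  have e : N φ J₂ y' y' (c • (1 : Matrix A A F)) = nn y' (c • fl φ J₂ y') (1 : Matrix A A F) := by
    rw [N_smul, N_eq_nn]
    unfold nn
    rw [row_smul, Matrix.mul_smul]
  rw [e] at hk
  obtain ⟨Q, y₁, hy₁, he⟩ := root_conj_aux hAB h1 h2 (y' := y') (ψ' := c • fl φ J₂ y')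
    (by rw [smul_dotProduct]; change c • pr φ J₂ y' y' = 0; rw [hyy, smul_zero]) hy'
    (fun h => hy' (hS.h2.inj ((smul_eq_zero.1 h).resolve_left hc))) hk
  obtain ⟨η, hη⟩ := exists_dot_one hy₁
  have hQ' : (row A η * g * col A y') * Q = 1 := by
    rw [Matrix.mul_assoc (row A η), Matrix.mul_assoc (row A η), he, row_mul_col, hη, one_smul]
  have hQ : Q * (row A η * g * col A y') = 1 := mul_eq_one_comm.1 hQ'
  refine hT g g' y' y₁ (row A η * g * col A y') hg h1 hy' hyy ?_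
  rw [← he, Matrix.mul_assoc, hQ, Matrix.mul_one]

theorem st_of_rc [Nonempty A] [Nonempty B] (hS : HasU φ J₁ J₂ G) (hT : TI φ J₂ G) (hRC : RC φ J₂ G) :
    ST φ J₂ G := by
  intro g g' y' y₂ hg h1 hy' hy₂ hyy hy₂y₂ h0
  obtain ⟨θ, hθ0, hθ⟩ := exists_skew hS.h2
  have hx : 1 + g * N φ J₂ y' y' (θ • (1 : Matrix A A F)) * g' ∈ MS G := MS_conj hg h1 (long_mem hS hyy hθ)
  have hNN : N φ J₂ y' y' (θ • (1 : Matrix A A F)) * N φ J₂ y' y' (θ • (1 : Matrix A A F)) = 0 := by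
    rw [N_mul, hyy, zero_smul]
  have h2 : g' * g = 1 := mul_eq_one_comm.1 h1
  have hsq : (g * N φ J₂ y' y' (θ • (1 : Matrix A A F)) * g') * (g * N φ J₂ y' y' (θ • (1 : Matrix A A F)) * g') = 0 := by
    calc (g * N φ J₂ y' y' (θ • (1 : Matrix A A F)) * g') * (g * N φ J₂ y' y' (θ • (1 : Matrix A A F)) * g')
        = g * (N φ J₂ y' y' (θ • (1 : Matrix A A F)) * (g' * g) * N φ J₂ y' y' (θ • (1 : Matrix A A F))) * g' := by
          simp only [Matrix.mul_assoc]
      _ = 0 := by rw [h2, Matrix.mul_one, hNN, Matrix.mul_zero, Matrix.zero_mul]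
  have hinv : (1 + g * N φ J₂ y' y' (θ • (1 : Matrix A A F)) * g') *
      (1 - g * N φ J₂ y' y' (θ • (1 : Matrix A A F)) * g') = 1 := by
    rw [Matrix.add_mul, Matrix.mul_sub, Matrix.mul_sub, hsq]
    simp
  have hfix : (1 + g * N φ J₂ y' y' (θ • (1 : Matrix A A F)) * g') * col A y₂ = col A y₂ * (1 : Matrix A A F) := by
    have : rho A φ J₂ y' * g' * col A y₂ = 0 := by
      rw [rho_g hS hg h1, sharp_mul_col hS.h1, h0, adj_zero hS.h1]
    rw [Matrix.add_mul, Matrix.one_mul, Matrix.mul_one]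
    unfold N
    have e : g * (col A y' * (θ • (1 : Matrix A A F)) * rho A φ J₂ y') * g' * col A y₂
        = g * (col A y' * (θ • (1 : Matrix A A F))) * (rho A φ J₂ y' * g' * col A y₂) := by
      simp only [Matrix.mul_assoc]
    rw [e, this, Matrix.mul_zero, add_zero]
  have hkx := hT _ _ y₂ y₂ 1 hx hinv hy₂ hy₂y₂ hfix
  exact hRC g g' y' θ hg h1 hy' hyy hθ0 hkx

end Cfsg.Agent.Lib.Helper45.TU
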