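import Mathlib
import Cfsg.Agent.Lib.Helper45.TU.Short
import Cfsg.Agent.Lib.Helper45.TU.Pt

set_option autoImplicit false
set_option linter.unusedVariables false
set_option linter.unusedSectionVars false
set_option linter.unusedSimpArgs false

namespace Cfsg.Agent.Lib.Helper45.TU

open Matrix hiding col row
open scoped Kronecker
open Cfsg.Agent.Lib.Helper99.Tens
open Cfsg.Agent.Lib.Helper99.TSp (Ind)

variable {A B : Type} [Fintype A] [DecidableEq A] [Fintype B] [DecidableEq B] {F : Type*} [Field F] [Finite F]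
variable {φ : F →+* F} {J₁ : Matrix A A F} {J₂ : Matrix B B F} {G : Subgroup (GL (A × B) F)}

lemma pss_N_zero_left (w : B → F) (κ : Matrix A A F) : N φ J₂ 0 w κ = 0 := by
  have := N_smul_left (φ := φ) (J₂ := J₂) (0 : F) (0 : B → F) w κ
  simpa using this

lemma ss_of_one (hS : HasU φ J₁ J₂ G) (h3 : 3 ≤ Fintype.card B) {y₁ : B → F} (hy₁ : y₁ ≠ 0)
    (h0 : pr φ J₂ y₁ y₁ = 0) {κ : Matrix A A F} (h : 1 + N φ J₂ y₁ y₁ κ ∈ MS G) : κ ∈ SS φ J₂ G := by
  intro y hy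
  by_cases hy0 : y = 0
  · subst hy0
    rw [pss_N_zero_left, add_zero]
    exact MS_one
  · obtain ⟨s, s', hs, hi, hd, hsy⟩ := witt_one hS.h2 h3 hy₁ hy0 (by rw [h0, hy])
    have := conjB_mem hS hs hi hd h
    rwa [conjB hs hi, hsy] at this

lemma pss_add {κ κ' : Matrix A A F} (h : κ ∈ SS φ J₂ G) (h' : κ' ∈ SS φ J₂ G) : κ + κ' ∈ SS φ J₂ G := by
  intro y hy
  rw [N_add]
  exact MS_add (by rw [N_mul, hy, zero_smul]) (h y hy) (h' y hy)

lemma pss_neg {κ : Matrix A A F} (h : κ ∈ SS φ J₂ G) : -κ ∈ SS φ J₂ G := by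
  intro y hy
  rw [N_neg, ← sub_eq_add_neg]
  exact MS_sub (by rw [N_mul, hy, zero_smul]) (h y hy)

lemma pss_fix (h₂ : Hrm φ J₂) {t : F} (ht : φ t = t) {κ : Matrix A A F} (h : κ ∈ SS φ J₂ G) :
    t • κ ∈ SS φ J₂ G := by
  intro y hy
  obtain ⟨c, hc⟩ := exists_norm h₂ t ht
  have h1 := h (c • y) (by rw [pr_smul_left, pr_smul_right, hy, mul_zero, mul_zero])
  rwa [N_smul_left, N_smul_right, smul_smul, hc, ← N_smul] at h1

lemma pss_E (h₂ : Hrm φ J₂) {κ : Matrix A A F} (hκ : κ ∈ SS φ J₂ G) {y w : B → F} (h : TIP φ J₂ y w) (l : F) :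
    1 + (φ l • N φ J₂ y w κ + l • N φ J₂ w y κ) ∈ MS G := by
  have hwy := h.wy h₂
  have hz : pr φ J₂ (y + l • w) (y + l • w) = 0 := by
    simp only [pr_add_left, pr_add_right, pr_smul_left, pr_smul_right, h.yy, h.ww, h.yw, hwy]
    ring
  have h1 := hκ _ hz
  have h2 := pss_neg hκ y h.yy
  have ht : φ (l * φ l) = l * φ l := by rw [map_mul, h₂.invol, mul_comm]
  have h3 := pss_neg (pss_fix h₂ ht hκ) w h.ww
  have e1 : N φ J₂ (y + l • w) (y + l • w) κ
      = N φ J₂ y y κ + φ l • N φ J₂ y w κ + l • N φ J₂ w y κ + (l * φ l) • N φ J₂ w w κ := by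
    simp only [N_add_left, N_add_right, N_smul_left, N_smul_right, smul_add, smul_smul]
    rw [mul_comm (φ l) l]
    abel
  have h4 := MS_add (G := G) (M := N φ J₂ (y + l • w) (y + l • w) κ) (N := N φ J₂ y y (-κ)) (by
    rw [N_mul]
    simp only [pr_add_right, pr_smul_right, h.yy, h.yw]
    simp) h1 h2
  have h5 := MS_add (G := G) (M := N φ J₂ (y + l • w) (y + l • w) κ + N φ J₂ y y (-κ))
    (N := N φ J₂ w w (-((l * φ l) • κ))) (by
    rw [Matrix.add_mul, N_mul, N_mul]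
    simp only [pr_add_right, pr_smul_right, h.ww, hwy]
    simp) h4 h3
  have e2 : N φ J₂ (y + l • w) (y + l • w) κ + N φ J₂ y y (-κ) + N φ J₂ w w (-((l * φ l) • κ))
      = φ l • N φ J₂ y w κ + l • N φ J₂ w y κ := by
    rw [e1, N_neg, N_neg, N_smul]
    abel
  rwa [e2] at h5

lemma pss_lam (hS : HasU φ J₁ J₂ G) (h4 : 4 ≤ Fintype.card B) {κ κ' : Matrix A A F}
    (hκ : κ ∈ SS φ J₂ G) (hκ' : κ' ∈ SS φ J₂ G) (ν : F) : ν • (κ * κ') - φ ν • (κ' * κ) ∈ SS φ J₂ G := by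
  have h₂ := hS.h2
  obtain ⟨y, hy0, hyy⟩ := exists_iso h₂ (by omega : 2 ≤ Fintype.card B)
  obtain ⟨w, hT⟩ := exists_tip h₂ h4 hy0 hyy
  obtain ⟨w', hw'w', hw'w, hw'y⟩ := exists_partner_perp h₂ hT
  have hww' : pr φ J₂ w w' = 1 := pr_swap1 h₂ hw'w
  have hyw' : pr φ J₂ y w' = 0 := pr_swap0 h₂ hw'y
  have hwy := hT.wy h₂
  have hT' : TIP φ J₂ y w' := by
    refine ⟨?_, hyy, hw'w', hyw'⟩
    intro a b hab
    have h1 : pr φ J₂ (a • y + b • w') w = 0 := by rw [hab, pr_zero_left]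
    rw [pr_add_left, pr_smul_left, pr_smul_left, hT.yw, hw'w, mul_zero, zero_add, mul_one] at h1
    subst h1
    rw [zero_smul, add_zero] at hab
    exact ⟨(smul_eq_zero.1 hab).resolve_right hy0, rfl⟩
  have hX := pss_E h₂ hκ hT 1
  have hY := pss_E h₂ hκ' hT' ν
  rw [map_one, one_smul, one_smul] at hX
  set X := N φ J₂ y w κ + N φ J₂ w y κ with hXd
  set Y := φ ν • N φ J₂ y w' κ' + ν • N φ J₂ w' y κ' with hYd
  have hXX : X * X = 0 := by
    rw [hXd]
    simp only [Matrix.add_mul, Matrix.mul_add, N_mul, hT.yw, hT.ww, hT.yy, hwy, zero_smul, add_zero]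
  have hYY : Y * Y = 0 := by
    rw [hYd]
    simp only [Matrix.add_mul, Matrix.mul_add, Matrix.smul_mul, Matrix.mul_smul, N_mul, hyw', hw'w', hyy, hw'y,
      zero_smul, smul_zero, add_zero]
  have hXY : X * Y = ν • N φ J₂ y y (κ * κ') := by
    rw [hXd, hYd]
    simp only [Matrix.add_mul, Matrix.mul_add, Matrix.smul_mul, Matrix.mul_smul, N_mul, hT.yw, hw'w, hyy, hw'y,
      zero_smul, smul_zero, add_zero, zero_add, one_smul]
  have hYX : Y * X = φ ν • N φ J₂ y y (κ' * κ) := by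
    rw [hXd, hYd]
    simp only [Matrix.add_mul, Matrix.mul_add, Matrix.smul_mul, Matrix.mul_smul, N_mul, hyw', hww', hyy, hwy,
      zero_smul, smul_zero, add_zero, zero_add, one_smul]
  have hYXY : Y * X * Y = 0 := by
    rw [hYX, hYd]
    simp only [Matrix.mul_add, Matrix.smul_mul, Matrix.mul_smul, N_mul, hyy, hw'y,
      zero_smul, smul_zero, add_zero]
  have hXYX : X * Y * X = 0 := by
    rw [hXY, hXd]
    simp only [Matrix.mul_add, Matrix.smul_mul, Matrix.mul_smul, N_mul, hyy, hwy,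
      zero_smul, smul_zero, add_zero]
  have h5 := Cfsg.Agent.Lib.Helper99.TSp.MS_comm5 hXX hYY hX hY
  rw [hXYX, hYXY, Matrix.zero_mul, hXY, hYX, add_zero, sub_zero, add_zero, ← N_smul, ← N_smul, ← N_sub] at h5
  exact ss_of_one hS (by omega) hy0 hyy h5

lemma pss_skew (hS : HasU φ J₁ J₂ G) (h2 : 2 ≤ Fintype.card B) {κ : Matrix A A F}
    (hκ : κ ∈ SS φ J₂ G) : adj φ J₁ κ = -κ := by
  have h₂ := hS.h2
  obtain ⟨y, hy0, hyy⟩ := exists_iso h₂ h2
  obtain ⟨v, hvv, hvy⟩ := exists_partner h₂ hy0 hyy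
  have hyv : pr φ J₂ y v = 1 := pr_swap1 h₂ hvy
  have hiso := hS.iso _ (hκ y hyy)
  apply adj_unique hS.h1
  intro a a'
  have h1 := hiso (pt a v) (pt a' v)
  simp only [Matrix.add_mulVec, Matrix.one_mulVec, N_pt, hvy, one_smul, pr_add_left, pr_add_right, pr_pt, hvv,
    hyy, hyv, mul_zero, mul_one, add_zero, zero_add] at h1
  rw [Matrix.neg_mulVec, pr_neg_right]
  linear_combination h1

theorem ss_salg [Nonempty A] (hS : HasU φ J₁ J₂ G) (h5 : 5 ≤ Fintype.card B) : SAlg φ J₁ (SS φ J₂ G) where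
  add := fun κ h κ' h' => pss_add h h'
  neg := fun κ h => pss_neg h
  fix := fun t ht κ h => pss_fix hS.h2 ht h
  scalar := fun c hc y hy => long_mem hS hy hc
  conj := by
    intro r r' hr hi hd κ h y hy
    have := conjA_mem hS hr hi hd (h y hy)
    rwa [conjA] at this
  skew := fun κ h => pss_skew hS (by omega) h
  lam := fun κ h κ' h' ν => pss_lam hS (by omega) h h' ν

end Cfsg.Agent.Lib.Helper45.TU
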