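import Mathlib
import Cfsg.Agent.Lib.Helper45.TU.Geo
import Cfsg.Agent.Lib.Helper45.TU.Pt

set_option autoImplicit false
set_option linter.unusedVariables false
set_option linter.unusedSectionVars false
set_option linter.unusedSimpArgs false

namespace Cfsg.Agent.Lib.Helper45.TU

open Matrix hiding col row
open scoped Kronecker
open Cfsg.Agent.Lib.Helper99.Tens
open Cfsg.Agent.Lib.Helper99.TSp (Ind)

variable {A B : Type} [Fintype A] [DecidableEq A] [Fintype B] [DecidableEq B] {F : Type*} [Field F] [Finite F]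
variable {φ : F →+* F} {J₁ : Matrix A A F} {J₂ : Matrix B B F} {G : Subgroup (GL (A × B) F)}

lemma pt5_pt_zero (y : B → F) : pt (0 : A → F) y = 0 := by
  funext p; simp [pt]

lemma pt5_abel1 {M : Type*} [AddCommGroup M] (o P Q P' Q' : M) :
    (o + P + Q) + P' + Q' = o + (P + P') + (Q + Q') := by abel

lemma pt5_abel2 {M : Type*} [AddCommGroup M] {o : M} (X P Q : M) (h : X + P + Q = o) :
    X = o + -P + -Q := by rw [← h]; abel

/-- the vector `v` is fixed by the group generated by the two root groups. -/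
lemma pt5_fix {g g' : Matrix (A × B) (A × B) F} (h2 : g' * g = 1) {y' y₂ : B → F}
    (hy'y' : pr φ J₂ y' y' = 0) {a₀ : A → F} (hrv : rho A φ J₂ y₂ *ᵥ (g *ᵥ pt a₀ y') = 0)
    (x : GL (A × B) F) (hx : x ∈ Subgroup.closure (rootSet A φ J₂ y₂ ∪ conjRootSet φ J₂ g g' y')) :
    (x : Matrix (A × B) (A × B) F) *ᵥ (g *ᵥ pt a₀ y') = g *ᵥ pt a₀ y' := by
  induction hx using Subgroup.closure_induction with
  | mem x hx =>
    rcases hx with ⟨c, hc, hx⟩ | ⟨c, hc, hx⟩
    · rw [hx, Matrix.add_mulVec, Matrix.one_mulVec]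
      unfold N
      rw [← Matrix.mulVec_mulVec, hrv, Matrix.mulVec_zero, add_zero]
    · rw [hx, Matrix.add_mulVec, Matrix.one_mulVec, Matrix.mulVec_mulVec, Matrix.mul_assoc, h2, Matrix.mul_one,
        ← Matrix.mulVec_mulVec, N_pt, hy'y', zero_smul, Matrix.mulVec_zero, add_zero]
  | one => simp
  | mul x y _ _ hx hy => rw [Units.val_mul, ← Matrix.mulVec_mulVec, hy, hx]
  | inv x _ hx =>
    calc ((x⁻¹ : GL (A × B) F) : Matrix (A × B) (A × B) F) *ᵥ (g *ᵥ pt a₀ y')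
        = ((x⁻¹ : GL (A × B) F) : Matrix (A × B) (A × B) F) *ᵥ
            ((x : Matrix (A × B) (A × B) F) *ᵥ (g *ᵥ pt a₀ y')) := by rw [hx]
      _ = g *ᵥ pt a₀ y' := by
          rw [Matrix.mulVec_mulVec, ← Units.val_mul, inv_mul_cancel, Units.val_one, Matrix.one_mulVec]

/-- the shape of the elements of the group generated by the two root groups. -/
lemma pt5_shape {g g' : Matrix (A × B) (A × B) F} {y' y₂ : B → F}
    (x : GL (A × B) F) (hx : x ∈ Subgroup.closure (rootSet A φ J₂ y₂ ∪ conjRootSet φ J₂ g g' y')) :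
    ∃ R R' : Matrix A (A × B) F,
      (x : Matrix (A × B) (A × B) F) = 1 + col A y₂ * R + (g * col A y') * R' := by
  induction hx using Subgroup.closure_induction with
  | mem x hx =>
    rcases hx with ⟨c, hc, hx⟩ | ⟨c, hc, hx⟩
    · refine ⟨(c • (1 : Matrix A A F)) * rho A φ J₂ y₂, 0, ?_⟩
      rw [hx]
      unfold N
      rw [Matrix.mul_zero, add_zero, Matrix.mul_assoc]
    · refine ⟨0, (c • (1 : Matrix A A F)) * rho A φ J₂ y' * g', ?_⟩
      rw [hx]
      unfold N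
      rw [Matrix.mul_zero, add_zero]
      simp only [Matrix.mul_assoc]
  | one => exact ⟨0, 0, by simp⟩
  | mul x y _ _ hx hy =>
    obtain ⟨R, R', hR⟩ := hx
    obtain ⟨S, S', hS⟩ := hy
    refine ⟨S + R * (y : Matrix (A × B) (A × B) F), S' + R' * (y : Matrix (A × B) (A × B) F), ?_⟩
    rw [Units.val_mul]
    conv_lhs => rw [hR]
    rw [Matrix.add_mul, Matrix.add_mul, Matrix.one_mul, Matrix.mul_assoc, Matrix.mul_assoc,
      Matrix.mul_add, Matrix.mul_add, ← pt5_abel1, ← hS]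
  | inv x _ hx =>
    obtain ⟨R, R', hR⟩ := hx
    refine ⟨-(R * ((x⁻¹ : GL (A × B) F) : Matrix (A × B) (A × B) F)),
      -(R' * ((x⁻¹ : GL (A × B) F) : Matrix (A × B) (A × B) F)), ?_⟩
    have h1 : (x : Matrix (A × B) (A × B) F) * ((x⁻¹ : GL (A × B) F) : Matrix (A × B) (A × B) F) = 1 := by
      rw [← Units.val_mul, mul_inv_cancel, Units.val_one]
    rw [hR, Matrix.add_mul, Matrix.add_mul, Matrix.one_mul] at h1
    rw [Matrix.mul_neg, Matrix.mul_neg, ← Matrix.mul_assoc, ← Matrix.mul_assoc (g * col A y')]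
    exact pt5_abel2 _ _ _ h1

lemma pt5_a (hS : HasU φ J₁ J₂ G) (hST : ST φ J₂ G) (hG : GLE φ J₂ G) (h4 : 4 ≤ Fintype.card B)
    {g g' : Matrix (A × B) (A × B) F} {y' y₂ : B → F} (hg : g ∈ MS G) (h1 : g * g' = 1) (hK : ¬ IsKr g)
    (hy' : y' ≠ 0) (hy₂ : y₂ ≠ 0) (hy'y' : pr φ J₂ y' y' = 0) (hy₂y₂ : pr φ J₂ y₂ y₂ = 0) (a₀ : A → F)
    (h0 : (rho A φ J₂ y₂ * (g * col A y')) *ᵥ a₀ = 0) : ∃ a₁ : A → F, g *ᵥ pt a₀ y' = pt a₁ y₂ := by
  have h2 : g' * g = 1 := mul_eq_one_comm.1 h1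
  obtain ⟨d, hd, α, β, hαβ⟩ := hG g g' y' y₂ hg h1 hy' hy₂ hy'y' hy₂y₂
  have hrv : rho A φ J₂ y₂ *ᵥ (g *ᵥ pt a₀ y') = 0 := by
    rw [← Matrix.mulVec_mulVec, ← Matrix.mulVec_mulVec, col_mulVec] at h0
    exact h0
  have hdv := pt5_fix h2 hy'y' hrv d hd
  rw [Matrix.mulVec_mulVec, hαβ, kron_pt] at hdv
  by_cases hI : Ind y₂ (β *ᵥ y')
  · exfalso
    obtain ⟨R, R', hR⟩ := pt5_shape d hd
    have hinv : (g' * ((d⁻¹ : GL (A × B) F) : Matrix (A × B) (A × B) F)) * (α ⊗ₖ β) = 1 := by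
      rw [← hαβ, Matrix.mul_assoc, ← Matrix.mul_assoc _ _ g, ← Units.val_mul, inv_mul_cancel, Units.val_one,
        Matrix.one_mul, h2]
    have hα : ∀ b : A → F, α *ᵥ b = 0 → b = 0 := by
      intro b hb
      have e1 : (α ⊗ₖ β) *ᵥ pt b y' = 0 := by rw [kron_pt, hb, pt5_pt_zero]
      have e2 : pt b y' = 0 := by
        rw [← Matrix.one_mulVec (pt b y'), ← hinv, ← Matrix.mulVec_mulVec, e1, Matrix.mulVec_zero]
      exact (pt_eq_zero e2).resolve_right hy'
    have hsh : col A (β *ᵥ y') * α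
        = col A y₂ * (R * (g * col A y')) + (g * col A y') * (1 + R' * (g * col A y')) := by
      rw [← kron_mul_col, ← hαβ, hR]
      simp only [Matrix.add_mul, Matrix.mul_add, Matrix.one_mul, Matrix.mul_one, Matrix.mul_assoc]
      abel
    have hM' : ∀ b : A → F, (1 + R' * (g * col A y')) *ᵥ b = 0 → b = 0 := by
      intro b hb
      have e1 := congrArg (fun X => X *ᵥ b) hsh
      simp only [Matrix.add_mulVec] at e1
      rw [← Matrix.mulVec_mulVec, ← Matrix.mulVec_mulVec, ← Matrix.mulVec_mulVec b (g * col A y'), hb,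
        Matrix.mulVec_zero, add_zero, col_mulVec, col_mulVec] at e1
      exact hα b (pt_ind hI.symm e1).1
    have hunit : IsUnit (1 + R' * (g * col A y')) := by
      rw [← Matrix.mulVec_injective_iff_isUnit]
      intro b b' hbb
      have := hM' (b - b') (by rw [Matrix.mulVec_sub, hbb, sub_self])
      exact sub_eq_zero.1 this
    obtain ⟨u, hu0, huu, hu1, hu2⟩ := exists_iso_perp2 hS.h2 h4 (β *ᵥ y') y₂
    have hu1' := pr_swap0 hS.h2 hu1
    have hu2' := pr_swap0 hS.h2 hu2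
    have e3 : (rho A φ J₂ u * (g * col A y')) * (1 + R' * (g * col A y')) = 0 := by
      have e4 := congrArg (fun X => rho A φ J₂ u * X) hsh
      simp only [Matrix.mul_add] at e4
      rw [rho_col_assoc, rho_col_assoc, hu1', hu2', zero_smul, zero_smul, zero_add] at e4
      rw [Matrix.mul_assoc, Matrix.mul_add, Matrix.mul_add]
      exact e4.symm
    have e5 : rho A φ J₂ u * (g * col A y') = 0 := by
      obtain ⟨U, hU⟩ := hunit
      have : rho A φ J₂ u * (g * col A y') = (rho A φ J₂ u * (g * col A y')) * ((U : Matrix A A F) *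
          ((U⁻¹ : (Matrix A A F)ˣ) : Matrix A A F)) := by
        rw [← Units.val_mul, mul_inv_cancel, Units.val_one, Matrix.mul_one]
      rw [this, ← Matrix.mul_assoc, hU, e3, Matrix.zero_mul]
    exact hK (hST g g' y' u hg h1 hy' hu0 hy'y' huu e5)
  · obtain ⟨c, hc⟩ := Cfsg.Agent.Lib.Helper99.TSp.exists_smul_of_not_ind hy₂ hI
    refine ⟨c • (α *ᵥ a₀), ?_⟩
    rw [← hdv, hc, pt_smul_right, pt_smul_left]

theorem t5_of [Nonempty A] [Nonempty B] (hS : HasU φ J₁ J₂ G) (hST : ST φ J₂ G) (hG : GLE φ J₂ G)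
    (h5 : 5 ≤ Fintype.card B) : T5 φ J₂ G := by
  intro g g' y' y₂ hg h1 hK hy' hy₂ hy'y' hy₂y₂ a h0
  have h2 : g' * g = 1 := mul_eq_one_comm.1 h1
  obtain ⟨a₁, ha₁⟩ := pt5_a hS hST hG (by omega) hg h1 hK hy' hy₂ hy'y' hy₂y₂ a h0
  obtain ⟨y₃, hT⟩ := exists_tip hS.h2 (by omega) hy₂ hy₂y₂
  have h0' : (rho A φ J₂ y₃ * (g * col A y')) *ᵥ a = 0 := by
    rw [← Matrix.mulVec_mulVec, ← Matrix.mulVec_mulVec, col_mulVec, ha₁, rho_pt, hT.yw, zero_smul]
  obtain ⟨a₂, ha₂⟩ := pt5_a hS hST hG (by omega) hg h1 hK hy' hT.ind.right_ne hy'y' hT.ww a h0'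
  have h3 := pt_ind hT.ind (ha₁.symm.trans ha₂)
  have hv : g *ᵥ pt a y' = 0 := by rw [ha₁, h3.1, pt5_pt_zero]
  have h4 : pt a y' = 0 := by
    rw [← Matrix.one_mulVec (pt a y'), ← h2, ← Matrix.mulVec_mulVec, hv, Matrix.mulVec_zero]
  exact (pt_eq_zero h4).resolve_right hy'

end Cfsg.Agent.Lib.Helper45.TU
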