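import Mathlib
import Cfsg.Agent.Lib.Helper45.TU.Geo

set_option autoImplicit false
set_option linter.unusedVariables false
set_option linter.unusedSectionVars false

namespace Cfsg.Agent.Lib.Helper45.TU

open Matrix hiding col row
open scoped Kronecker
open Cfsg.Agent.Lib.Helper99.Tens
open Cfsg.Agent.Lib.Helper99.TSp (Ind)

variable {A B : Type} [Fintype A] [DecidableEq A] [Fintype B] [DecidableEq B] {F : Type*} [Field F] [Finite F]
variable {φ : F →+* F} {J₁ : Matrix A A F} {J₂ : Matrix B B F} {G : Subgroup (GL (A × B) F)}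

theorem ti_of_tix [Nonempty A] (hS : HasU φ J₁ J₂ G) (hX : TIX φ J₂ G) (h5 : 5 ≤ Fintype.card B) :
    TI φ J₂ G := by
  intro g g' y' y₁ α hg h1 hy' hyy he
  have h2 : g' * g = 1 := mul_eq_one_comm.1 h1
  obtain ⟨η, hη⟩ := exists_dot_one hy'
  have hα' : (row A η * g' * col A y₁) * α = 1 := by
    rw [Matrix.mul_assoc, ← he, Matrix.mul_assoc, ← Matrix.mul_assoc g', h2, Matrix.one_mul, row_mul_col, hη,
      one_smul]
  have hα : α * (row A η * g' * col A y₁) = 1 := mul_eq_one_comm.1 hα'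
  have kiso : ∀ w : B → F, pr φ J₂ w w = 0 → ∃ y₂ : B → F, g * col A w = col A y₂ * α := by
    intro w hww
    obtain ⟨u, hu, huu, hu1, hu2⟩ := exists_iso_perp2 hS.h2 (by omega) y' w
    obtain ⟨x, hx⟩ := hX g g' y' y₁ u α _ hg h1 hα hy' hyy he huu (pr_swap0 hS.h2 hu1)
    exact hX g g' u x w α _ hg h1 hα hu huu hx hww hu2
  have kall : ∀ w : B → F, ∃ y₂ : B → F, g * col A w = col A y₂ * α := by
    refine span_iso hS.h2 (by omega) (fun w => ∃ y₂ : B → F, g * col A w = col A y₂ * α) ?_ kiso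
    rintro w w' ⟨x, hx⟩ ⟨x', hx'⟩
    exact ⟨x + x', by rw [col_add, col_add, Matrix.mul_add, hx, hx', Matrix.add_mul]⟩
  have key : ∀ u : B, ∃ y₂ : B → F, g * col A (Pi.single u (1 : F)) = col A y₂ * α := fun u => kall _
  choose β hβ using key
  refine ⟨α, ∑ u, vecMulVec (β u) (Pi.single u (1 : F)), ?_⟩
  conv_lhs => rw [eq_sum_mul_col_row g]
  have : α ⊗ₖ (∑ u, vecMulVec (β u) (Pi.single u (1 : F))) =
      ∑ u, α ⊗ₖ vecMulVec (β u) (Pi.single u (1 : F)) := by
    ext ⟨i, t⟩ ⟨j, u⟩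
    simp only [Matrix.kroneckerMap_apply, Matrix.sum_apply, Finset.mul_sum]
  rw [this]
  refine Finset.sum_congr rfl (fun u _ => ?_)
  rw [hβ, col_mul_row]

end Cfsg.Agent.Lib.Helper45.TU
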