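import Mathlib
import Cfsg.Agent.Lib.Helper45.TU.Geo

set_option autoImplicit false
set_option linter.unusedVariables false
set_option linter.unusedSectionVars false

namespace Cfsg.Agent.Lib.Helper45.TU

open Matrix hiding col row
open scoped Kronecker
open Cfsg.Agent.Lib.Helper99.Tens
open Cfsg.Agent.Lib.Helper99.TSp (Ind)

variable {A B : Type} [Fintype A] [DecidableEq A] [Fintype B] [DecidableEq B] {F : Type*} [Field F] [Finite F]
variable {φ : F →+* F} {J₁ : Matrix A A F} {J₂ : Matrix B B F} {G : Subgroup (GL (A × B) F)}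

lemma decomp_all (hJ : Hrm φ J₂) {y : B → F} (hy : y ≠ 0) (D : Matrix (A × B) A F)
    (h : ∀ w, pr φ J₂ y w = 0 → rho A φ J₂ w * D = 0) : ∃ κ : Matrix A A F, D = col A y * κ := by
  obtain ⟨η, hη⟩ := exists_dot_one hy
  refine ⟨row A η * D, ?_⟩
  have key : ∀ ψ : B → F, row A ψ * D = (ψ ⬝ᵥ y) • (row A η * D) := by
    intro ψ
    obtain ⟨w, hw⟩ := exists_repr hJ (ψ - (ψ ⬝ᵥ y) • η)
    have h1 : pr φ J₂ y w = 0 := by
      unfold pr
      rw [hw, sub_dotProduct, smul_dotProduct, hη, smul_eq_mul, mul_one, sub_self]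
    have h2 := h w h1
    unfold rho at h2
    rw [hw] at h2
    have h3 : row A (ψ - (ψ ⬝ᵥ y) • η) = row A ψ - (ψ ⬝ᵥ y) • row A η := by
      have := row_add (A := A) (ψ - (ψ ⬝ᵥ y) • η) ((ψ ⬝ᵥ y) • η)
      rw [sub_add_cancel, row_smul] at this
      rw [this, add_sub_cancel_right]
    rw [h3, Matrix.sub_mul, Matrix.smul_mul, sub_eq_zero] at h2
    exact h2
  conv_lhs => rw [eq_sum_col_row_mul D]
  rw [col_eq_sum, Matrix.sum_mul]
  refine Finset.sum_congr rfl (fun u _ => ?_)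
  rw [key, single_dotProduct, one_mul, Matrix.mul_smul, Matrix.smul_mul]

lemma decompI (h₂ : Hrm φ J₂) (h4 : 4 ≤ Fintype.card B) {y : B → F} (hy : y ≠ 0) (hyy : pr φ J₂ y y = 0)
    (D : Matrix (A × B) A F) (h : ∀ w, pr φ J₂ w w = 0 → pr φ J₂ y w = 0 → rho A φ J₂ w * D = 0) :
    ∃ κ : Matrix A A F, D = col A y * κ := by
  apply decomp_all h₂ hy D
  apply span_iso_perp h₂ h4 hyy (fun w => rho A φ J₂ w * D = 0)
  · intro w w' hw hw'
    rw [rho_add, Matrix.add_mul, hw, hw', add_zero]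
  · intro c w hw
    rw [rho_smul, Matrix.smul_mul, hw, smul_zero]
  · exact h

lemma rho_mul_apply_diag (w : B → F) (C : Matrix (A × B) A F) (i : A) :
    (rho A φ J₂ w * C) i i = pr φ J₂ (fun b => C (i, b) i) w := by
  unfold rho pr
  simp only [Matrix.mul_apply, Fintype.sum_prod_type, Cfsg.Agent.Lib.Helper99.Tens.row_apply, dotProduct]
  rw [Finset.sum_eq_single i]
  · simp
  · intro j _ hj
    simp [Ne.symm hj]
  · simp

lemma decomp2I [Nonempty A] (h₂ : Hrm φ J₂) (h4 : 4 ≤ Fintype.card B) {y : B → F} (hy : y ≠ 0)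
    (hyy : pr φ J₂ y y = 0) (C : Matrix (A × B) A F)
    (h : ∀ w, pr φ J₂ w w = 0 → pr φ J₂ y w = 0 → ∃ c : F, rho A φ J₂ w * C = c • (1 : Matrix A A F)) :
    ∃ (x : B → F) (κ : Matrix A A F), C = col A x + col A y * κ := by
  obtain ⟨i⟩ := ‹Nonempty A›
  refine ⟨fun b => C (i, b) i, ?_⟩
  obtain ⟨κ, hκ⟩ := decompI h₂ h4 hy hyy (C - col A (fun b => C (i, b) i)) (by
    intro w hww hw
    obtain ⟨c, hc⟩ := h w hww hw
    have h1 := rho_mul_apply_diag (φ := φ) (J₂ := J₂) w C i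
    rw [hc, Matrix.smul_apply, Matrix.one_apply_eq, smul_eq_mul, mul_one] at h1
    rw [Matrix.mul_sub, rho_col, hc, h1, sub_self])
  exact ⟨κ, by rw [← hκ]; abel⟩

end Cfsg.Agent.Lib.Helper45.TU
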