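import Mathlib
import Cfsg.Agent.Lib.Helper45.TU.Short
import Cfsg.Agent.Lib.Helper45.TU.Dec

set_option autoImplicit false
set_option linter.unusedVariables false
set_option linter.unusedSectionVars false

namespace Cfsg.Agent.Lib.Helper45.TU

open Matrix hiding col row
open scoped Kronecker
open Cfsg.Agent.Lib.Helper99.Tens
open Cfsg.Agent.Lib.Helper99.TSp (Ind exists_smul_of_not_ind)

variable {A B : Type} [Fintype A] [DecidableEq A] [Fintype B] [DecidableEq B] {F : Type*} [Field F] [Finite F]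
variable {φ : F →+* F} {J₁ : Matrix A A F} {J₂ : Matrix B B F} {G : Subgroup (GL (A × B) F)}

theorem tix_of [Nonempty A] (hS : HasU φ J₁ J₂ G) (hL : LL φ J₂ G) (hK : K4 φ J₂ G) (hR : LR φ J₂ G)
    (h5 : 5 ≤ Fintype.card B) : TIX φ J₂ G := by
  intro g g' y' y₁ w' α α' hg h1 hα hy' hyy he hww hw
  have hJ1 := hS.h1
  have hJ2 := hS.h2
  have h2 : g' * g = 1 := mul_eq_one_comm.1 h1
  have hα' : α' * α = 1 := mul_eq_one_comm.1 hα
  have hw2 := pr_swap0 hJ2 hw
  obtain ⟨θ, hθ0, hθ⟩ := exists_skew hJ2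
  have hy₁ : y₁ ≠ 0 := by
    rintro rfl
    rw [col_zero, Matrix.zero_mul] at he
    apply hy'
    apply col_eq_zero (A := A)
    calc col A y' = g' * (g * col A y') := by rw [← Matrix.mul_assoc, h2, Matrix.one_mul]
      _ = 0 := by rw [he, Matrix.mul_zero]
  by_cases hI : Ind y' w'
  swap
  · obtain ⟨c, rfl⟩ := exists_smul_of_not_ind hy' hI
    exact ⟨c • y₁, by rw [col_smul, col_smul, Matrix.mul_smul, he, Matrix.smul_mul]⟩
  have e1 : rho A φ J₂ y' * g' = adj φ J₁ α * rho A φ J₂ y₁ := by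
    rw [rho_g hS hg h1, he, sharp_mul hJ1, sharp_col hJ1 hJ2]
  have aa : adj φ J₁ α * adj φ J₁ α' = 1 := by rw [← adj_mul hJ1, hα', adj_one hJ1]
  have aa' : adj φ J₁ α' * adj φ J₁ α = 1 := by rw [← adj_mul hJ1, hα, adj_one hJ1]
  have hinv : ∀ c : F, c • (adj φ J₁ α * α) = 0 → c = 0 := by
    intro c hc
    by_contra hne
    have h3 : adj φ J₁ α * α = 0 := (smul_eq_zero.1 hc).resolve_left hne
    have : (adj φ J₁ α' * (adj φ J₁ α * α)) * α' = 1 := by
      rw [← Matrix.mul_assoc, aa', Matrix.one_mul, hα]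
    rw [h3, Matrix.mul_zero, Matrix.zero_mul] at this
    exact zero_ne_one this
  have hy₁y₁ : pr φ J₂ y₁ y₁ = 0 := by
    apply hinv
    have : rho A φ J₂ y' * g' * (g * col A y') = 0 := by
      rw [Matrix.mul_assoc, ← Matrix.mul_assoc g', h2, Matrix.one_mul, rho_col, hyy, zero_smul]
    rw [e1, he, Matrix.mul_assoc, rho_col_assoc, Matrix.mul_smul] at this
    exact this
  have e2 : g' * col A y₁ = col A y' * α' := by
    calc g' * col A y₁ = g' * (col A y₁ * α) * α' := by rw [Matrix.mul_assoc, Matrix.mul_assoc, hα, Matrix.mul_one]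
      _ = col A y' * α' := by rw [← he, ← Matrix.mul_assoc, h2, Matrix.one_mul]
  have e3 : rho A φ J₂ y₁ * g = adj φ J₁ α' * rho A φ J₂ y' := by
    calc rho A φ J₂ y₁ * g = adj φ J₁ α' * (adj φ J₁ α * rho A φ J₂ y₁) * g := by
          rw [← Matrix.mul_assoc, aa', Matrix.one_mul]
      _ = adj φ J₁ α' * rho A φ J₂ y' := by
          rw [← e1, Matrix.mul_assoc, Matrix.mul_assoc, h2, Matrix.mul_one]
  -- the long root element
  have hl : 1 + N φ J₂ y₁ y₁ (θ • (α * adj φ J₁ α)) ∈ MS G := by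
    have := MS_conj hg h1 (long_mem hS hyy hθ)
    have e : g * N φ J₂ y' y' (θ • (1 : Matrix A A F)) * g' = N φ J₂ y₁ y₁ (θ • (α * adj φ J₁ α)) := by
      rw [N_smul, N_smul]
      unfold N
      calc g * (θ • (col A y' * (1 : Matrix A A F) * rho A φ J₂ y')) * g'
          = θ • ((g * col A y') * (rho A φ J₂ y' * g')) := by
            simp only [Matrix.mul_one, Matrix.mul_assoc, Matrix.mul_smul, Matrix.smul_mul]
        _ = _ := by rw [he, e1]; simp only [Matrix.mul_assoc]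
    rwa [e] at this
  obtain ⟨μ₀, hμ₀⟩ := hL y₁ hy₁ hy₁y₁ _ hl
  have hμ : α * adj φ J₁ α = (θ⁻¹ * μ₀) • (1 : Matrix A A F) := by
    rw [mul_smul, ← hμ₀, smul_smul, inv_mul_cancel₀ hθ0, one_smul]
  set μ := θ⁻¹ * μ₀ with hμdef
  have hαμ : α = μ • adj φ J₁ α' := by
    calc α = α * (adj φ J₁ α * adj φ J₁ α') := by rw [aa, Matrix.mul_one]
      _ = μ • adj φ J₁ α' := by rw [← Matrix.mul_assoc, hμ, Matrix.smul_mul, Matrix.one_mul]
  have hμ0 : μ ≠ 0 := by
    intro h0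
    rw [h0, zero_smul] at hαμ
    rw [hαμ, Matrix.zero_mul] at hα
    exact zero_ne_one hα
  have hadj : adj φ J₁ α' = μ⁻¹ • α := by
    rw [hαμ, smul_smul, inv_mul_cancel₀ hμ0, one_smul]
  -- the short root element
  have hs : 1 + (col A y₁ * (α * (rho A φ J₂ w' * g')) + (-(g * col A w' * adj φ J₁ α)) * rho A φ J₂ y₁) ∈ MS G := by
    have := MS_conj hg h1 (short_mem hS hyy hww hw (1 : F))
    have e : g * (N φ J₂ y' w' ((1 : F) • (1 : Matrix A A F)) - N φ J₂ w' y' (φ (1 : F) • (1 : Matrix A A F))) * g'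
        = col A y₁ * (α * (rho A φ J₂ w' * g')) + (-(g * col A w' * adj φ J₁ α)) * rho A φ J₂ y₁ := by
      rw [map_one]
      unfold N
      calc g * (col A y' * ((1 : F) • (1 : Matrix A A F)) * rho A φ J₂ w'
            - col A w' * ((1 : F) • (1 : Matrix A A F)) * rho A φ J₂ y') * g'
          = (g * col A y') * (rho A φ J₂ w' * g') - (g * col A w') * (rho A φ J₂ y' * g') := by
            simp only [one_smul, Matrix.mul_one, Matrix.mul_assoc, Matrix.mul_sub, Matrix.sub_mul]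
        _ = _ := by rw [he, e1, sub_eq_add_neg, Matrix.neg_mul]; simp only [Matrix.mul_assoc]
    rwa [e] at this
  have hR0 : α * (rho A φ J₂ w' * g') * col A y₁ = 0 := by
    rw [Matrix.mul_assoc, Matrix.mul_assoc, e2, rho_col_assoc, hw, zero_smul, Matrix.mul_zero]
  have hC0 : rho A φ J₂ y₁ * (g * col A w') = 0 := by
    rw [← Matrix.mul_assoc, e3, Matrix.mul_assoc, rho_col, hw2, zero_smul, Matrix.mul_zero]
  have hC : rho A φ J₂ y₁ * (g * col A w' * adj φ J₁ α) = 0 := by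
    rw [← Matrix.mul_assoc, hC0, Matrix.zero_mul]
  have hC' : rho A φ J₂ y₁ * (-(g * col A w' * adj φ J₁ α)) = 0 := by
    rw [Matrix.mul_neg, hC, neg_zero]
  have hRC : α * (rho A φ J₂ w' * g') * (-(g * col A w' * adj φ J₁ α)) = 0 := by
    rw [Matrix.mul_neg, neg_eq_zero]
    calc α * (rho A φ J₂ w' * g') * (g * col A w' * adj φ J₁ α)
        = α * (rho A φ J₂ w' * (g' * g) * col A w') * adj φ J₁ α := by simp only [Matrix.mul_assoc]
      _ = 0 := by rw [h2, Matrix.mul_one, rho_col, hww, zero_smul, Matrix.mul_zero, Matrix.zero_mul]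
  obtain ⟨x, κ, hx⟩ := decomp2I hJ2 (by omega) hy₁ hy₁y₁ (g * col A w' * adj φ J₁ α) (by
    intro w hw1 hw0
    by_cases hI2 : Ind y₁ w
    · obtain ⟨c, hc⟩ := (hR y₁ w _ _ ⟨hI2, hy₁y₁, hw1, hw0⟩ hR0 hC' hRC hs).2
      refine ⟨-c, ?_⟩
      rw [Matrix.mul_neg] at hc
      rw [neg_smul, ← hc, neg_neg]
    · obtain ⟨c, rfl⟩ := exists_smul_of_not_ind hy₁ hI2
      exact ⟨0, by rw [rho_smul, Matrix.smul_mul, hC, smul_zero, zero_smul]⟩)
  -- `g col w' = col x₁ α + col y₁ α₂`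
  have hD : g * col A w' = col A (μ⁻¹ • x) * α + col A y₁ * (κ * adj φ J₁ α') := by
    calc g * col A w' = (g * col A w' * adj φ J₁ α) * adj φ J₁ α' := by
          rw [Matrix.mul_assoc, aa, Matrix.mul_one]
      _ = _ := by
          rw [hx, Matrix.add_mul, Matrix.mul_assoc, col_smul, Matrix.smul_mul]
          conv_lhs => rw [hadj]
          rw [Matrix.mul_smul]
          rw [← hadj]
  set x₁ := μ⁻¹ • x with hx₁
  set α₂ := κ * adj φ J₁ α' with hα₂
  have hpx : pr φ J₂ x₁ y₁ = 0 := by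
    have := hC0
    rw [hD, Matrix.mul_add, rho_col_assoc, rho_col_assoc, hy₁y₁, zero_smul, add_zero] at this
    by_contra hne
    have h3 : α = 0 := (smul_eq_zero.1 this).resolve_left hne
    rw [h3, Matrix.zero_mul] at hα
    exact zero_ne_one hα
  have hpx' : pr φ J₂ y₁ x₁ = 0 := pr_swap0 hJ2 hpx
  have e5 : rho A φ J₂ w' * g' = adj φ J₁ α * rho A φ J₂ x₁ + adj φ J₁ α₂ * rho A φ J₂ y₁ := by
    rw [rho_g hS hg h1, hD, sharp_add, sharp_mul hJ1, sharp_mul hJ1, sharp_col hJ1 hJ2, sharp_col hJ1 hJ2]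
  have hxx : pr φ J₂ x₁ x₁ = 0 := by
    apply hinv
    have : rho A φ J₂ w' * g' * (g * col A w') = 0 := by
      rw [Matrix.mul_assoc, ← Matrix.mul_assoc g', h2, Matrix.one_mul, rho_col, hww, zero_smul]
    rw [e5, hD, Matrix.add_mul, Matrix.mul_add, Matrix.mul_add, Matrix.mul_assoc, Matrix.mul_assoc,
      Matrix.mul_assoc, Matrix.mul_assoc, rho_col_assoc, rho_col_assoc, rho_col_assoc, rho_col_assoc,
      hpx, hpx', hy₁y₁] at this
    simpa using this
  by_cases hI3 : Ind y₁ x₁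
  · have hl2 : 1 + (N φ J₂ y₁ y₁ (θ • (α₂ * adj φ J₁ α₂)) + N φ J₂ y₁ x₁ (θ • (α₂ * adj φ J₁ α))
        + N φ J₂ x₁ y₁ (θ • (α * adj φ J₁ α₂)) + N φ J₂ x₁ x₁ (θ • (α * adj φ J₁ α))) ∈ MS G := by
      have := MS_conj hg h1 (long_mem hS hww hθ)
      have e : g * N φ J₂ w' w' (θ • (1 : Matrix A A F)) * g'
          = N φ J₂ y₁ y₁ (θ • (α₂ * adj φ J₁ α₂)) + N φ J₂ y₁ x₁ (θ • (α₂ * adj φ J₁ α))
        + N φ J₂ x₁ y₁ (θ • (α * adj φ J₁ α₂)) + N φ J₂ x₁ x₁ (θ • (α * adj φ J₁ α)) := by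
        simp only [N_smul]
        unfold N
        calc g * (θ • (col A w' * (1 : Matrix A A F) * rho A φ J₂ w')) * g'
            = θ • ((g * col A w') * (rho A φ J₂ w' * g')) := by
              simp only [Matrix.mul_one, Matrix.mul_assoc, Matrix.mul_smul, Matrix.smul_mul]
          _ = _ := by
              rw [hD, e5]
              simp only [Matrix.mul_assoc, Matrix.mul_add, Matrix.add_mul, smul_add]
              abel
      rwa [e] at this
    obtain ⟨c₀, hc₀⟩ := (hK y₁ x₁ ⟨hI3, hy₁y₁, hxx, hpx'⟩ _ _ _ _ hl2).2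
    have hc : α₂ * adj φ J₁ α = (θ⁻¹ * c₀) • (1 : Matrix A A F) := by
      rw [mul_smul, ← hc₀, smul_smul, inv_mul_cancel₀ hθ0, one_smul]
    set c := θ⁻¹ * c₀
    have hα₂' : α₂ = (c * μ⁻¹) • α := by
      calc α₂ = α₂ * (adj φ J₁ α * adj φ J₁ α') := by rw [aa, Matrix.mul_one]
        _ = (c * μ⁻¹) • α := by
            rw [← Matrix.mul_assoc, hc, Matrix.smul_mul, Matrix.one_mul, hadj, smul_smul]
    refine ⟨x₁ + (c * μ⁻¹) • y₁, ?_⟩
    rw [hD, hα₂', col_add, col_smul (c * μ⁻¹) y₁, Matrix.add_mul, Matrix.mul_smul, Matrix.smul_mul]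
  · exfalso
    obtain ⟨c, hc⟩ := exists_smul_of_not_ind hy₁ hI3
    have e6 : col A w' = col A y' * (α' * (c • α + α₂)) := by
      calc col A w' = g' * (g * col A w') := by rw [← Matrix.mul_assoc, h2, Matrix.one_mul]
        _ = g' * col A y₁ * (c • α + α₂) := by
            rw [hD, hc, col_smul, Matrix.mul_add, Matrix.mul_add, Matrix.smul_mul, Matrix.mul_smul,
              Matrix.mul_smul, Matrix.mul_assoc, Matrix.mul_assoc]
        _ = _ := by rw [e2, Matrix.mul_assoc]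
    obtain ⟨η, hη1, hη0⟩ := exists_dot_one_zero hI.not_smul
    have := congrArg (fun M => row A η * M) e6
    simp only [row_mul_col, row_col_assoc, hη1, hη0, one_smul, zero_smul] at this
    exact one_ne_zero this

end Cfsg.Agent.Lib.Helper45.TU
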