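import Mathlib
import Cfsg.Agent.Lib.Helper45.TU.Spec
import Cfsg.Agent.Lib.Helper94.HermSU
import Cfsg.Agent.Lib.Helper94.Transfer

set_option autoImplicit false
set_option linter.unusedVariables false
set_option linter.unusedSectionVars false

namespace Cfsg.Agent.Lib.Helper45.TU

open Matrix hiding col row
open scoped Kronecker
open Cfsg.Agent.Lib.Helper99.Tens
open Cfsg.Agent.Lib.Helper99.TSp (Ind)
open Cfsg.Agent.Lib.Helper94 Cfsg.Agent.Lib.Helper94.U

theorem su_le {ι : Type} [Fintype ι] [DecidableEq ι] {F : Type*} [Field F] [Finite F] {φ : F →+* F}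
    {J : Matrix ι ι F} (hJ : Hrm φ J) (hdim : 6 < Fintype.card ι) (G : Subgroup (GL ι F))
    (h : ∀ v, pr φ J v v = 0 → v ∈ TV φ J G) {g g' : Matrix ι ι F} (h1 : g * g' = 1) (hi : IsoM φ J g)
    (hd : g.det = 1) : g ∈ MS G := by
  have H := hform hJ
  set g0 : GL ι F := Matrix.GeneralLinearGroup.mk'' g (by rw [hd]; exact isUnit_one) with hg0
  have hg0v : (g0 : Matrix ι ι F) = g := rfl
  have key := mem_of_sisom H (by rw [Module.finrank_fintype_fun_eq_card]; exact hdim)
    (G.map (glEquiv ι F).toMonoidHom) ?_ (glEquiv ι F g0) ?_ ?_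
  · obtain ⟨k, hk, hkk⟩ := key
    have : k = g0 := (glEquiv ι F).injective hkk
    exact ⟨g0, this ▸ hk, rfl⟩
  · intro v k hk hv
    have hv' : pr φ J v v = 0 := hv
    have hk' : k + φ k = 0 := by
      rw [hv, mul_zero, add_zero] at hk
      exact hk
    obtain ⟨t, ht, htv⟩ := (h v hv').2 k hk'
    refine ⟨t, ht, ?_⟩
    ext x : 1
    change glEquiv ι F t x = _
    rw [glEquiv_apply, htv, tv_mulVec, ur_apply]
    rfl
  · intro x y
    rw [glEquiv_apply, glEquiv_apply, hg0v]
    exact hi y x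
  · rw [glEquiv_det, hg0v, hd]

end Cfsg.Agent.Lib.Helper45.TU
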