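import Mathlib
import Cfsg.Agent.Lib.Helper45.TU.PK4
import Cfsg.Agent.Lib.Helper45.TU.PLR
import Cfsg.Agent.Lib.Helper45.TU.PTIX
import Cfsg.Agent.Lib.Helper45.TU.PTI
import Cfsg.Agent.Lib.Helper45.TU.PRC
import Cfsg.Agent.Lib.Helper45.TU.PGLE
import Cfsg.Agent.Lib.Helper45.TU.PT5
import Cfsg.Agent.Lib.Helper45.TU.PFin
import Cfsg.Agent.Lib.Helper45.TU.PSS
import Cfsg.Agent.Lib.Helper45.TU.Alg1
import Cfsg.Agent.Lib.Helper45.TU.Alg2
import Cfsg.Agent.Lib.Helper45.TU.Spread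
import Cfsg.Agent.Lib.Helper45.TU.SUG

set_option autoImplicit false
set_option linter.unusedVariables false
set_option linter.unusedSectionVars false

namespace Cfsg.Agent.Lib.Helper45.TU

open Matrix hiding col row
open scoped Kronecker
open Cfsg.Agent.Lib.Helper99.Tens

variable {A B : Type} [Fintype A] [DecidableEq A] [Fintype B] [DecidableEq B] {F : Type*} [Field F] [Finite F]
variable {φ : F →+* F} {J₁ : Matrix A A F} {J₂ : Matrix B B F} {G : Subgroup (GL (A × B) F)}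

lemma arith {a b : ℕ} (h2 : 2 ≤ a) (hab : a < b) (h13 : 13 ≤ a * b) : 5 ≤ b ∧ a + 5 < 2 * b := by
  constructor
  · by_contra h
    have hb : b ≤ 4 := by omega
    have ha : a ≤ 3 := by omega
    have : a * b ≤ 3 * 4 := Nat.mul_le_mul ha hb
    omega
  · by_cases ha : 4 ≤ a
    · omega
    · have ha3 : a ≤ 3 := by omega
      by_contra h
      have hb : b ≤ 4 := by omega
      have : a * b ≤ 3 * 4 := Nat.mul_le_mul ha3 hb
      omega

/-- Step 2: under (L) every element of `G` is a Kronecker product. -/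
theorem isKr_of_LL [Nonempty A] [Nonempty B] (hS : HasU φ J₁ J₂ G) (hL : LL φ J₂ G)
    (hAB : Fintype.card A < Fintype.card B) (h5 : 5 ≤ Fintype.card B)
    (hc : Fintype.card A + 5 < 2 * Fintype.card B)
    {g g' : Matrix (A × B) (A × B) F} (hg : g ∈ MS G) (h1 : g * g' = 1) : IsKr g := by
  have hK := k4_of_LL hS hL h5
  have hR := lr_of_k4 hS hK
  have hX := tix_of hS hL hK hR h5
  have hT := ti_of_tix hS hX h5
  have hRC := rc_of_ti hS hT hAB
  have hST := st_of_rc hS hT hRC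
  have hGL := gle_of_rc hS hRC
  have hT5 := t5_of hS hST hGL h5
  exact isKr_of_T5 hS hT5 h5 hc hg h1

/-- Step 1: if (L) fails, `G` contains all special isometries. -/
theorem all_of_not_LL [Nonempty A] [Nonempty B] (hS : HasU φ J₁ J₂ G) (hL : ¬ LL φ J₂ G)
    (h2 : 2 ≤ Fintype.card A) (h5 : 5 ≤ Fintype.card B) (h13 : 13 ≤ Fintype.card A * Fintype.card B)
    (hex : ¬ (Fintype.card A = 2 ∧ Nat.card F = 4))
    {g g' : Matrix (A × B) (A × B) F} (h1 : g * g' = 1) (hi : IsoM φ (J₁ ⊗ₖ J₂) g) (hd : g.det = 1) :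
    g ∈ MS G := by
  unfold LL at hL
  push Not at hL
  obtain ⟨y, hy, hyy, κ₀, hκ, hns⟩ := hL
  have hκS : κ₀ ∈ SS φ J₂ G := ss_of_one hS (by omega) hy hyy hκ
  have hA := ss_salg hS h5
  obtain ⟨x, c₀, hx, hc₀, hc, hm⟩ := alg1 hS.h1 hA h2 hex hκS hns
  have hall := alg2 hS.h1 hA h2 hex hx hc₀ hc hm
  have hpt : ∀ (a : A → F) (y : B → F), pr φ J₂ y y = 0 → pt a y ∈ TV φ (J₁ ⊗ₖ J₂) G := by
    intro a y hy0
    refine ⟨by rw [pr_pt, hy0, mul_zero], fun c hc => ?_⟩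
    rw [← N_rank_one]
    exact hall a c hc y hy0
  have hsp := spread hS (by omega) hpt
  refine su_le (Hrm.kron hS.h1 hS.h2) ?_ G hsp h1 hi hd
  rw [Fintype.card_prod]
  omega

/-- **Core of S5670.** -/
theorem core (hS : HasU φ J₁ J₂ G) (h2 : 2 ≤ Fintype.card A) (hAB : Fintype.card A < Fintype.card B)
    (h13 : 13 ≤ Fintype.card A * Fintype.card B) (hex : ¬ (Fintype.card A = 2 ∧ Nat.card F = 4))
    {g₀ g₀' : Matrix (A × B) (A × B) F} (hg₀ : g₀ ∈ MS G) (h0 : g₀ * g₀' = 1) (hnk : ¬ IsKr g₀)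
    {g g' : Matrix (A × B) (A × B) F} (h1 : g * g' = 1) (hi : IsoM φ (J₁ ⊗ₖ J₂) g) (hd : g.det = 1) :
    g ∈ MS G := by
  obtain ⟨h5, hc⟩ := arith h2 hAB h13
  haveI : Nonempty A := Fintype.card_pos_iff.1 (by omega)
  haveI : Nonempty B := Fintype.card_pos_iff.1 (by omega)
  by_cases hL : LL φ J₂ G
  · exact absurd (isKr_of_LL hS hL hAB h5 hc hg₀ h0) hnk
  · exact all_of_not_LL hS hL h2 h5 h13 hex h1 hi hd

end Cfsg.Agent.Lib.Helper45.TU
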