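import Mathlib
import Cfsg.Agent.Lib.Helper45.TU.Geo1

set_option autoImplicit false
set_option linter.unusedVariables false
set_option linter.unusedSectionVars false

namespace Cfsg.Agent.Lib.Helper45.TU

open Matrix hiding col row
open scoped Kronecker
open Cfsg.Agent.Lib.Helper99.Tens
open Cfsg.Agent.Lib.Helper99.TSp (Ind)

variable {n : Type} [Fintype n] [DecidableEq n] {F : Type*} [Field F] [Finite F] {φ : F →+* F} {J : Matrix n n F}

/-- the functional `x ↦ ⟨x, a⟩`. -/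
def geo3L (φ : F →+* F) (J : Matrix n n F) (a : n → F) : (n → F) →ₗ[F] F where
  toFun x := pr φ J x a
  map_add' x x' := pr_add_left x x' a
  map_smul' c x := by rw [pr_smul_left, RingHom.id_apply, smul_eq_mul]

/-- a non-isotropic vector in the span of two non-orthogonal vectors. -/
lemma geo3_noniso (hJ : Hrm φ J) {u x : n → F} (h : pr φ J u x ≠ 0) :
    ∃ α β : F, pr φ J (α • u + β • x) (α • u + β • x) ≠ 0 := by
  by_cases huu : pr φ J u u = 0
  swap
  · exact ⟨1, 0, by simpa using huu⟩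
  by_cases hxx : pr φ J x x = 0
  swap
  · exact ⟨0, 1, by simpa using hxx⟩
  obtain ⟨s, hs⟩ := exists_trace hJ 1 (map_one φ)
  have hγ : φ (pr φ J u x) ≠ 0 := by simpa using h
  refine ⟨1, s / φ (pr φ J u x), ?_⟩
  simp only [pr_add_left, pr_add_right, pr_smul_left, pr_smul_right, huu, hxx, map_one, map_div₀,
    hJ.invol]
  rw [← hJ.herm u x]
  have : (1 : F) * (1 * 0 + s / φ (pr φ J u x) * φ (pr φ J u x)) +
      φ s / pr φ J u x * (1 * pr φ J u x + s / φ (pr φ J u x) * 0) = 1 := by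
    rw [div_mul_cancel₀ _ hγ, mul_zero, mul_zero, add_zero, zero_add, one_mul, one_mul,
      div_mul_cancel₀ _ h]
    exact hs
  rw [this]
  exact one_ne_zero

/-- the two isotropic vectors `w + c e`, `w + μ c e`. -/
lemma geo3_pair (hJ : Hrm φ J) {w e : n → F} (hw : pr φ J w w ≠ 0) (he : pr φ J e e ≠ 0)
    (hew : pr φ J e w = 0) : ∃ c μ : F, μ ≠ 1 ∧ μ ≠ 0 ∧
      pr φ J (w + c • e) (w + c • e) = 0 ∧ pr φ J (w + (μ * c) • e) (w + (μ * c) • e) = 0 ∧
      pr φ J (w + c • e) (w + (μ * c) • e) ≠ 0 := by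
  have hwe : pr φ J w e = 0 := pr_swap0 hJ hew
  obtain ⟨c, hc⟩ := exists_norm hJ (-(pr φ J w w) / pr φ J e e) (by
    rw [map_div₀, map_neg, hJ.herm, hJ.herm])
  obtain ⟨μ, hμ1, hμ⟩ := exists_norm_one hJ
  have hμ0 : μ ≠ 0 := by
    rintro rfl
    rw [zero_mul] at hμ
    exact zero_ne_one hμ
  have hce : c * φ c * pr φ J e e = -(pr φ J w w) := by
    rw [hc, div_mul_cancel₀ _ he]
  refine ⟨c, μ, hμ1, hμ0, ?_, ?_, ?_⟩
  · simp only [pr_add_left, pr_add_right, pr_smul_left, pr_smul_right, hew, hwe]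
    linear_combination hce
  · simp only [pr_add_left, pr_add_right, pr_smul_left, pr_smul_right, hew, hwe, map_mul]
    linear_combination (μ * φ μ) * hce - (pr φ J w w) * hμ
  · simp only [pr_add_left, pr_add_right, pr_smul_left, pr_smul_right, hew, hwe, map_mul]
    have e1 : pr φ J w w + c * 0 + φ μ * φ c * (0 + c * pr φ J e e) =
        pr φ J w w * (1 - φ μ) := by
      linear_combination (φ μ) * hce
    rw [e1]
    apply mul_ne_zero hw
    intro h0
    have h1 : φ μ = 1 := (sub_eq_zero.1 h0).symm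
    apply hμ1
    rw [← hJ.invol μ, h1, map_one]

lemma geo3_comb {w e : n → F} {c μ : F} (hμ1 : μ ≠ 1) :
    w = (μ / (μ - 1)) • (w + c • e) + (-1 / (μ - 1)) • (w + (μ * c) • e) := by
  have h : μ - 1 ≠ 0 := sub_ne_zero.2 hμ1
  funext i
  simp only [Pi.add_apply, Pi.smul_apply, smul_eq_mul]
  field_simp
  ring

/-- a non-isotropic vector perpendicular to the non-isotropic `w`. -/
lemma geo3_perp1 (hJ : Hrm φ J) (h : 2 ≤ Fintype.card n) {w : n → F} (hw : pr φ J w w ≠ 0) :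
    ∃ e : n → F, pr φ J e e ≠ 0 ∧ pr φ J e w = 0 := by
  obtain ⟨x0, hx0, hx⟩ := exists_ker (geo3L φ J w) (by rw [Module.finrank_self]; omega)
  have hxw : pr φ J x0 w = 0 := hx
  obtain ⟨u, hu⟩ : ∃ u, pr φ J u x0 ≠ 0 := by
    by_contra hcon
    push Not at hcon
    exact hx0 (eq_zero_of_pr hJ hcon)
  set t : F := pr φ J u w / pr φ J w w with ht
  have h1 : pr φ J (u - t • w) w = 0 := by
    rw [pr_sub_left, pr_smul_left, ht, div_mul_cancel₀ _ hw, sub_self]
  have h2 : pr φ J (u - t • w) x0 ≠ 0 := by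
    rw [pr_sub_left, pr_smul_left, pr_swap0 hJ hxw, mul_zero, sub_zero]
    exact hu
  obtain ⟨α, β, hαβ⟩ := geo3_noniso hJ h2
  refine ⟨_, hαβ, ?_⟩
  rw [pr_add_left, pr_smul_left, pr_smul_left, h1, hxw]
  ring

/-- a non-isotropic vector is the sum of two non-orthogonal isotropic vectors. -/
lemma exists_hyp_decomp (hJ : Hrm φ J) (h : 2 ≤ Fintype.card n) {w : n → F} (hw : pr φ J w w ≠ 0) :
    ∃ z z' : n → F, pr φ J z z = 0 ∧ pr φ J z' z' = 0 ∧ pr φ J z z' ≠ 0 ∧ w = z + z' := by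
  obtain ⟨e, he, hew⟩ := geo3_perp1 hJ h hw
  obtain ⟨c, μ, hμ1, hμ0, h1, h2, h3⟩ := geo3_pair hJ hw he hew
  have hs : μ - 1 ≠ 0 := sub_ne_zero.2 hμ1
  refine ⟨(μ / (μ - 1)) • (w + c • e), (-1 / (μ - 1)) • (w + (μ * c) • e), ?_, ?_, ?_,
    geo3_comb hμ1⟩
  · rw [pr_smul_left, pr_smul_right, h1]; ring
  · rw [pr_smul_left, pr_smul_right, h2]; ring
  · rw [pr_smul_left, pr_smul_right]
    refine mul_ne_zero (div_ne_zero hμ0 hs) (mul_ne_zero ?_ h3)
    have : (-1 / (μ - 1) : F) ≠ 0 := div_ne_zero (neg_ne_zero.2 one_ne_zero) hs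
    exact (map_ne_zero φ).2 this

/-- the space is spanned by its isotropic vectors. -/
lemma span_iso (hJ : Hrm φ J) (h : 2 ≤ Fintype.card n)
    (P : (n → F) → Prop) (hadd : ∀ w w', P w → P w' → P (w + w'))
    (hiso : ∀ w, pr φ J w w = 0 → P w) : ∀ w, P w := by
  intro w
  by_cases hw : pr φ J w w = 0
  · exact hiso w hw
  · obtain ⟨z, z', hz, hz', -, rfl⟩ := exists_hyp_decomp hJ h hw
    exact hadd _ _ (hiso z hz) (hiso z' hz')

/-- `y^⊥` (`y` isotropic, possibly `0`) is spanned by its isotropic vectors. -/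
lemma span_iso_perp (hJ : Hrm φ J) (h : 4 ≤ Fintype.card n) {y : n → F} (hyy : pr φ J y y = 0)
    (P : (n → F) → Prop) (hadd : ∀ w w', P w → P w' → P (w + w')) (hsm : ∀ (c : F) w, P w → P (c • w))
    (hiso : ∀ w, pr φ J w w = 0 → pr φ J y w = 0 → P w) : ∀ w, pr φ J y w = 0 → P w := by
  by_cases hy : y = 0
  · subst hy
    intro w _
    exact span_iso hJ (by omega) P hadd (fun w hw => hiso w hw (pr_zero_left w)) w
  intro w hyw
  by_cases hw : pr φ J w w = 0
  · exact hiso w hw hyw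
  have hwy : pr φ J w y = 0 := pr_swap0 hJ hyw
  obtain ⟨v, -, hvy⟩ := exists_partner hJ hy hyy
  obtain ⟨x0, hx0, hx⟩ := exists_ker ((geo3L φ J y).prod ((geo3L φ J v).prod (geo3L φ J w))) (by
    rw [Module.finrank_prod, Module.finrank_prod, Module.finrank_self]; omega)
  have hxy : pr φ J x0 y = 0 := congrArg Prod.fst hx
  have hxv : pr φ J x0 v = 0 := congrArg (fun p => p.2.1) hx
  have hxw : pr φ J x0 w = 0 := congrArg (fun p => p.2.2) hx
  obtain ⟨u, hu⟩ : ∃ u, pr φ J u x0 ≠ 0 := by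
    by_contra hcon
    push Not at hcon
    exact hx0 (eq_zero_of_pr hJ hcon)
  set β : F := pr φ J u y with hβ
  set t : F := (pr φ J u w - β * pr φ J v w) / pr φ J w w with ht
  have h1 : pr φ J (u - β • v - t • w) y = 0 := by
    rw [pr_sub_left, pr_sub_left, pr_smul_left, pr_smul_left, hvy, hwy]
    ring
  have h2 : pr φ J (u - β • v - t • w) w = 0 := by
    rw [pr_sub_left, pr_sub_left, pr_smul_left, pr_smul_left, ht, div_mul_cancel₀ _ hw]
    ring
  have h3 : pr φ J (u - β • v - t • w) x0 ≠ 0 := by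
    rw [pr_sub_left, pr_sub_left, pr_smul_left, pr_smul_left, pr_swap0 hJ hxv, pr_swap0 hJ hxw,
      mul_zero, mul_zero, sub_zero, sub_zero]
    exact hu
  obtain ⟨α, β', hαβ⟩ := geo3_noniso hJ h3
  set e : n → F := α • (u - β • v - t • w) + β' • x0 with he
  have hew : pr φ J e w = 0 := by
    rw [he, pr_add_left, pr_smul_left, pr_smul_left, h2, hxw]; ring
  have hey : pr φ J e y = 0 := by
    rw [he, pr_add_left, pr_smul_left, pr_smul_left, h1, hxy]; ring
  have hye : pr φ J y e = 0 := pr_swap0 hJ hey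
  obtain ⟨c, μ, hμ1, hμ0, k1, k2, -⟩ := geo3_pair hJ hw hαβ hew
  rw [geo3_comb (w := w) (e := e) (c := c) hμ1]
  refine hadd _ _ (hsm _ _ (hiso _ k1 ?_)) (hsm _ _ (hiso _ k2 ?_))
  · rw [pr_add_right, pr_smul_right, hyw, hye]; ring
  · rw [pr_add_right, pr_smul_right, hyw, hye]; ring

end Cfsg.Agent.Lib.Helper45.TU
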