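import Mathlib
import Cfsg.Agent.Lib.Helper45.TU.Geo1

set_option autoImplicit false
set_option linter.unusedVariables false
set_option linter.unusedSectionVars false

namespace Cfsg.Agent.Lib.Helper45.TU

open Matrix hiding col row
open scoped Kronecker
open Cfsg.Agent.Lib.Helper99.Tens
open Cfsg.Agent.Lib.Helper99.TSp (Ind)
open Cfsg.Agent.Lib.Helper94.U

variable {n : Type} [Fintype n] [DecidableEq n] {F : Type*} [Field F] [Finite F] {φ : F →+* F} {J : Matrix n n F}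

lemma witt_one (hJ : Hrm φ J) (h : 3 ≤ Fintype.card n) {y y₁ : n → F} (hy : y ≠ 0) (hy₁ : y₁ ≠ 0)
    (hn : pr φ J y y = pr φ J y₁ y₁) :
    ∃ s s' : Matrix n n F, s * s' = 1 ∧ IsoM φ J s ∧ s.det = 1 ∧ s *ᵥ y = y₁ := by
  obtain ⟨t, ht, hd, htv⟩ := exists_sisom_family (hform hJ) (fun _ : Fin 1 => y) (fun _ : Fin 1 => y₁)
    (LinearIndependent.of_subsingleton 0 hy) (LinearIndependent.of_subsingleton 0 hy₁)
    (fun _ _ => hn) (by rw [Module.finrank_fintype_fun_eq_card]; simp; omega)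
  obtain ⟨s, s', h1, h2, h3, h4⟩ := exists_mat t ht hd
  exact ⟨s, s', h1, h2, h3, by rw [h4]; exact htv 0⟩

lemma ind_li {y w : n → F} (h : Ind y w) : LinearIndependent F ![y, w] := by
  rw [LinearIndependent.pair_iff]
  exact h

lemma witt_pair (hJ : Hrm φ J) (h : 5 ≤ Fintype.card n) {y w y₁ w₁ : n → F} (hp : TIP φ J y w)
    (hp₁ : TIP φ J y₁ w₁) :
    ∃ s s' : Matrix n n F, s * s' = 1 ∧ IsoM φ J s ∧ s.det = 1 ∧ s *ᵥ y = y₁ ∧ s *ᵥ w = w₁ := by
  obtain ⟨t, ht, hd, htv⟩ := exists_sisom_family (hform hJ) ![y, w] ![y₁, w₁] (ind_li hp.ind) (ind_li hp₁.ind)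
    (by
      intro i j
      fin_cases i <;> fin_cases j <;>
        simp [hp.yy, hp.ww, hp.yw, hp₁.yy, hp₁.ww, hp₁.yw, hp.wy hJ, hp₁.wy hJ])
    (by rw [Module.finrank_fintype_fun_eq_card]; simp; omega)
  obtain ⟨s, s', h1, h2, h3, h4⟩ := exists_mat t ht hd
  exact ⟨s, s', h1, h2, h3, by rw [h4]; exact htv 0, by rw [h4]; exact htv 1⟩

end Cfsg.Agent.Lib.Helper45.TU
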