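import Mathlib
import Cfsg.Agent.Lib.Helper45.TU.Geo

set_option autoImplicit false
set_option linter.unusedVariables false
set_option linter.unusedSectionVars false

namespace Cfsg.Agent.Lib.Helper45.TU

open Matrix hiding col row
open scoped Kronecker
open Cfsg.Agent.Lib.Helper99.Tens
open Cfsg.Agent.Lib.Helper99.TSp (Ind)

variable {A B : Type} [Fintype A] [DecidableEq A] [Fintype B] [DecidableEq B] {F : Type*} [Field F] [Finite F]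
variable {φ : F →+* F} {J₁ : Matrix A A F} {J₂ : Matrix B B F} {G : Subgroup (GL (A × B) F)}

/-- `TV` is invariant under `G`. -/
lemma spread_map (hS : HasU φ J₁ J₂ G) {g g' : Matrix (A × B) (A × B) F} (hg : g ∈ MS G) (h1 : g * g' = 1)
    {v : A × B → F} (hv : v ∈ TV φ (J₁ ⊗ₖ J₂) G) : g *ᵥ v ∈ TV φ (J₁ ⊗ₖ J₂) G := by
  refine ⟨by rw [hS.iso g hg]; exact hv.1, fun c hc => ?_⟩
  have h2 := MS_conj hg h1 (N := c • vecMulVec v (fl φ (J₁ ⊗ₖ J₂) v)) (hv.2 c hc)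
  rw [Matrix.mul_smul, Matrix.smul_mul, vmv_conj (hS.h1.kron hS.h2) h1 (hS.iso g hg)] at h2
  exact h2

/-- moving along a transvection of `TV`. -/
lemma spread_step (hS : HasU φ J₁ J₂ G) {c v : A × B → F} (hc : c ∈ TV φ (J₁ ⊗ₖ J₂) G) {θ : F}
    (hθ : θ + φ θ = 0) (hv : v + (θ * pr φ (J₁ ⊗ₖ J₂) v c) • c ∈ TV φ (J₁ ⊗ₖ J₂) G) :
    v ∈ TV φ (J₁ ⊗ₖ J₂) G := by
  have hneg : -θ + φ (-θ) = 0 := by rw [map_neg]; linear_combination -hθ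
  have h1 : tv φ (J₁ ⊗ₖ J₂) c (-θ) * tv φ (J₁ ⊗ₖ J₂) c θ = 1 := by
    have := tv_mul hc.1 (-θ)
    rwa [neg_neg] at this
  have h2 := spread_map hS (hc.2 (-θ) hneg) h1 hv
  rw [← tv_mulVec, Matrix.mulVec_mulVec, h1, Matrix.one_mulVec] at h2
  exact h2

lemma spread_step_iso (hS : HasU φ J₁ J₂ G) {c v : A × B → F} (hc : pr φ (J₁ ⊗ₖ J₂) c c = 0) {θ : F}
    (hθ : θ + φ θ = 0) (hv : pr φ (J₁ ⊗ₖ J₂) v v = 0) :
    pr φ (J₁ ⊗ₖ J₂) (v + (θ * pr φ (J₁ ⊗ₖ J₂) v c) • c) (v + (θ * pr φ (J₁ ⊗ₖ J₂) v c) • c) = 0 := by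
  rw [← tv_mulVec, tv_iso (hS.h1.kron hS.h2) hc hθ]
  exact hv

/-- the relation of the proof: `v` may be moved to `v + d` modulo `A ⊗ y0`. -/
def SpR (φ : F →+* F) (J₁ : Matrix A A F) (J₂ : Matrix B B F) (G : Subgroup (GL (A × B) F)) (y0 : B → F)
    (β : A → F) (d : A × B → F) : Prop :=
  ∀ v, pr φ (J₁ ⊗ₖ J₂) v v = 0 → rho A φ J₂ y0 *ᵥ v = β →
    ∃ α : A → F, pr φ (J₁ ⊗ₖ J₂) (v + d + pt α y0) (v + d + pt α y0) = 0 ∧
      rho A φ J₂ y0 *ᵥ (v + d + pt α y0) = β ∧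
      (v + d + pt α y0 ∈ TV φ (J₁ ⊗ₖ J₂) G → v ∈ TV φ (J₁ ⊗ₖ J₂) G)

lemma SpR.add {y0 : B → F} {β : A → F} {d d' : A × B → F} (h : SpR φ J₁ J₂ G y0 β d)
    (h' : SpR φ J₁ J₂ G y0 β d') : SpR φ J₁ J₂ G y0 β (d + d') := by
  intro v hv hβ
  obtain ⟨α, h1, h2, h3⟩ := h v hv hβ
  obtain ⟨α', h1', h2', h3'⟩ := h' _ h1 h2
  have e : v + d + pt α y0 + d' + pt α' y0 = v + (d + d') + pt (α + α') y0 := by
    rw [pt_add_left]; abel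
  rw [e] at h1' h2' h3'
  exact ⟨α + α', h1', h2', fun h => h3 (h3' h)⟩

lemma spread_base (hS : HasU φ J₁ J₂ G)
    (h : ∀ (a : A → F) (y : B → F), pr φ J₂ y y = 0 → pt a y ∈ TV φ (J₁ ⊗ₖ J₂) G)
    {y0 : B → F} (hy0 : pr φ J₂ y0 y0 = 0) {β a : A → F} (hβa : pr φ J₁ β a ≠ 0) {y : B → F}
    (hy : pr φ J₂ y y = 0) (hyy0 : pr φ J₂ y y0 = 0) : SpR φ J₁ J₂ G y0 β (pt a y) := by
  intro v hv hβ
  obtain ⟨θ, hθ0, hθ⟩ := exists_skew hS.h2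
  obtain ⟨l, hl⟩ : ∃ l : F, φ l = (θ⁻¹ - pr φ J₁ (rho A φ J₂ y *ᵥ v) a) / pr φ J₁ β a :=
    ⟨φ ((θ⁻¹ - pr φ J₁ (rho A φ J₂ y *ᵥ v) a) / pr φ J₁ β a), hS.h1.invol _⟩
  have hiso : pr φ J₂ (y + l • y0) (y + l • y0) = 0 := by
    rw [pr_add_left, pr_add_right, pr_add_right, pr_smul_left, pr_smul_left, pr_smul_right, pr_smul_right,
      hy, hy0, hyy0, pr_swap0 hS.h2 hyy0]
    ring
  have hc := h a _ hiso
  have hpc : θ * pr φ (J₁ ⊗ₖ J₂) v (pt a (y + l • y0)) = 1 := by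
    rw [pr_pt_right, rho_add, rho_smul, Matrix.add_mulVec, Matrix.smul_mulVec, hβ, pr_add_left, pr_smul_left,
      hl]
    field_simp
    ring
  have e : v + pt a y + pt (l • a) y0
      = v + (θ * pr φ (J₁ ⊗ₖ J₂) v (pt a (y + l • y0))) • pt a (y + l • y0) := by
    rw [hpc, one_smul, pt_add_right, pt_smul_right, pt_smul_left]; abel
  refine ⟨l • a, ?_, ?_, ?_⟩
  · rw [e]
    exact spread_step_iso hS hc.1 hθ hv
  · rw [Matrix.mulVec_add, Matrix.mulVec_add, hβ, rho_pt, rho_pt, hyy0, hy0]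
    simp
  · rw [e]
    exact spread_step hS hc hθ

lemma spread_exists_ne (hS : HasU φ J₁ J₂ G) {β : A → F} (hβ0 : β ≠ 0) : ∃ a1, pr φ J₁ β a1 ≠ 0 := by
  by_contra hcon
  push Not at hcon
  exact hβ0 (eq_zero_of_pr hS.h1 (fun x => pr_swap0 hS.h1 (hcon x)))

lemma spread_base' (hS : HasU φ J₁ J₂ G)
    (h : ∀ (a : A → F) (y : B → F), pr φ J₂ y y = 0 → pt a y ∈ TV φ (J₁ ⊗ₖ J₂) G)
    {y0 : B → F} (hy0 : pr φ J₂ y0 y0 = 0) {β : A → F} (hβ0 : β ≠ 0) (a : A → F) {y : B → F}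
    (hy : pr φ J₂ y y = 0) (hyy0 : pr φ J₂ y y0 = 0) : SpR φ J₁ J₂ G y0 β (pt a y) := by
  by_cases hβa : pr φ J₁ β a = 0
  · obtain ⟨a1, ha1⟩ := spread_exists_ne hS hβ0
    have e : pt a y = pt (a - a1) y + pt a1 y := by rw [← pt_add_left, sub_add_cancel]
    rw [e]
    refine (spread_base hS h hy0 ?_ hy hyy0).add (spread_base hS h hy0 ha1 hy hyy0)
    rw [pr_sub_right, hβa, zero_sub]
    exact neg_ne_zero.2 ha1
  · exact spread_base hS h hy0 hβa hy hyy0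

lemma spread_perp (hS : HasU φ J₁ J₂ G) (h4 : 4 ≤ Fintype.card B)
    (h : ∀ (a : A → F) (y : B → F), pr φ J₂ y y = 0 → pt a y ∈ TV φ (J₁ ⊗ₖ J₂) G)
    {y0 : B → F} (hy0 : pr φ J₂ y0 y0 = 0) {β : A → F} (hβ0 : β ≠ 0) :
    ∀ y, pr φ J₂ y0 y = 0 → ∀ a : A → F, SpR φ J₁ J₂ G y0 β (pt a y) :=
  span_iso_perp hS.h2 h4 hy0 (fun y => ∀ a : A → F, SpR φ J₁ J₂ G y0 β (pt a y))
    (fun w w' hw hw' a => by rw [pt_add_right]; exact (hw a).add (hw' a))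
    (fun c w hw a => by rw [pt_smul_right, ← pt_smul_left]; exact hw (c • a))
    (fun w hww hyw a => spread_base' hS h hy0 hβ0 a hww (pr_swap0 hS.h2 hyw))

lemma spread_all (hS : HasU φ J₁ J₂ G) (h4 : 4 ≤ Fintype.card B)
    (h : ∀ (a : A → F) (y : B → F), pr φ J₂ y y = 0 → pt a y ∈ TV φ (J₁ ⊗ₖ J₂) G)
    {y0 v0 : B → F} (hy0 : pr φ J₂ y0 y0 = 0) (hv0 : pr φ J₂ v0 y0 = 1) {β : A → F} (hβ0 : β ≠ 0) :
    ∀ d, SpR φ J₁ J₂ G y0 β (d - pt (rho A φ J₂ y0 *ᵥ d) v0) := by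
  refine pt_induction _ ?_ ?_
  · intro d d' hd hd'
    have e : d + d' - pt (rho A φ J₂ y0 *ᵥ (d + d')) v0
        = (d - pt (rho A φ J₂ y0 *ᵥ d) v0) + (d' - pt (rho A φ J₂ y0 *ᵥ d') v0) := by
      rw [Matrix.mulVec_add, pt_add_left]; abel
    rw [e]
    exact hd.add hd'
  · intro a y
    have e : pt a y - pt (rho A φ J₂ y0 *ᵥ pt a y) v0 = pt a (y - pr φ J₂ y y0 • v0) := by
      rw [rho_pt]
      funext p
      simp only [pt, Pi.sub_apply, Pi.smul_apply, smul_eq_mul]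
      ring
    rw [e]
    refine spread_perp hS h4 h hy0 hβ0 _ ?_ a
    apply pr_swap0 hS.h2
    rw [pr_sub_left, pr_smul_left, hv0, mul_one, sub_self]

lemma spread_fin1 (hS : HasU φ J₁ J₂ G)
    (h : ∀ (a : A → F) (y : B → F), pr φ J₂ y y = 0 → pt a y ∈ TV φ (J₁ ⊗ₖ J₂) G)
    {y0 v0 : B → F} (hy0 : pr φ J₂ y0 y0 = 0) (hv0v0 : pr φ J₂ v0 v0 = 0) (hv0 : pr φ J₂ v0 y0 = 1)
    {β α : A → F} (hσ : pr φ J₁ α β ≠ 0)
    (hiso : pr φ (J₁ ⊗ₖ J₂) (pt β v0 + pt α y0) (pt β v0 + pt α y0) = 0) :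
    pt β v0 + pt α y0 ∈ TV φ (J₁ ⊗ₖ J₂) G := by
  have hsk : pr φ J₁ α β + φ (pr φ J₁ α β) = 0 := by
    rw [pr_add_left, pr_add_right, pr_add_right, pr_pt, pr_pt, pr_pt, pr_pt, hy0, hv0v0, hv0,
      pr_swap1 hS.h2 hv0, pr_swap hS.h1 β α] at hiso
    linear_combination hiso
  have hφ : φ (pr φ J₁ α β) = - pr φ J₁ α β := by linear_combination hsk
  have hθ : (pr φ J₁ α β)⁻¹ + φ ((pr φ J₁ α β)⁻¹) = 0 := by
    rw [map_inv₀, hφ, inv_neg, add_neg_cancel]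
  refine spread_step hS (h α y0 hy0) hθ ?_
  have e : pr φ (J₁ ⊗ₖ J₂) (pt β v0 + pt α y0) (pt α y0) = - pr φ J₁ α β := by
    rw [pr_add_left, pr_pt, pr_pt, hy0, hv0, pr_swap hS.h1 β α, hφ]
    ring
  rw [e, mul_neg, inv_mul_cancel₀ hσ, neg_smul, one_smul, add_neg_cancel_right]
  exact h β v0 hv0v0

lemma spread_fin (hS : HasU φ J₁ J₂ G)
    (h : ∀ (a : A → F) (y : B → F), pr φ J₂ y y = 0 → pt a y ∈ TV φ (J₁ ⊗ₖ J₂) G)
    {y0 v0 : B → F} (hy0 : pr φ J₂ y0 y0 = 0) (hv0v0 : pr φ J₂ v0 v0 = 0) (hv0 : pr φ J₂ v0 y0 = 1)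
    {β α : A → F} (hβ0 : β ≠ 0)
    (hiso : pr φ (J₁ ⊗ₖ J₂) (pt β v0 + pt α y0) (pt β v0 + pt α y0) = 0) :
    pt β v0 + pt α y0 ∈ TV φ (J₁ ⊗ₖ J₂) G := by
  by_cases hσ : pr φ J₁ α β = 0
  · obtain ⟨a, ha⟩ := spread_exists_ne hS hβ0
    obtain ⟨θ, hθ0, hθ⟩ := exists_skew hS.h2
    have hc := h a y0 hy0
    have e : pr φ (J₁ ⊗ₖ J₂) (pt β v0 + pt α y0) (pt a y0) = pr φ J₁ β a := by
      rw [pr_add_left, pr_pt, pr_pt, hy0, hv0]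
      ring
    have e2 : pt β v0 + pt α y0 + (θ * pr φ (J₁ ⊗ₖ J₂) (pt β v0 + pt α y0) (pt a y0)) • pt a y0
        = pt β v0 + pt (α + (θ * pr φ J₁ β a) • a) y0 := by
      rw [e, pt_add_left, pt_smul_left, add_assoc]
    have h1 := spread_step_iso hS hc.1 hθ hiso
    refine spread_step hS hc hθ ?_
    rw [e2] at h1 ⊢
    refine spread_fin1 hS h hy0 hv0v0 hv0 ?_ h1
    rw [pr_add_left, pr_smul_left, hσ, zero_add]
    refine mul_ne_zero (mul_ne_zero hθ0 ha) ?_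
    intro h0
    exact ha (pr_swap0 hS.h1 h0)
  · exact spread_fin1 hS h hy0 hv0v0 hv0 hσ hiso

theorem spread [Nonempty A] (hS : HasU φ J₁ J₂ G) (h4 : 4 ≤ Fintype.card B)
    (h : ∀ (a : A → F) (y : B → F), pr φ J₂ y y = 0 → pt a y ∈ TV φ (J₁ ⊗ₖ J₂) G) :
    ∀ v, pr φ (J₁ ⊗ₖ J₂) v v = 0 → v ∈ TV φ (J₁ ⊗ₖ J₂) G := by
  intro v hv
  have hpt0 : ∀ y : B → F, pt (0 : A → F) y = 0 := by
    intro y; funext p; simp [pt]
  by_cases hex : ∃ y0, pr φ J₂ y0 y0 = 0 ∧ rho A φ J₂ y0 *ᵥ v ≠ 0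
  · obtain ⟨y0, hy0, hβ0⟩ := hex
    have hy0ne : y0 ≠ 0 := by
      rintro rfl
      exact hβ0 (by rw [rho_zero, Matrix.zero_mulVec])
    obtain ⟨v0, hv0v0, hv0⟩ := exists_partner hS.h2 hy0ne hy0
    have hR := spread_all hS h4 h hy0 hv0 hβ0 (pt (rho A φ J₂ y0 *ᵥ v) v0 - v)
    have e0 : rho A φ J₂ y0 *ᵥ (pt (rho A φ J₂ y0 *ᵥ v) v0 - v) = 0 := by
      rw [Matrix.mulVec_sub, rho_pt, hv0, one_smul, sub_self]
    rw [e0, hpt0, sub_zero] at hR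
    obtain ⟨α, h1, h2, h3⟩ := hR v hv rfl
    have e : v + (pt (rho A φ J₂ y0 *ᵥ v) v0 - v) + pt α y0 = pt (rho A φ J₂ y0 *ᵥ v) v0 + pt α y0 := by
      abel
    rw [e] at h1 h3
    exact h3 (spread_fin hS h hy0 hv0v0 hv0 hβ0 h1)
  · push Not at hex
    have h0 : ∀ y, rho A φ J₂ y *ᵥ v = 0 :=
      span_iso hS.h2 (by omega) (fun y => rho A φ J₂ y *ᵥ v = 0)
        (fun w w' hw hw' => by rw [rho_add, Matrix.add_mulVec, hw, hw', add_zero]) hex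
    have hv0 : v = 0 := by
      apply eq_zero_of_pr (hS.h1.kron hS.h2)
      intro x
      apply pr_swap0 (hS.h1.kron hS.h2)
      revert x
      exact pt_induction _ (fun x x' hx hx' => by rw [pr_add_right, hx, hx', add_zero])
        (fun a y => by rw [pr_pt_right, h0, pr_zero_left])
    rw [hv0]
    have h5 := h 0 0 (pr_zero_left _)
    rwa [hpt0] at h5

end Cfsg.Agent.Lib.Helper45.TU
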