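import Mathlib
import Cfsg.Agent.Lib.Helper45.TU.Core
import Cfsg.Agent.Lib.Helper99.SpW
import Cfsg.Agent.Lib.Helper94.TensHerm

set_option autoImplicit false
set_option linter.unusedVariables false
set_option linter.unusedSectionVars false

/-! Wrapper for S5670. -/

namespace Cfsg.Agent.Lib.Helper45.TU

open Matrix hiding col row
open scoped Kronecker
open Cfsg.Agent.Lib.Helper99.Tens
open Cfsg.Agent.Lib.Helper99.TSp (Ind tensE_mulVec vmv_not_scalar)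
open Cfsg.Agent.Lib.Helper13 (frobQ frobQ_apply frobQ_ne_id pow_q_pow_q)

section form

variable {n : Type} [Fintype n] [DecidableEq n] {F : Type*} [Field F] [Fintype F] {q : ℕ}

lemma pr_eq_formOfGram (hF : Fintype.card F = q ^ 2) (J : Matrix n n F) (x w : n → F) :
    pr (frobQ hF) J x w = Cfsg.Geo.formOfGram (fun t : F => t ^ q) J x w := by
  unfold pr fl cj Cfsg.Geo.formOfGram
  simp only [dotProduct, Matrix.mulVec, frobQ_apply, Finset.sum_mul]
  refine Finset.sum_congr rfl fun a _ => Finset.sum_congr rfl fun b _ => ?_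
  ring

lemma pr_gram (hF : Fintype.card F = q ^ 2) {f : (n → F) → (n → F) → F} (hf : Cfsg.Geo.IsUnitaryFormPow q f)
    (x w : n → F) : pr (frobQ hF) (Cfsg.Geo.gramMatrix f) x w = f x w := by
  rw [pr_eq_formOfGram, Cfsg.Agent.Lib.Helper94.Tens.formOfGram_gram_pow hF f hf]

lemma hrm_gram (hF : Fintype.card F = q ^ 2) {f : (n → F) → (n → F) → F} (hf : Cfsg.Geo.IsUnitaryFormPow q f) :
    Hrm (frobQ hF) (Cfsg.Geo.gramMatrix f) where
  ne_id := frobQ_ne_id hF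
  invol := fun a => pow_q_pow_q hF a
  herm := fun x w => by
    rw [pr_gram hF hf, pr_gram hF hf, frobQ_apply]
    exact (hf.herm w x).symm
  unit := by
    rw [isUnit_iff_ne_zero]
    intro h0
    obtain ⟨v, hv, hv0⟩ := Matrix.exists_mulVec_eq_zero_iff.2 h0
    have hv' : cj (frobQ hF) v ≠ 0 := by
      intro h
      apply hv
      funext i
      have := congrFun h i
      simp only [cj, frobQ_apply, Pi.zero_apply] at this
      exact pow_eq_zero_iff (by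
        rintro rfl
        simp at hF) |>.1 this
    obtain ⟨x, hx⟩ := (hf.nondegenerate _ hv').1
    apply hx
    rw [← pr_gram hF hf]
    unfold pr fl
    have : cj (frobQ hF) (cj (frobQ hF) v) = v := by
      funext i
      simp only [cj, frobQ_apply]
      exact pow_q_pow_q hF _
    rw [this, hv0, zero_dotProduct]

end form

section AB

variable {A B : Type} [Fintype A] [DecidableEq A] [Fintype B] [DecidableEq B] {F : Type*} [Field F]
variable {φ : F →+* F} {J₁ : Matrix A A F} {J₂ : Matrix B B F}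

lemma IsoM.kron {r : Matrix A A F} {s : Matrix B B F} (hr : IsoM φ J₁ r) (hs : IsoM φ J₂ s) :
    IsoM φ (J₁ ⊗ₖ J₂) (r ⊗ₖ s) := by
  intro x
  refine pt_induction (fun x => ∀ w, pr φ (J₁ ⊗ₖ J₂) ((r ⊗ₖ s) *ᵥ x) ((r ⊗ₖ s) *ᵥ w) = pr φ (J₁ ⊗ₖ J₂) x w)
    ?_ ?_ x
  · intro v v' h h' w
    rw [Matrix.mulVec_add, pr_add_left, pr_add_left, h, h']
  · intro a y w
    refine pt_induction (fun w => pr φ (J₁ ⊗ₖ J₂) ((r ⊗ₖ s) *ᵥ pt a y) ((r ⊗ₖ s) *ᵥ w)
      = pr φ (J₁ ⊗ₖ J₂) (pt a y) w) ?_ ?_ w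
    · intro v v' h h'
      rw [Matrix.mulVec_add, pr_add_right, pr_add_right, h, h']
    · intro a' y'
      rw [kron_pt, kron_pt, pr_pt, pr_pt, hr, hs]

/-- the special isometry group of a hermitian matrix. -/
def SUk {ι : Type} [Fintype ι] [DecidableEq ι] (φ : F →+* F) (J : Matrix ι ι F) : Subgroup (GL ι F) where
  carrier := {g | IsoM φ J (g : Matrix ι ι F) ∧ (g : Matrix ι ι F).det = 1}
  mul_mem' := by
    rintro a b ⟨ha, ha'⟩ ⟨hb, hb'⟩
    refine ⟨?_, ?_⟩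
    · rw [Units.val_mul]; exact ha.mul hb
    · rw [Units.val_mul, Matrix.det_mul, ha', hb', one_mul]
  one_mem' := ⟨by rw [Units.val_one]; exact IsoM.one, by rw [Units.val_one, Matrix.det_one]⟩
  inv_mem' := by
    rintro a ⟨ha, ha'⟩
    have h1 : (a : Matrix ι ι F) * ((a⁻¹ : GL ι F) : Matrix ι ι F) = 1 := by
      rw [← Units.val_mul, mul_inv_cancel, Units.val_one]
    refine ⟨ha.inv h1, ?_⟩
    have := congrArg Matrix.det h1
    rwa [Matrix.det_mul, ha', one_mul, Matrix.det_one] at this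

lemma mem_SUk {ι : Type} [Fintype ι] [DecidableEq ι] {J : Matrix ι ι F} (g : GL ι F) :
    g ∈ SUk φ J ↔ IsoM φ J (g : Matrix ι ι F) ∧ (g : Matrix ι ι F).det = 1 := Iff.rfl

/-- long elements which are Kronecker products have scalar parameter. -/
lemma scalar_of_isKr_long [Nonempty A] (h₂ : Hrm φ J₂) {y v' : B → F} (hy : y ≠ 0) (hyy : pr φ J₂ y y = 0)
    (hv' : pr φ J₂ v' y = 1)
    {κ : Matrix A A F} (hk : IsKr (1 + N φ J₂ y y κ)) : ∃ a : F, κ = a • (1 : Matrix A A F) := by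
  obtain ⟨α, β, hαβ⟩ := hk
  have e1 : col A (β *ᵥ y) * α = col A y := by
    rw [← kron_mul_col, ← hαβ, Matrix.add_mul, Matrix.one_mul, N_col, hyy]
    simp
  obtain ⟨η, hη⟩ := exists_dot_one hy
  have e2 : (η ⬝ᵥ (β *ᵥ y)) • α = 1 := by
    have := congrArg (fun M => row A η * M) e1
    simp only [row_col_assoc, row_mul_col, hη, one_smul] at this
    exact this
  have ht : η ⬝ᵥ (β *ᵥ y) ≠ 0 := by
    intro h0
    rw [h0, zero_smul] at e2
    exact zero_ne_one e2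
  have hα : α = (η ⬝ᵥ (β *ᵥ y))⁻¹ • (1 : Matrix A A F) := by
    rw [← e2, smul_smul, inv_mul_cancel₀ ht, one_smul]
  have e3 : col A (β *ᵥ v') * α = col A v' + col A y * κ := by
    rw [← kron_mul_col, ← hαβ, Matrix.add_mul, Matrix.one_mul, N_col, hv']
    simp
  have := congrArg (fun M => row A η * M) e3
  simp only [row_col_assoc, row_mul_col, Matrix.mul_add, hη, one_smul] at this
  refine ⟨(η ⬝ᵥ (β *ᵥ v')) * (η ⬝ᵥ (β *ᵥ y))⁻¹ - η ⬝ᵥ v', ?_⟩
  rw [sub_smul, mul_smul, ← hα, this]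
  abel

/-- **Maximality** in the `A ⊗ B` model. -/
theorem maximal_AB [Finite F] (h₁ : Hrm φ J₁) (h₂ : Hrm φ J₂) (h2 : 2 ≤ Fintype.card A)
    (hAB : Fintype.card A < Fintype.card B) (h13 : 13 ≤ Fintype.card A * Fintype.card B)
    (hex : ¬ (Fintype.card A = 2 ∧ Nat.card F = 4)) {Kr : Subgroup (GL (A × B) F)}
    (hKr : ∀ g : GL (A × B) F, g ∈ Kr ↔ IsKr (g : Matrix (A × B) (A × B) F)) :
    Cfsg.Geo.IsMaximalIn (SUk φ (J₁ ⊗ₖ J₂)) (Kr ⊓ SUk φ (J₁ ⊗ₖ J₂)) := by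
  have : Nonempty A := Fintype.card_pos_iff.1 (by omega)
  have : Nonempty B := Fintype.card_pos_iff.1 (by omega)
  refine Cfsg.Agent.Lib.Helper94.isMaximalIn_of_core _ _ inf_le_right ?_ ?_
  · obtain ⟨y, hy, hyy⟩ := exists_iso h₂ (by omega)
    obtain ⟨v', -, hv'⟩ := exists_partner h₂ hy hyy
    obtain ⟨z, hz, -⟩ := exists_iso h₁ h2
    obtain ⟨θ, hθ0, hθ⟩ := exists_skew h₂
    have h0 : pr φ (J₁ ⊗ₖ J₂) (pt z y) (pt z y) = 0 := by rw [pr_pt, hyy, mul_zero]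
    have hmul := tv_mul (φ := φ) (J := J₁ ⊗ₖ J₂) h0 θ
    have hdet := tv_det (φ := φ) (J := J₁ ⊗ₖ J₂) h0 θ
    refine ⟨Matrix.GeneralLinearGroup.mk'' (tv φ (J₁ ⊗ₖ J₂) (pt z y) θ) (by rw [hdet]; exact isUnit_one),
      ⟨tv_iso (Hrm.kron h₁ h₂) h0 hθ, hdet⟩, fun hmem => ?_⟩
    have hk := (hKr _).1 (Subgroup.mem_inf.1 hmem).1
    have hk' : IsKr (1 + N φ J₂ y y (θ • vecMulVec z (fl φ J₁ z))) := by
      rw [N_rank_one]
      exact hk
    obtain ⟨a, ha⟩ := scalar_of_isKr_long h₂ hy hyy hv' hk'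
    have hne := vmv_not_scalar h2 hz (fun h0 => hz (h₁.inj h0)) (θ⁻¹ * a)
    apply hne
    rw [mul_smul, ← ha, smul_smul, inv_mul_cancel₀ hθ0, one_smul]
  · intro M hHM hMK g0 hg0 hg0H
    have hS : HasU φ J₁ J₂ M :=
      { h1 := h₁
        h2 := h₂
        hB := by
          intro s s' hs hi hd
          have hdd : ((1 : Matrix A A F) ⊗ₖ s).det = 1 := by
            rw [Matrix.det_kronecker, hd, Matrix.det_one, one_pow, one_pow, one_mul]
          refine ⟨Matrix.GeneralLinearGroup.mk'' ((1 : Matrix A A F) ⊗ₖ s) (by rw [hdd]; exact isUnit_one),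
            hHM (Subgroup.mem_inf.2 ⟨(hKr _).2 ⟨1, s, rfl⟩, ⟨IsoM.kron IsoM.one hi, hdd⟩⟩), rfl⟩
        hA := by
          intro r r' hr hi hd
          have hdd : (r ⊗ₖ (1 : Matrix B B F)).det = 1 := by
            rw [Matrix.det_kronecker, hd, Matrix.det_one, one_pow, one_pow, one_mul]
          refine ⟨Matrix.GeneralLinearGroup.mk'' (r ⊗ₖ (1 : Matrix B B F)) (by rw [hdd]; exact isUnit_one),
            hHM (Subgroup.mem_inf.2 ⟨(hKr _).2 ⟨r, 1, rfl⟩, ⟨IsoM.kron hi IsoM.one, hdd⟩⟩), rfl⟩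
        iso := by
          rintro g ⟨g', hg', rfl⟩
          exact (hMK hg').1 }
    have hnk : ¬ IsKr (g0 : Matrix (A × B) (A × B) F) := fun hk =>
      hg0H (Subgroup.mem_inf.2 ⟨(hKr g0).2 hk, hMK hg0⟩)
    intro k hk
    have h1 : (g0 : Matrix (A × B) (A × B) F) * ((g0⁻¹ : GL (A × B) F) : Matrix (A × B) (A × B) F) = 1 := by
      rw [← Units.val_mul, mul_inv_cancel, Units.val_one]
    have h1k : (k : Matrix (A × B) (A × B) F) * ((k⁻¹ : GL (A × B) F) : Matrix (A × B) (A × B) F) = 1 := by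
      rw [← Units.val_mul, mul_inv_cancel, Units.val_one]
    obtain ⟨k', hk', hkk⟩ := core hS h2 hAB h13 hex (MS_coe hg0) h1 hnk h1k hk.1 hk.2
    have : k' = k := Units.ext hkk
    exact this ▸ hk'

end AB

section transport

variable {F : Type*} [Field F] [Fintype F] {n q n₁ n₂ : ℕ}

lemma mem_GU_tensE (hF : Fintype.card F = q ^ 2) (e : Fin n ≃ Fin n₁ × Fin n₂)
    (P : Matrix.GeneralLinearGroup (Fin n) F) (f₁ : (Fin n₁ → F) → (Fin n₁ → F) → F)
    (f₂ : (Fin n₂ → F) → (Fin n₂ → F) → F)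
    (hT : Cfsg.Geo.IsTensorFormStructure (fun x : F => x ^ q) (Cfsg.hermForm n F q) f₁ f₂ e P)
    (g : GL (Fin n₁ × Fin n₂) F) :
    tensE e P g ∈ Cfsg.GU n F q ↔
      IsoM (frobQ hF) (Cfsg.Geo.gramMatrix f₁ ⊗ₖ Cfsg.Geo.gramMatrix f₂)
        (g : Matrix (Fin n₁ × Fin n₂) (Fin n₁ × Fin n₂) F) := by
  obtain ⟨c, hc0, hc⟩ := hT
  constructor
  · intro h x w
    have := h ((P : Matrix (Fin n) (Fin n) F) *ᵥ (x ∘ e)) ((P : Matrix (Fin n) (Fin n) F) *ᵥ (w ∘ e))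
    simp only [Units.coeHom_apply] at this
    rw [tensE_mulVec, tensE_mulVec, hc, hc] at this
    rw [pr_eq_formOfGram, pr_eq_formOfGram]
    exact mul_left_cancel₀ hc0 this
  · intro h u v
    obtain ⟨x, rfl⟩ := (Cfsg.Agent.Lib.Helper94.Tens.TT e P).surjective u
    obtain ⟨w, rfl⟩ := (Cfsg.Agent.Lib.Helper94.Tens.TT e P).surjective v
    simp only [Units.coeHom_apply]
    rw [Cfsg.Agent.Lib.Helper94.Tens.TT_apply, Cfsg.Agent.Lib.Helper94.Tens.TT_apply, tensE_mulVec,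
      tensE_mulVec, hc, hc, ← pr_eq_formOfGram hF, ← pr_eq_formOfGram hF, h]

lemma su_eq (hF : Fintype.card F = q ^ 2) (e : Fin n ≃ Fin n₁ × Fin n₂)
    (P : Matrix.GeneralLinearGroup (Fin n) F) (f₁ : (Fin n₁ → F) → (Fin n₁ → F) → F)
    (f₂ : (Fin n₂ → F) → (Fin n₂ → F) → F)
    (hT : Cfsg.Geo.IsTensorFormStructure (fun x : F => x ^ q) (Cfsg.hermForm n F q) f₁ f₂ e P) :
    Cfsg.GU n F q ⊓ Cfsg.Geo.specialLinear (Fin n) F =
      (SUk (frobQ hF) (Cfsg.Geo.gramMatrix f₁ ⊗ₖ Cfsg.Geo.gramMatrix f₂)).comap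
        (tensE e P).symm.toMonoidHom := by
  ext g
  rw [Subgroup.mem_inf, Subgroup.mem_comap, mem_SUk, mem_sl_iff]
  have h1 := mem_GU_tensE hF e P f₁ f₂ hT ((tensE e P).symm g)
  have h2 := tensE_det e P ((tensE e P).symm g)
  rw [MulEquiv.apply_symm_apply] at h1 h2
  rw [h1, h2]
  rfl

theorem wrap (hF : Fintype.card F = q ^ 2) (hn : 13 ≤ n) (h1 : 2 ≤ n₁) (h12 : n₁ < n₂)
    (hex : ¬ (n₁ = 2 ∧ q = 2)) (e : Fin n ≃ Fin n₁ × Fin n₂) (P : Matrix.GeneralLinearGroup (Fin n) F)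
    (f₁ : (Fin n₁ → F) → (Fin n₁ → F) → F) (f₂ : (Fin n₂ → F) → (Fin n₂ → F) → F)
    (hf₁ : Cfsg.Geo.IsUnitaryFormPow q f₁) (hf₂ : Cfsg.Geo.IsUnitaryFormPow q f₂)
    (hT : Cfsg.Geo.IsTensorFormStructure (fun x : F => x ^ q) (Cfsg.hermForm n F q) f₁ f₂ e P) :
    Cfsg.Geo.IsMaximalIn (Cfsg.GU n F q ⊓ Cfsg.Geo.specialLinear (Fin n) F)
      (Cfsg.Geo.tensorProductSubgroup n₁ n₂ e P ⊓ (Cfsg.GU n F q ⊓ Cfsg.Geo.specialLinear (Fin n) F)) := by
  classical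
  have hcard : n = n₁ * n₂ := by
    have := Fintype.card_congr e
    simpa using this
  haveI : NeZero n₁ := ⟨by omega⟩
  haveI : NeZero n₂ := ⟨by omega⟩
  rw [tensorProductSubgroup_eq e P, su_eq hF e P f₁ f₂ hT, ← Subgroup.comap_inf]
  apply Cfsg.Agent.Lib.Helper94.isMaximalIn_comap (tensE e P).symm
  refine maximal_AB (hrm_gram hF hf₁) (hrm_gram hF hf₂) (by simpa using h1) (by simpa using h12)
    (by simp only [Fintype.card_fin]; omega) ?_ (Kr := Cfsg.Geo.kroneckerSubgroup n₁ n₂ F)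
    (fun g => mem_kron_iff g)
  rintro ⟨ha, hb⟩
  apply hex
  refine ⟨by simpa using ha, ?_⟩
  rw [Nat.card_eq_fintype_card, hF] at hb
  nlinarith [hb]

end transport

end Cfsg.Agent.Lib.Helper45.TU
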